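import Cfsg.Agent.H26.AugNil
import Cfsg.Agent.H26.Brauer
import Cfsg.Agent.H1.Cores

/-!
Class sums of elements not centralizing `O_p(G)` are nilpotent (helper11).
-/
set_option autoImplicit false

namespace Cfsg.Agent.H11

open Cfsg Cfsg.Agent.H26 MulAction

universe u

theorem class_sum_nilpotent {G : Type*} [Group G] [Finite G] (p : ℕ) [Fact p.Prime] {F : Type*}
    [Field F] [CharP F p] (P : Subgroup G) [P.Normal] (hP : IsPGroup p P) (a : MonoidAlgebra F G)
    (hcl : ∀ x y : G, a.coeff (y * x * y⁻¹) = a.coeff x)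
    (h0 : ∀ x ∈ Subgroup.centralizer (P : Set G), a.coeff x = 0) : IsNilpotent a := by
  classical
  have := Fintype.ofFinite G
  have := Fintype.ofFinite P
  refine isNilpotent_of_coset_sum P hP a fun x => ?_
  have h1 : ∑ u : P, a.coeff (x * u) = ∑ y : G, if x⁻¹ * y ∈ P then a.coeff y else 0 := by
    rw [← Finset.sum_filter]
    refine Finset.sum_bij (fun (u : P) _ => x * (u : G)) ?_ ?_ ?_ ?_
    · intro u _
      rw [Finset.mem_filter]
      exact ⟨Finset.mem_univ _, by rw [inv_mul_cancel_left]; exact u.2⟩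
    · intro u _ v _ h
      exact Subtype.ext (mul_left_cancel h)
    · intro y hy
      rw [Finset.mem_filter] at hy
      exact ⟨⟨x⁻¹ * y, hy.2⟩, Finset.mem_univ _, by simp⟩
    · intro u _
      rfl
  rw [h1]
  let _ : MulAction P G := conjAct P
  have hsm : ∀ (g : P) (y : G), g • y = (g : G) * y * (g : G)⁻¹ := fun g y => rfl
  rw [sum_eq_sum_fixedPoints hP (α := G) (A := F)
    (fun c => by rw [nsmul_eq_mul, CharP.cast_eq_zero, zero_mul])
    (fun y => if x⁻¹ * y ∈ P then a.coeff y else 0)]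
  · apply Finset.sum_eq_zero
    intro y hy
    rw [Finset.mem_filter] at hy
    have hc : y ∈ Subgroup.centralizer (P : Set G) := by
      rw [Subgroup.mem_centralizer_iff]
      intro g hg
      have := hy.2 ⟨g, hg⟩
      rw [hsm] at this
      exact mul_inv_eq_iff_eq_mul.mp this
    rw [h0 y hc, ite_self]
  · intro g y
    rw [hsm, hcl]
    have : x⁻¹ * ((g : G) * y * (g : G)⁻¹) ∈ P ↔ x⁻¹ * y ∈ P := by
      have e : x⁻¹ * ((g : G) * y * (g : G)⁻¹) = (x⁻¹ * g * x) * (x⁻¹ * y) * (g : G)⁻¹ := by group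
      rw [e, P.mul_mem_cancel_right (P.inv_mem g.2), P.mul_mem_cancel_left]
      have := (inferInstance : P.Normal).conj_mem g g.2 x⁻¹
      rwa [inv_inv] at this
    simp only [this]

end Cfsg.Agent.H11
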