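import Cfsg.Agent.H11.Third2
import Cfsg.Agent.H3.BurnsidePQ
import Cfsg.Agent.S0914

/-!
Principal block characters of prime power degree in simple groups (helper11).
-/
set_option autoImplicit false

namespace Cfsg.Agent.H11

open Cfsg Cfsg.Agent.H3 Cfsg.Agent.H27 ComplexConjugate

universe u

variable {G : Type*} [Group G] [Finite G]

theorem simple_zero_of_coprime [IsSimpleGroup G] (hna : ∃ a b : G, a * b ≠ b * a) {χ : G → ℂ}
    (hχ : IsIrrCharacter G χ) (h1 : χ ≠ fun _ => 1) {g : G} (hg : g ≠ 1)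
    (hcop : Nat.Coprime (charDegree χ) (Subgroup.centralizer ({g} : Set G)).index) : χ g = 0 := by
  obtain ⟨n, ρ, hρ, hχρ⟩ := id hχ
  have hfin : Module.finrank ℂ (Fin n → ℂ) = charDegree χ := by
    have h2 := charDegree_cast (irr_isChar hχ)
    have : ((Module.finrank ℂ (Fin n → ℂ) : ℕ) : ℂ) = (charDegree χ : ℂ) := by
      rw [h2, ← hχρ, Representation.char_one]
    exact_mod_cast this
  rw [← hfin] at hcop
  rcases rep_char_zero_or_norm_eq ρ g hcop with h2 | h2
  · rw [hχρ] at h2; exact h2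
  · obtain ⟨a, b, hab⟩ := hna
    exact absurd (simple_of_scalar hχ h1 ρ hχρ g hg ((rep_norm_eq_iff_scalar ρ g).mp h2) a b) hab

theorem exists_central_p {p : ℕ} [hp : Fact p.Prime] (h : p ∣ Nat.card G) :
    ∃ z : G, z ≠ 1 ∧ ¬ p ∣ (Subgroup.centralizer ({z} : Set G)).index := by
  obtain ⟨P⟩ := (inferInstance : Nonempty (Sylow p G))
  have hne : (P : Subgroup G) ≠ ⊥ := P.ne_bot_of_dvd_card h
  have hnt : Nontrivial P := (Subgroup.nontrivial_iff_ne_bot _).mpr hne
  have := P.isPGroup'.center_nontrivial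
  obtain ⟨⟨z, hz⟩, hz1⟩ := exists_ne (1 : Subgroup.center P)
  refine ⟨z, ?_, ?_⟩
  · intro h1
    exact hz1 (Subtype.ext (Subtype.ext h1))
  · intro h1
    have hle : (P : Subgroup G) ≤ Subgroup.centralizer ({(z : G)} : Set G) := by
      intro x hx
      rw [Subgroup.mem_centralizer_singleton_iff]
      have h2 := Subgroup.mem_center_iff.mp hz ⟨x, hx⟩
      exact congrArg Subtype.val h2
    have h2 : (Subgroup.centralizer ({(z : G)} : Set G)).index ∣ (P : Subgroup G).index :=
      Subgroup.index_dvd_of_le hle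
    exact P.not_dvd_index (h1.trans h2)

theorem principal_power_degree {p : ℕ} [hp : Fact p.Prime] {M : Ideal AlgInt}
    (hM : IsPModular p M) [IsSimpleGroup G] (hna : ∃ a b : G, a * b ≠ b * a)
    (χ : IrrCharacter G) (hχ : χ ∈ principalBlock M G) (k : ℕ)
    (hdeg : (χ : G → ℂ) 1 = (p : ℂ) ^ k) : (χ : G → ℂ) = fun _ => 1 := by
  by_contra hne
  have hMp : M.IsPrime := pmod_isPrime hM
  by_cases hpG : p ∣ Nat.card G
  · obtain ⟨z, hz1, hz⟩ := exists_central_p hpG
    have hcd : charDegree (χ : G → ℂ) = p ^ k := by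
      have h2 := charDegree_cast (irr_isChar χ.2)
      rw [hdeg] at h2
      exact_mod_cast h2
    have h0 : (χ : G → ℂ) z = 0 := by
      refine simple_zero_of_coprime hna χ.2 hne hz1 ?_
      rw [hcd]
      exact Nat.Coprime.pow_left k ((Nat.Prime.coprime_iff_not_dvd hp.out).mpr hz)
    have h1 := hχ z
    have h2 : centralChar (fun _ : G => (1 : ℂ)) z =
        ((Subgroup.centralizer ({z} : Set G)).index : ℂ) := by
      unfold centralChar; simp
    have h3 : centralChar (χ : G → ℂ) z = 0 := by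
      unfold centralChar; rw [h0]; simp
    rw [h2, h3, sub_zero, li_natCast_iff hM] at h1
    exact hz h1
  · have h1 : blockOf M ((⟨fun _ => 1, isIrr_one⟩ : IrrCharacter G) : G → ℂ) =
        {(⟨fun _ => 1, isIrr_one⟩ : IrrCharacter G)} := by
      rw [← Cfsg.Agent.S0914.result p M hM]
      intro h
      exact hpG (h.trans (Nat.div_dvd_of_dvd (by
        have : charDegree (fun _ : G => (1 : ℂ)) = 1 := by unfold charDegree; simp
        show charDegree (fun _ : G => (1 : ℂ)) ∣ _
        rw [this]; exact one_dvd _)))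
    have h2 : χ ∈ blockOf M ((⟨fun _ => 1, isIrr_one⟩ : IrrCharacter G) : G → ℂ) := hχ
    rw [h1, Set.mem_singleton_iff] at h2
    exact hne (congrArg Subtype.val h2)

end Cfsg.Agent.H11
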