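import Cfsg.Agent.H11.Blk2
import Cfsg.Agent.H3.BrauerE
import Cfsg.Agent.H27.PMod

/-!
Simple groups of order `p^a q^b r` (helper11).
-/
set_option autoImplicit false

namespace Cfsg.Agent.H11

open Cfsg Cfsg.Agent.H3 Cfsg.Agent.H27 ComplexConjugate

universe u

variable {G : Type*} [Group G] [Finite G]

theorem no_commuting_pr [IsSimpleGroup G] (hna : ∃ a b : G, a * b ≠ b * a) {p q r a b : ℕ}
    (hp : p.Prime) (hq : q.Prime) (hr : r.Prime) (hpr : p ≠ r) (hqr : q ≠ r)
    (hcard : Nat.card G = p ^ a * q ^ b * r) {x y : G} (hx : orderOf x = p) (hy : orderOf y = r)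
    (hxy : x * y = y * x) : False := by
  classical
  have := Fintype.ofFinite G
  have hpf : Fact p.Prime := ⟨hp⟩
  obtain ⟨M, hM⟩ := exists_isPModular hp
  have := Fintype.ofFinite (IrrCharacter G)
  have hMp : M.IsPrime := pmod_isPrime hM
  have hcop : Nat.Coprime p r := (Nat.coprime_primes hp hr).mpr hpr
  have hz : orderOf (x * y) = p * r := by
    have h1 : Commute x y := hxy
    rw [h1.orderOf_mul_eq_mul_orderOf_of_coprime (by rw [hx, hy]; exact hcop), hx, hy]
  have hzp : p ∣ orderOf (x * y) := by rw [hz]; exact dvd_mul_right _ _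
  have hzr : r ∣ orderOf (x * y) := by rw [hz]; exact dvd_mul_left _ _
  have hr2 : ¬ r ^ (1 + 1) ∣ Nat.card G := by
    intro h
    rw [hcard, show 1 + 1 = 2 from rfl, sq] at h
    have h1 : r ∣ p ^ a * q ^ b := Nat.dvd_of_mul_dvd_mul_right hr.pos h
    rcases hr.dvd_mul.mp h1 with h2 | h2
    · exact hpr ((Nat.prime_dvd_prime_iff_eq hr hp).mp (hr.dvd_of_dvd_pow h2)).symm
    · exact hqr ((Nat.prime_dvd_prime_iff_eq hr hq).mp (hr.dvd_of_dvd_pow h2)).symm
  have hsum := weak_block_orthogonality hM (B := principalBlock M G) principalBlock_isPBlock 1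
    (x * y) (by rw [orderOf_one]; exact hp.one_lt.ne' ∘ Nat.dvd_one.mp) hzp
  rw [finsum_mem_irr] at hsum
  have hone : (⟨fun _ => 1, isIrr_one⟩ : IrrCharacter G) ∈
      Finset.univ.filter (fun χ : IrrCharacter G => χ ∈ principalBlock M G) := by
    rw [Finset.mem_filter]
    exact ⟨Finset.mem_univ _, mem_blockOf_self (⟨fun _ => 1, isIrr_one⟩ : IrrCharacter G)⟩
  rw [← Finset.add_sum_erase _ _ hone] at hsum
  simp only [one_mul, map_one] at hsum
  have hterm : ∀ χ ∈ (Finset.univ.filter (fun χ : IrrCharacter G => χ ∈ principalBlock M G)).erase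
      (⟨fun _ => 1, isIrr_one⟩ : IrrCharacter G),
      IsIntegral ℤ ((χ : G → ℂ) 1 * conj ((χ : G → ℂ) (x * y)) / (q : ℂ)) := by
    intro χ hχ
    have hne : (χ : G → ℂ) ≠ (fun _ => 1) := fun h =>
      (Finset.mem_erase.mp hχ).1 (Subtype.ext h)
    have hmem := (Finset.mem_filter.mp (Finset.mem_erase.mp hχ).2).2
    obtain ⟨n, hn⟩ := char_one_eq_nat (irr_isChar χ.2)
    have hdvd : n ∣ Nat.card G := irr_degree_dvd_card χ.2 hn
    by_cases hrn : r ∣ n
    · rw [char_eq_zero_of_defect_zero χ.2 hr hr2 hn (by rw [pow_one]; exact hrn) _ hzr, map_zero,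
        mul_zero, zero_div]
      exact isIntegral_zero
    by_cases hqn : q ∣ n
    · obtain ⟨m, rfl⟩ := hqn
      have hq0 : (q : ℂ) ≠ 0 := by exact_mod_cast hq.ne_zero
      have h1 : (χ : G → ℂ) 1 * conj ((χ : G → ℂ) (x * y)) / (q : ℂ) =
          (m : ℂ) * conj ((χ : G → ℂ) (x * y)) := by
        rw [hn]; push_cast; field_simp
      rw [h1]
      refine (isIntegral_algebraMap (R := ℤ) (x := (m : ℤ))).mul ?_
      rw [← char_inv (irr_isChar χ.2)]
      exact char_isIntegral (irr_isChar χ.2) _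
    · exfalso
      apply hne
      have h1 : n ∣ p ^ a := by
        rw [hcard] at hdvd
        have h2 : Nat.Coprime n r := ((Nat.Prime.coprime_iff_not_dvd hr).mpr hrn).symm
        have h3 : Nat.Coprime n (q ^ b) :=
          Nat.Coprime.pow_right b ((Nat.Prime.coprime_iff_not_dvd hq).mpr hqn).symm
        exact h3.dvd_of_dvd_mul_right (h2.dvd_of_dvd_mul_right hdvd)
      obtain ⟨k, -, hk⟩ := (Nat.dvd_prime_pow hp).mp h1
      exact principal_power_degree hM hna χ hmem k (by rw [hn, hk]; push_cast; rfl)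
  have hint := IsIntegral.sum _ hterm
  rw [← Finset.sum_div] at hint
  have h1 : ∑ χ ∈ (Finset.univ.filter (fun χ : IrrCharacter G => χ ∈ principalBlock M G)).erase
      (⟨fun _ => 1, isIrr_one⟩ : IrrCharacter G),
        (χ : G → ℂ) 1 * conj ((χ : G → ℂ) (x * y)) = -1 := by
    linear_combination hsum
  rw [h1] at hint
  have h3 := int_dvd_of_isIntegral (a := -1) (b := q) (by exact_mod_cast hq.ne_zero)
    (by push_cast; exact hint)
  have h4 : (q : ℤ) ∣ 1 := by simpa using h3
  have h5 : q ∣ 1 := by exact_mod_cast h4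
  exact hq.one_lt.ne' (Nat.dvd_one.mp h5)

theorem self_centralizing [IsSimpleGroup G] (p q r a b : ℕ) (hp : p.Prime) (hq : q.Prime)
    [hrf : Fact r.Prime] (hpr : p ≠ r) (hqr : q ≠ r)
    (hcard : Nat.card G = p ^ a * q ^ b * r) (S : Sylow r G) :
    Subgroup.centralizer (S : Set G) = (S : Subgroup G) := by
  have hr := hrf.out
  have hrn : ¬ r ∣ p ^ a * q ^ b := by
    intro h
    rcases hr.dvd_mul.mp h with h2 | h2
    · exact hpr ((Nat.prime_dvd_prime_iff_eq hr hp).mp (hr.dvd_of_dvd_pow h2)).symm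
    · exact hqr ((Nat.prime_dvd_prime_iff_eq hr hq).mp (hr.dvd_of_dvd_pow h2)).symm
  have hpos : 0 < p ^ a * q ^ b := Nat.mul_pos (pow_pos hp.pos _) (pow_pos hq.pos _)
  have hS : Nat.card S = r := by
    rw [S.card_eq_multiplicity, hcard, Nat.factorization_mul hpos.ne' hr.ne_zero,
      Finsupp.add_apply, Nat.factorization_eq_zero_of_not_dvd hrn, zero_add,
      hr.factorization_self, pow_one]
  have hScyc : IsCyclic S := isCyclic_of_prime_card hS
  have hle : (S : Subgroup G) ≤ Subgroup.centralizer (S : Set G) := by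
    intro x hx
    rw [Subgroup.mem_centralizer_iff]
    intro h hh
    have := hScyc.commGroup.mul_comm (⟨h, hh⟩ : S) ⟨x, hx⟩
    exact congrArg Subtype.val this
  by_cases hna : ∀ a b : G, a * b = b * a
  · have h1 : (S : Subgroup G).Normal := ⟨fun n hn g => by
      rw [hna g n, mul_inv_cancel_right]; exact hn⟩
    rcases h1.eq_bot_or_eq_top with h2 | h2
    · exfalso
      have : Nat.card (S : Subgroup G) = 1 := by rw [h2]; exact Subgroup.card_bot
      exact hr.one_lt.ne' (hS.symm.trans this)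
    · rw [h2]
      exact top_unique (h2 ▸ hle)
  · push Not at hna
    refine le_antisymm ?_ hle
    by_contra hnot
    have hlt : (S : Subgroup G) < Subgroup.centralizer (S : Set G) :=
      lt_of_le_of_ne hle (fun h => hnot h.ge)
    obtain ⟨m, hm⟩ := Subgroup.card_dvd_of_le hle
    have hm' : Nat.card (Subgroup.centralizer (S : Set G)) = r * m := by rw [hm, hS]
    have hm1 : m ≠ 1 := by
      rintro rfl
      have h1 := Subgroup.eq_of_le_of_card_ge hle (by rw [hm', mul_one, hS])
      exact hlt.ne h1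
    obtain ⟨s, hs, hsm⟩ := Nat.exists_prime_and_dvd hm1
    have hdG : Nat.card (Subgroup.centralizer (S : Set G)) ∣ Nat.card G :=
      Subgroup.card_subgroup_dvd_card _
    have hdm : m ∣ p ^ a * q ^ b := by
      rw [hm', hcard, mul_comm r m] at hdG
      exact Nat.dvd_of_mul_dvd_mul_right hr.pos hdG
    have hsC : s ∣ Nat.card (Subgroup.centralizer (S : Set G)) := by
      rw [hm']; exact hsm.mul_left r
    obtain ⟨⟨x, hxC⟩, hx⟩ := exists_prime_orderOf_dvd_card' (hp := ⟨hs⟩) s hsC
    rw [Subgroup.orderOf_mk] at hx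
    obtain ⟨⟨y, hyS⟩, hy⟩ := exists_prime_orderOf_dvd_card' (G := S) r (by rw [hS])
    rw [Subgroup.orderOf_mk] at hy
    have hxy : x * y = y * x := (Subgroup.mem_centralizer_iff.mp hxC y hyS).symm
    rcases hs.dvd_mul.mp (hsm.trans hdm) with h2 | h2
    · have : s = p := (Nat.prime_dvd_prime_iff_eq hs hp).mp (hs.dvd_of_dvd_pow h2)
      subst this
      exact no_commuting_pr hna hs hq hr hpr hqr hcard hx hy hxy
    · have : s = q := (Nat.prime_dvd_prime_iff_eq hs hq).mp (hs.dvd_of_dvd_pow h2)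
      subst this
      exact no_commuting_pr hna hs hp hr hqr hpr (by rw [hcard, mul_comm (p ^ a)]) hx hy hxy

end Cfsg.Agent.H11
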