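import Cfsg.Agent.H11.DihA
import Cfsg.Agent.H11.Misc1
import Cfsg.Agent.H11.Third3
import Cfsg.Agent.H26.Dih6
import Cfsg.Agent.H26.Kern

set_option autoImplicit false

/-!
The generalized characters `Ind (1 - μ ^ j)` for a group with dihedral Sylow `2`-subgroups.
-/

namespace Cfsg.Agent.H11

open Cfsg Cfsg.Agent.H3 Cfsg.Agent.H26 Finset
open scoped ComplexConjugate

universe u

section Char

variable {G : Type u} [Group G] [Fintype G] {J : G} {H : Subgroup G} {μ : H →* ℂˣ}

/-- an odd power of the linear character -/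
theorem DS_pow (h : DS J H μ) {k : ℕ} (hk : Odd k) : DS J H (μ ^ k) := by
  have hker : (μ ^ k).ker = μ.ker := by
    ext x
    rw [MonoidHom.mem_ker, MonoidHom.mem_ker, MonoidHom.pow_apply]
    constructor
    · intro hx
      obtain ⟨e, he⟩ := h.two x
      have h1 : orderOf (μ x) ∣ Nat.gcd (2 ^ e) k :=
        Nat.dvd_gcd (orderOf_dvd_of_pow_eq_one he) (orderOf_dvd_of_pow_eq_one hx)
      have h2 : Nat.gcd (2 ^ e) k = 1 := Nat.Coprime.pow_left e
        ((Nat.Prime.coprime_iff_not_dvd Nat.prime_two).mpr (by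
          rw [← even_iff_two_dvd, Nat.not_even_iff_odd]; exact hk))
      rw [h2] at h1
      exact orderOf_eq_one_iff.mp (Nat.dvd_one.mp h1)
    · intro hx
      rw [hx, one_pow]
  refine ⟨h.J2, h.J1, h.HC, h.JH, h.idx, by rw [hker]; exact h.odd, ?_, ?_⟩
  · intro x
    obtain ⟨e, he⟩ := h.two x
    refine ⟨e, ?_⟩
    rw [MonoidHom.pow_apply, ← pow_mul, mul_comm, pow_mul, he, one_pow]
  · intro g hg hgH x y hy
    rw [MonoidHom.pow_apply, MonoidHom.pow_apply, h.inv g hg hgH x y hy, inv_pow]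

/-- the generalized character -/
noncomputable def fj (μ : H →* ℂˣ) (j : ℕ) : G → ℂ := indFun H (fun z => 1 - (μ z : ℂ) ^ j)

theorem fj_classFun (μ : H →* ℂˣ) (j : ℕ) : IsClassFunction G (fj μ j) := indFun_classFun H _

theorem fj_isGen (μ : H →* ℂˣ) (j : ℕ) : IsGeneralizedCharacter G (fj μ j) := by
  apply isGen_ind
  have h1 := isGen_sub isGen_one (isGen_of_irr (isIrr_of_hom (μ ^ j)))
  have h2 : (fun z : H => 1 - (μ z : ℂ) ^ j) = fun z : H => 1 - (((μ ^ j) z : ℂˣ) : ℂ) := by
    funext z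
    rw [MonoidHom.pow_apply, Units.val_pow_eq_pow_val]
  rw [h2]
  exact h1

theorem fj_apply (h : DS J H μ) (j : ℕ) (x : H) :
    fj μ j x = (1 - (μ x : ℂ) ^ j) + (1 - (((μ x)⁻¹ : ℂˣ) : ℂ) ^ j) :=
  h.ind_apply (fun c => 1 - (c : ℂ) ^ j) (by rw [Units.val_one, one_pow, sub_self]) x

theorem fj_odd (h : DS J H μ) (j : ℕ) {g : G} (hg : ¬ 2 ∣ orderOf g) : fj μ j g = 0 := by
  unfold fj indFun
  rw [Finset.sum_eq_zero, mul_zero]
  intro x _
  by_cases hm : x⁻¹ * g * x ∈ H
  · rw [extendByZero_mem _ _ hm]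
    have h1 : orderOf (⟨x⁻¹ * g * x, hm⟩ : H) = orderOf g := by
      rw [Subgroup.orderOf_mk]
      have : x⁻¹ * g * x = x⁻¹ * g * (x⁻¹)⁻¹ := by rw [inv_inv]
      rw [this]
      exact MulEquiv.orderOf_eq (MulAut.conj x⁻¹) g
    have h2 : μ ⟨x⁻¹ * g * x, hm⟩ = 1 := h.pp (by
      rw [h1, ← Nat.not_even_iff_odd, even_iff_two_dvd]; exact hg)
    rw [h2, Units.val_one, one_pow, sub_self]
  · rw [extendByZero_not_mem _ _ hm]

/-- the value on a `2`-section is constant -/
theorem fj_section (h : DS J H μ) (j : ℕ) {u c : G} (hu : ∃ k, orderOf u = 2 ^ k)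
    (hc : ¬ 2 ∣ orderOf c) (hcu : Commute u c) : fj μ j (u * c) = fj μ j u := by
  obtain ⟨k, hk⟩ := hu
  have hcodd : Odd (orderOf c) := by
    rw [← Nat.not_even_iff_odd, even_iff_two_dvd]; exact hc
  -- `u` is a power of `u * c`
  have hpow : u ∈ Subgroup.zpowers (u * c) := by
    obtain ⟨e, he1, he2⟩ := Nat.chineseRemainder
      (show Nat.Coprime (orderOf u) (orderOf c) by
        rw [hk]; exact Nat.Coprime.pow_left k ((Nat.Prime.coprime_iff_not_dvd Nat.prime_two).mpr hc))
      1 0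
    refine ⟨(e : ℤ), ?_⟩
    change (u * c) ^ (e : ℤ) = u
    rw [zpow_natCast, hcu.mul_pow]
    have e1 : u ^ e = u := by
      conv_rhs => rw [← pow_one u]
      exact pow_eq_pow_iff_modEq.mpr he1
    have e2 : c ^ e = 1 := orderOf_dvd_iff_pow_eq_one.mp ((Nat.modEq_zero_iff_dvd).mp he2)
    rw [e1, e2, mul_one]
  unfold fj indFun
  congr 1
  apply Finset.sum_congr rfl
  intro x _
  have hmul : x⁻¹ * (u * c) * x = (x⁻¹ * u * x) * (x⁻¹ * c * x) := by group
  have hcx : orderOf (x⁻¹ * c * x) = orderOf c := by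
    have : x⁻¹ * c * x = x⁻¹ * c * (x⁻¹)⁻¹ := by rw [inv_inv]
    rw [this]
    exact MulEquiv.orderOf_eq (MulAut.conj x⁻¹) c
  have hux : orderOf (x⁻¹ * u * x) = orderOf u := by
    have : x⁻¹ * u * x = x⁻¹ * u * (x⁻¹)⁻¹ := by rw [inv_inv]
    rw [this]
    exact MulEquiv.orderOf_eq (MulAut.conj x⁻¹) u
  by_cases hm : x⁻¹ * u * x ∈ H
  · by_cases hμ : μ ⟨x⁻¹ * u * x, hm⟩ = 1
    · -- then `u = 1`
      have h1 := odd_of_mem_ker h hμ
      rw [Subgroup.orderOf_mk, hux, hk] at h1
      have hk0 : k = 0 := by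
        by_contra hk0
        exact absurd h1 (by rw [Nat.not_odd_iff_even]; exact (Nat.even_pow.mpr ⟨even_two, hk0⟩))
      rw [hk0, pow_zero] at hk
      have hu1 : u = 1 := orderOf_eq_one_iff.mp hk
      rw [extendByZero_mem _ _ hm, hμ, Units.val_one, one_pow, sub_self]
      by_cases hm2 : x⁻¹ * (u * c) * x ∈ H
      · rw [extendByZero_mem _ _ hm2]
        have h2 : μ ⟨x⁻¹ * (u * c) * x, hm2⟩ = 1 := h.pp (by
          rw [Subgroup.orderOf_mk, hu1, one_mul, hcx]; exact hcodd)
        rw [h2, Units.val_one, one_pow, sub_self]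
      · rw [extendByZero_not_mem _ _ hm2]
    · have hCu : ∀ y : G, Commute (x⁻¹ * u * x) y → y ∈ Subgroup.centralizer ({J} : Set G) := by
        intro y hy
        obtain ⟨n, hn⟩ := h.J_mem hμ
        have hn' : (x⁻¹ * u * x) ^ n = J := hn
        rw [Subgroup.mem_centralizer_singleton_iff, ← hn']
        exact (hy.symm.zpow_right n).eq
      have hcC : x⁻¹ * c * x ∈ Subgroup.centralizer ({J} : Set G) := by
        apply hCu
        have e1 : u * c = c * u := hcu
        change x⁻¹ * u * x * (x⁻¹ * c * x) = x⁻¹ * c * x * (x⁻¹ * u * x)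
        calc x⁻¹ * u * x * (x⁻¹ * c * x) = x⁻¹ * (u * c) * x := by group
          _ = x⁻¹ * (c * u) * x := by rw [e1]
          _ = _ := by group
      -- odd order elements of `C(J)` are in `H`
      have hcH : x⁻¹ * c * x ∈ H := by
        by_contra hcH
        have h2 : ∀ n : ℕ, (x⁻¹ * c * x) ^ (2 * n) ∈ H := by
          intro n
          rw [pow_mul]
          apply pow_mem
          rw [sq, h.mul_mem_iff hcC hcC]
        obtain ⟨n, hn⟩ := hcodd
        apply hcH
        have h3 : (x⁻¹ * c * x) ^ (2 * n + 1) = 1 := by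
          rw [← hn, ← hcx, pow_orderOf_eq_one]
        rw [pow_succ] at h3
        rw [eq_inv_of_mul_eq_one_right h3]
        exact inv_mem (h2 n)
      have hm2 : x⁻¹ * (u * c) * x ∈ H := by
        rw [hmul]; exact mul_mem hm hcH
      rw [extendByZero_mem _ _ hm, extendByZero_mem _ _ hm2]
      have e1 : (⟨x⁻¹ * (u * c) * x, hm2⟩ : H) = ⟨x⁻¹ * u * x, hm⟩ * ⟨x⁻¹ * c * x, hcH⟩ :=
        Subtype.ext hmul
      have e2 : μ ⟨x⁻¹ * c * x, hcH⟩ = 1 := h.pp (by
        rw [Subgroup.orderOf_mk, hcx]; exact hcodd)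
      rw [e1, map_mul, e2, mul_one]
  · rw [extendByZero_not_mem _ _ hm, extendByZero_not_mem]
    intro hm2
    apply hm
    obtain ⟨n, hn⟩ := hpow
    have hn' : (u * c) ^ n = u := hn
    have e1 : x⁻¹ * u * x = (x⁻¹ * (u * c) * x) ^ n := by
      have : x⁻¹ * (u * c) * x = x⁻¹ * (u * c) * (x⁻¹)⁻¹ := by rw [inv_inv]
      rw [this, conj_zpow, hn', inv_inv]
    rw [e1]
    exact zpow_mem hm2 n

variable {M : Ideal AlgInt}

/-- the generalized characters lie in the principal block -/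
theorem fj_block (h : DS J H μ) (hM : IsPModular 2 M) (j : ℕ) (g : G) :
    blockPart (principalBlock M G) (fj μ j) g = fj μ j g := by
  classical
  obtain ⟨u, w, huw, hc, hu, hw⟩ := exists_isPPart Nat.prime_two g
  have hwC : w ∈ Subgroup.centralizer ({u} : Set G) := by
    rw [Subgroup.mem_centralizer_singleton_iff]
    exact hc.eq.symm
  have := Fintype.ofFinite (Subgroup.centralizer ({u} : Set G))
  have h1 := principal_translate hM hu (fj_classFun μ j) ⟨w, hwC⟩ (by
    rw [Subgroup.orderOf_mk]; exact hw)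
  have hone : ((⟨fun _ => 1, isIrr_one⟩ : IrrCharacter (Subgroup.centralizer ({u} : Set G))) :
      Subgroup.centralizer ({u} : Set G) → ℂ) = fun _ => 1 := rfl
  have h2 : blockPart (principalBlock M (Subgroup.centralizer ({u} : Set G)))
      (fun c : Subgroup.centralizer ({u} : Set G) => fj μ j (u * (c : G))) ⟨w, hwC⟩ =
      blockPart (principalBlock M (Subgroup.centralizer ({u} : Set G)))
      (fun _ => fj μ j u) ⟨w, hwC⟩ := by
    apply blockPart_congr_reg hM principalBlock_isPBlock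
    · intro c hcr
      rw [← Subgroup.orderOf_coe] at hcr
      apply fj_section h j hu hcr
      exact (Subgroup.mem_centralizer_singleton_iff.mp c.2).symm
    · rw [Subgroup.orderOf_mk]; exact hw
  have h3 := blockPart_sum (univ : Finset (Fin 1))
    (principalBlock M (Subgroup.centralizer ({u} : Set G))) (fun _ => fj μ j u)
    (fun _ => fun _ => (1 : ℂ)) (fun _ _ => irr_classFun isIrr_one) ⟨w, hwC⟩
  simp only [Finset.univ_unique, Finset.sum_singleton, mul_one] at h3
  have h4 := blockPart_irr (principalBlock M (Subgroup.centralizer ({u} : Set G)))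
    (⟨fun _ => 1, isIrr_one⟩ : IrrCharacter (Subgroup.centralizer ({u} : Set G))) ⟨w, hwC⟩
  rw [if_pos (by
    have := sameBlock_refl (M := M) (hM := hM.2.1.isPrime)
      (fun _ : Subgroup.centralizer ({u} : Set G) => (1 : ℂ))
    exact this)] at h4
  rw [hone] at h4
  rw [← huw]
  rw [show ((⟨w, hwC⟩ : Subgroup.centralizer ({u} : Set G)) : G) = w from rfl] at h1
  rw [h1, h2, h3, h4, mul_one]
  exact (fj_section h j hu hw hc).symm

theorem classInner_blockPart_not_mem {B : Set (IrrCharacter G)} (θ : G → ℂ)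
    {χ : IrrCharacter G} (hχ : χ ∉ B) : classInner (blockPart B θ) (χ : G → ℂ) = 0 := by
  classical
  have := Fintype.ofFinite (IrrCharacter G)
  have h1 : blockPart B θ = ∑ ψ ∈ univ.filter (· ∈ B), classInner θ (ψ : G → ℂ) • (ψ : G → ℂ) := by
    funext g
    rw [blockPart_eq_sum, Finset.sum_apply]
    rfl
  rw [h1, classInner_sum_left]
  apply Finset.sum_eq_zero
  intro ψ hψ
  rw [classInner_smul_left, classInner_irr']
  rw [Finset.mem_filter] at hψ
  rw [if_neg, mul_zero]
  rintro rfl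
  exact hχ hψ.2

theorem fj_inner_not_mem (h : DS J H μ) (hM : IsPModular 2 M) (j : ℕ) {χ : IrrCharacter G}
    (hχ : χ ∉ principalBlock M G) : classInner (fj μ j) (χ : G → ℂ) = 0 := by
  have h1 : fj μ j = blockPart (principalBlock M G) (fj μ j) := by
    funext g; exact (fj_block h hM j g).symm
  rw [h1]
  exact classInner_blockPart_not_mem _ hχ

end Char

end Cfsg.Agent.H11
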