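import Cfsg.Agent.H11.DihB

set_option autoImplicit false

/-!
Inner products of the generalized characters `Ind (1 - μ ^ j)` and Fourier inversion.
-/

namespace Cfsg.Agent.H11

open Cfsg Cfsg.Agent.H3 Cfsg.Agent.H26 Finset
open scoped ComplexConjugate

universe u

section Fourier

/-- periodic sums of powers of a root of unity -/
lemma sum_root_pow {L : ℕ} (hL : 0 < L) {ζ : ℂ} (hζ : IsPrimitiveRoot ζ L) (k : ℕ) :
    ∑ j ∈ range L, ζ ^ (j * k) = if L ∣ k then (L : ℂ) else 0 := by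
  have h0 : ∀ j, ζ ^ (j * k) = (ζ ^ k) ^ j := fun j => by rw [← pow_mul, mul_comm]
  simp only [h0]
  split_ifs with h
  · rw [(hζ.pow_eq_one_iff_dvd k).mpr h]
    simp
  · have h1 : ζ ^ k ≠ 1 := fun h1 => h ((hζ.pow_eq_one_iff_dvd k).mp h1)
    have h2 : (ζ ^ k) ^ L = 1 := by rw [← pow_mul, mul_comm, pow_mul, hζ.pow_eq_one, one_pow]
    have h3 := mul_geom_sum (ζ ^ k) L
    rw [h2, sub_self] at h3
    exact (mul_eq_zero.mp h3).resolve_left (sub_ne_zero.mpr h1)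

/-- Fourier inversion for the differences `m 0 - m j`. -/
theorem fourier_inv {L : ℕ} (hL : 0 < L) {ζ : ℂ} (hζ : IsPrimitiveRoot ζ L) (c a : ℕ → ℂ)
    (ha : ∀ j, a j = (L : ℂ)⁻¹ * ∑ l ∈ range L, (1 - ζ ^ (j * l)) * c l) {k : ℕ} (hk0 : 0 < k)
    (hk : k < L) : ∑ j ∈ range L, a j * ζ ^ (j * k) = - c (L - k) := by
  have hLc : (L : ℂ) ≠ 0 := by exact_mod_cast hL.ne'
  simp only [ha]
  have h1 : ∀ j, (L : ℂ)⁻¹ * (∑ l ∈ range L, (1 - ζ ^ (j * l)) * c l) * ζ ^ (j * k) =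
      (L : ℂ)⁻¹ * ∑ l ∈ range L, c l * (ζ ^ (j * k) - ζ ^ (j * (l + k))) := by
    intro j
    rw [mul_assoc, Finset.sum_mul]
    congr 1
    apply Finset.sum_congr rfl
    intro l _
    rw [mul_add, pow_add]
    ring
  rw [Finset.sum_congr rfl fun j _ => h1 j, ← Finset.mul_sum, Finset.sum_comm]
  have h2 : ∀ l ∈ range L, ∑ j ∈ range L, c l * (ζ ^ (j * k) - ζ ^ (j * (l + k))) =
      if l = L - k then - (L : ℂ) * c l else 0 := by
    intro l hl
    rw [Finset.mem_range] at hl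
    rw [← Finset.mul_sum, Finset.sum_sub_distrib, sum_root_pow hL hζ, sum_root_pow hL hζ,
      if_neg (Nat.not_dvd_of_pos_of_lt hk0 hk)]
    by_cases h3 : l = L - k
    · rw [if_pos h3, if_pos (by rw [h3]; exact ⟨1, by omega⟩)]
      ring
    · rw [if_neg h3, if_neg]
      · ring
      · rintro ⟨q, hq⟩
        rcases Nat.lt_or_ge q 1 with h4 | h4
        · have : q = 0 := by omega
          rw [this, mul_zero] at hq
          omega
        · rcases Nat.lt_or_ge q 2 with h5 | h5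
          · have : q = 1 := by omega
            rw [this, mul_one] at hq
            omega
          · have : L * 2 ≤ L * q := Nat.mul_le_mul_left L h5
            omega
  rw [Finset.sum_congr rfl h2, Finset.sum_ite_eq' (range L), if_pos (Finset.mem_range.mpr (by omega))]
  field_simp

/-- the differences are symmetric if the values are -/
theorem fourier_symm {L : ℕ} (hL : 0 < L) {ζ : ℂ} (hζ : IsPrimitiveRoot ζ L) (c a : ℕ → ℂ)
    (ha : ∀ j, a j = (L : ℂ)⁻¹ * ∑ l ∈ range L, (1 - ζ ^ (j * l)) * c l)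
    (hc : ∀ l, 0 < l → l < L → c (L - l) = c l) {j : ℕ} (hj : j ≤ L) : a (L - j) = a j := by
  rw [ha, ha]
  congr 1
  obtain ⟨K, rfl⟩ : ∃ K, L = K + 1 := ⟨L - 1, by omega⟩
  rw [Finset.sum_range_succ', Finset.sum_range_succ', mul_zero, mul_zero, pow_zero, sub_self,
    zero_mul, add_zero, add_zero, ← Finset.sum_range_reflect]
  apply Finset.sum_congr rfl
  intro l hl
  rw [Finset.mem_range] at hl
  have e1 : K - 1 - l + 1 = K + 1 - (l + 1) := by omega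
  rw [e1, hc (l + 1) (by omega) (by omega)]
  congr 2
  have e2 : (K + 1 - j) * (K + 1 - (l + 1)) + (K + 1) * (j + (l + 1)) =
      j * (l + 1) + (K + 1) * (K + 1) := by
    obtain ⟨p, hp⟩ : ∃ p, K + 1 = j + p := ⟨K + 1 - j, by omega⟩
    obtain ⟨q, hq⟩ : ∃ q, K + 1 = (l + 1) + q := ⟨K + 1 - (l + 1), by omega⟩
    have e3 : K + 1 - j = p := by omega
    have e4 : K + 1 - (l + 1) = q := by omega
    rw [e3, e4]
    zify at hp hq ⊢
    have hq' : (K : ℤ) = l + q := by linarith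
    have hj' : (j : ℤ) = K + 1 - p := by linarith
    rw [hj', hq']
    ring
  have e5 : ζ ^ ((K + 1 - j) * (K + 1 - (l + 1)) + (K + 1) * (j + (l + 1))) =
      ζ ^ (j * (l + 1) + (K + 1) * (K + 1)) := by rw [e2]
  rw [pow_add, pow_add, pow_mul ζ (K + 1), pow_mul ζ (K + 1), hζ.pow_eq_one, one_pow, one_pow,
    mul_one, mul_one] at e5
  exact e5

end Fourier

section Char

variable {G : Type u} [Group G] [Fintype G] {J : G} {H : Subgroup G} {μ : H →* ℂˣ}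

theorem zpow_unit_val (a : ℂˣ) (k : ℤ) : ((a ^ k : ℂˣ) : ℂ) = (a : ℂ) ^ k := Units.val_zpow_eq_zpow_val a k

/-- sums of powers of the linear character -/
theorem sum_mu_zpow [Fintype H] {L : ℕ} {s : H} (hs : orderOf (μ s) = L)
    (hz : ∀ x : H, μ x ∈ Subgroup.zpowers (μ s)) (k : ℤ) :
    ∑ x : H, (μ x : ℂ) ^ k = if (L : ℤ) ∣ k then (Nat.card H : ℂ) else 0 := by
  have e1 : ∀ x : H, (μ x : ℂ) ^ k = (((μ ^ k) x : ℂˣ) : ℂ) := by
    intro x
    rw [MonoidHom.zpow_apply, zpow_unit_val]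
  rw [Finset.sum_congr rfl fun x _ => e1 x]
  split_ifs with h
  · have h1 : ∀ x : H, (μ ^ k) x = 1 := by
      intro x
      obtain ⟨i, hi⟩ := hz x
      have hi' : (μ s) ^ i = μ x := hi
      rw [MonoidHom.zpow_apply, ← hi', ← zpow_mul, mul_comm, zpow_mul]
      rw [← hs] at h
      rw [orderOf_dvd_iff_zpow_eq_one.mp h, one_zpow]
    rw [Finset.sum_congr rfl fun x _ => by rw [h1 x, Units.val_one]]
    rw [Finset.sum_const, Finset.card_univ, nsmul_eq_mul, mul_one, Nat.card_eq_fintype_card]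
  · apply sum_unit_zero
    refine ⟨s, fun h1 => h ?_⟩
    rw [MonoidHom.zpow_apply] at h1
    rw [← hs]
    exact orderOf_dvd_iff_zpow_eq_one.mpr h1

theorem fj_inner [Fintype H] (h : DS J H μ) {L : ℕ} {s : H} (hs : orderOf (μ s) = L)
    (hz : ∀ x : H, μ x ∈ Subgroup.zpowers (μ s)) {i j : ℕ} (hi0 : 0 < i) (hj0 : 0 < j)
    (hi : i < L) (hj : j < L) :
    classInner (fj μ i) (fj μ j) = 2 + (if (L : ℤ) ∣ (i : ℤ) - j then 1 else 0) +
      (if (L : ℤ) ∣ (i : ℤ) + j then 1 else 0) := by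
  have hHne : (Nat.card H : ℂ) ≠ 0 := by exact_mod_cast Nat.card_pos.ne'
  rw [fj, frobenius_reciprocity H _ (fj_classFun μ j)]
  unfold classInner
  have h1 : ∀ x : H, (1 - (μ x : ℂ) ^ i) * conj (fj μ j (x : G)) =
      2 * (μ x : ℂ) ^ (0 : ℤ) - (μ x : ℂ) ^ (-(j : ℤ)) - (μ x : ℂ) ^ (j : ℤ) -
      2 * (μ x : ℂ) ^ (i : ℤ) + (μ x : ℂ) ^ ((i : ℤ) - j) + (μ x : ℂ) ^ ((i : ℤ) + j) := by
    intro x
    have h0 : (μ x : ℂ) ≠ 0 := Units.ne_zero _
    rw [fj_apply h]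
    have h2 : conj ((μ x : ℂ)) = (μ x : ℂ)⁻¹ := by
      rw [conj_unit_eq_inv μ x, Units.val_inv_eq_inv_val]
    have h3 : (((μ x)⁻¹ : ℂˣ) : ℂ) = (μ x : ℂ)⁻¹ := Units.val_inv_eq_inv_val _
    rw [h3]
    simp only [map_add, map_sub, map_one, map_pow, map_inv₀, h2, inv_inv]
    rw [zpow_zero, zpow_neg, zpow_sub₀ h0, zpow_add₀ h0, zpow_natCast, zpow_natCast, inv_pow]
    field_simp
    ring
  rw [Finset.sum_congr rfl fun x _ => h1 x]
  simp only [Finset.sum_add_distrib, Finset.sum_sub_distrib, ← Finset.mul_sum,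
    sum_mu_zpow hs hz]
  rw [if_pos (dvd_zero _), if_neg (c := (L : ℤ) ∣ -(j : ℤ)), if_neg (c := (L : ℤ) ∣ (j : ℤ)),
    if_neg (c := (L : ℤ) ∣ (i : ℤ))]
  · split_ifs <;> field_simp <;> ring
  · rw [Int.natCast_dvd_natCast]; exact Nat.not_dvd_of_pos_of_lt hi0 hi
  · rw [Int.natCast_dvd_natCast]; exact Nat.not_dvd_of_pos_of_lt hj0 hj
  · rw [dvd_neg, Int.natCast_dvd_natCast]; exact Nat.not_dvd_of_pos_of_lt hj0 hj

theorem fj_inner_one [Fintype H] {L : ℕ} {s : H} (hs : orderOf (μ s) = L)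
    (hz : ∀ x : H, μ x ∈ Subgroup.zpowers (μ s)) {i : ℕ} (hi0 : 0 < i)
    (hi : i < L) : classInner (fj μ i) (fun _ : G => 1) = 1 := by
  have hHne : (Nat.card H : ℂ) ≠ 0 := by exact_mod_cast Nat.card_pos.ne'
  rw [fj, frobenius_reciprocity H _ (irr_classFun isIrr_one)]
  unfold classInner
  have h1 : ∀ x : H, (1 - (μ x : ℂ) ^ i) * conj (1 : ℂ) =
      (μ x : ℂ) ^ (0 : ℤ) - (μ x : ℂ) ^ (i : ℤ) := by
    intro x
    rw [zpow_zero, zpow_natCast, map_one, mul_one]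
  rw [Finset.sum_congr rfl fun x _ => h1 x, Finset.sum_sub_distrib, sum_mu_zpow hs hz,
    sum_mu_zpow hs hz, if_pos (dvd_zero _), if_neg (by
      rw [Int.natCast_dvd_natCast]; exact Nat.not_dvd_of_pos_of_lt hi0 hi)]
  field_simp
  ring

/-- fibering `H` over the cyclic image of `μ` -/
theorem sum_H_fiber [Fintype H] {L : ℕ} (hL : 0 < L) {s : H} (hs : orderOf (μ s) = L)
    (hz : ∀ x : H, μ x ∈ Subgroup.zpowers (μ s)) [Fintype μ.ker] (F : H → ℂ) :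
    ∑ x : H, F x = ∑ l ∈ range L, ∑ k : μ.ker, F (s ^ l * (k : H)) := by
  classical
  rw [← Finset.sum_product']
  symm
  apply Finset.sum_bij (fun (p : ℕ × μ.ker) _ => s ^ p.1 * (p.2 : H))
  · intro _ _; exact Finset.mem_univ _
  · rintro ⟨l, k⟩ hp ⟨l', k'⟩ hp' heq
    simp only [Finset.mem_product, Finset.mem_range, Finset.mem_univ, and_true] at hp hp' heq
    have h1 : μ (s ^ l * (k : H)) = μ (s ^ l' * (k' : H)) := by rw [heq]
    have hk : μ (k : H) = 1 := k.2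
    have hk' : μ (k' : H) = 1 := k'.2
    rw [map_mul, map_mul, hk, hk', mul_one, mul_one, map_pow, map_pow, pow_inj_mod, hs,
      Nat.mod_eq_of_lt hp, Nat.mod_eq_of_lt hp'] at h1
    subst h1
    have h2 := mul_left_cancel heq
    rw [Subtype.ext h2]
  · intro x _
    obtain ⟨i, hi⟩ := hz x
    have hi' : (μ s) ^ i = μ x := hi
    have hio : (μ s) ^ (i % (L : ℤ)).toNat = μ x := by
      rw [← zpow_natCast, Int.toNat_of_nonneg (Int.emod_nonneg _ (by positivity)), ← hs,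
        zpow_mod_orderOf, hi']
    have hlt : (i % (L : ℤ)).toNat < L := by
      have := Int.emod_lt_of_pos i (b := (L : ℤ)) (by positivity)
      omega
    refine ⟨((i % (L : ℤ)).toNat, ⟨(s ^ (i % (L : ℤ)).toNat)⁻¹ * x, ?_⟩), ?_, ?_⟩
    · rw [MonoidHom.mem_ker, map_mul, map_inv, map_pow, hio, inv_mul_cancel]
    · simp [hlt]
    · simp
  · intro _ _; rfl

variable {P : Subgroup G} {σ τ : G} {m : ℕ} {M : Ideal AlgInt}

theorem exists_DS' {P : Sylow 2 G} (h : DData (P : Subgroup G) σ τ m) {ζ : ℂ}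
    (hζ : IsPrimitiveRoot ζ (2 ^ (m + 1))) :
    ∃ (H : Subgroup G) (μ : H →* ℂˣ) (hσ : σ ∈ H), DS (σ ^ (2 ^ m)) H μ ∧
      (μ ⟨σ, hσ⟩ : ℂ) = ζ ∧ orderOf (μ ⟨σ, hσ⟩) = 2 ^ (m + 1) ∧
      (∀ x : H, μ x ∈ Subgroup.zpowers (μ ⟨σ, hσ⟩)) ∧
      τ ∈ Subgroup.centralizer ({σ ^ (2 ^ m)} : Set G) ∧ τ ∉ H := by
  obtain ⟨H, μ, hσ, hD, ho, hz, h1, h2⟩ := exists_DS h
  have hprim : IsPrimitiveRoot (μ ⟨σ, hσ⟩ : ℂ) (2 ^ (m + 1)) := by
    rw [← ho, ← orderOf_units]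
    exact IsPrimitiveRoot.orderOf _
  obtain ⟨i, -, hi, hiζ⟩ := (hprim.isPrimitiveRoot_iff).mp hζ
  have hiodd : Odd i := by
    rw [← Nat.not_even_iff_odd, even_iff_two_dvd]
    intro h3
    have h4 : 2 ∣ Nat.gcd i (2 ^ (m + 1)) := Nat.dvd_gcd h3 (dvd_pow_self 2 (Nat.succ_ne_zero m))
    rw [hi] at h4
    omega
  have e1 : (((μ ^ i) ⟨σ, hσ⟩ : ℂˣ) : ℂ) = ζ := by
    rw [MonoidHom.pow_apply, Units.val_pow_eq_pow_val, hiζ]
  refine ⟨H, μ ^ i, hσ, DS_pow hD hiodd, e1, ?_, ?_, h1, h2⟩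
  · rw [← orderOf_units, e1]
    exact hζ.eq_orderOf.symm
  · intro x
    obtain ⟨k, hk⟩ := hz x
    have hk' : (μ ⟨σ, hσ⟩) ^ k = μ x := hk
    refine ⟨k, ?_⟩
    change ((μ ^ i) ⟨σ, hσ⟩) ^ k = (μ ^ i) x
    rw [MonoidHom.pow_apply, MonoidHom.pow_apply, ← hk', ← zpow_natCast, ← zpow_natCast,
      ← zpow_mul, ← zpow_mul, mul_comm]

end Char

end Cfsg.Agent.H11
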