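import Cfsg.Agent.H11.DihC

set_option autoImplicit false

/-!
The principal `2`-block of a group with dihedral Sylow `2`-subgroups.
-/

namespace Cfsg.Agent.H11

open Cfsg Cfsg.Agent.H3 Cfsg.Agent.H26 Finset
open scoped ComplexConjugate

universe u

section Val

variable {G : Type u} [Group G] [Fintype G] {J : G} {H : Subgroup G} {μ : H →* ℂˣ}
  {M : Ideal AlgInt}

/-- characters of the principal block at elements of `H` outside the kernel -/
theorem DS_const (h : DS J H μ) (hM : IsPModular 2 M) {χ : IrrCharacter G}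
    (hχ : χ ∈ principalBlock M G) {x : H} (hx : μ x ≠ 1) :
    ∃ u : H, μ u = μ x ∧ (∃ k, orderOf u = 2 ^ k) ∧ (χ : G → ℂ) x = (χ : G → ℂ) u := by
  obtain ⟨u, v, huv, hc, ⟨k, hk⟩, hv⟩ := H11.exists_isPPart Nat.prime_two x
  have hvo : Odd (orderOf v) := by
    rw [← Nat.not_even_iff_odd, even_iff_two_dvd]; exact hv
  have hμv : μ v = 1 := h.pp hvo
  have hμux : μ u = μ x := by rw [← huv, map_mul, hμv, mul_one]
  have hμu : μ u ≠ 1 := by rw [hμux]; exact hx
  refine ⟨u, hμux, ⟨k, hk⟩, ?_⟩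
  let K : Subgroup G := μ.ker.map H.subtype
  have hKC : ∀ g ∈ Subgroup.centralizer ({J} : Set G), ∀ y ∈ K, g⁻¹ * y * g ∈ K := by
    rintro g hg _ ⟨y, hy, rfl⟩
    have hm := h.conj_mem hg y.2
    exact ⟨⟨_, hm⟩, h.conj_ker hg hy hm, rfl⟩
  have hCu : Subgroup.centralizer ({(u : G)} : Set G) ≤ Subgroup.centralizer ({J} : Set G) := by
    intro c hc
    rw [Subgroup.mem_centralizer_singleton_iff] at hc ⊢
    obtain ⟨n, hn⟩ := h.J_mem hμu
    have hn' : (u : G) ^ n = J := hn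
    rw [← hn']
    have h1 : Commute c (u : G) := hc
    exact (h1.zpow_right n).eq
  let N : Subgroup (Subgroup.centralizer ({(u : G)} : Set G)) :=
    K.subgroupOf (Subgroup.centralizer ({(u : G)} : Set G))
  have hN : N.Normal := by
    constructor
    intro n hn g
    have h1 := hKC (g⁻¹ : Subgroup.centralizer ({(u : G)} : Set G))
      (hCu (g⁻¹ : Subgroup.centralizer ({(u : G)} : Set G)).2) n (Subgroup.mem_subgroupOf.mp hn)
    rw [Subgroup.mem_subgroupOf]
    simpa using h1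
  have hNo : ¬ 2 ∣ Nat.card N := by
    have h1 : Nat.card N ∣ Nat.card K := by
      have h2 : Nat.card N = Nat.card (N.map (Subgroup.subtype _)) :=
        (Subgroup.card_map_of_injective (Subgroup.subtype_injective _)).symm
      rw [h2]
      apply Subgroup.card_dvd_of_le
      rintro _ ⟨y, hy, rfl⟩
      exact Subgroup.mem_subgroupOf.mp hy
    have h2 : Nat.card K = Nat.card μ.ker := Subgroup.card_map_of_injective H.subtype_injective
    intro h0
    have h3 := h0.trans h1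
    rw [h2] at h3
    have := Nat.odd_iff.mp h.odd
    omega
  have hvC : (v : G) ∈ Subgroup.centralizer ({(u : G)} : Set G) := by
    rw [Subgroup.mem_centralizer_singleton_iff]
    exact (congrArg Subtype.val hc.eq).symm
  have hvN : (⟨(v : G), hvC⟩ : Subgroup.centralizer ({(u : G)} : Set G)) ∈ N := by
    rw [Subgroup.mem_subgroupOf]
    exact ⟨v, hμv, rfl⟩
  have h3 := H11.principal_const hM (u := (u : G)) ⟨k, by rw [Subgroup.orderOf_coe]; exact hk⟩
    hNo hvN hχ
  rw [← huv]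
  exact h3

variable {P : Sylow 2 G} {σ τ : G} {m : ℕ}

theorem val_neg (hd : DData (P : Subgroup G) σ τ m) (χ : IrrCharacter G) (i : ℤ) :
    (χ : G → ℂ) (σ ^ (-i)) = (χ : G → ℂ) (σ ^ i) := by
  rw [← hd.cj_zpow i]
  exact irr_classFun χ.2 (σ ^ i) τ

theorem val_eq (hd : DData (P : Subgroup G) σ τ m) (hD : DS (σ ^ (2 ^ m)) H μ) (hσH : σ ∈ H)
    (hμo : orderOf (μ ⟨σ, hσH⟩) = 2 ^ (m + 1))
    (hτC : τ ∈ Subgroup.centralizer ({σ ^ (2 ^ m)} : Set G)) (hτH : τ ∉ H)
    (hM : IsPModular 2 M) {χ : IrrCharacter G} (hχ : χ ∈ principalBlock M G) {x : H}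
    (hx : μ x ≠ 1) {i : ℤ} (hi : μ x = (μ ⟨σ, hσH⟩) ^ i) :
    (χ : G → ℂ) x = (χ : G → ℂ) (σ ^ i) := by
  obtain ⟨u, hu, ⟨k, hk⟩, hxu⟩ := DS_const hD hM hχ hx
  rw [hxu]
  have hp2 : Fact (Nat.Prime 2) := ⟨Nat.prime_two⟩
  have hPC : (P : Subgroup G) ≤ Subgroup.centralizer ({σ ^ (2 ^ m)} : Set G) := by
    have h2 : σ ∈ Subgroup.centralizer ({σ ^ (2 ^ m)} : Set G) := hD.HC hσH
    rw [← hd.hgen, Subgroup.closure_le]
    rintro x (rfl | hx)
    · exact h2
    · rw [Set.mem_singleton_iff.mp hx]; exact hτC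
  let C := Subgroup.centralizer ({σ ^ (2 ^ m)} : Set G)
  have h2 : (⟨u, hD.HC u.2⟩ : C) ^ 2 ^ k = 1 := by
    apply Subtype.ext
    change (u : G) ^ 2 ^ k = 1
    rw [← hk, ← Subgroup.orderOf_coe, pow_orderOf_eq_one]
  obtain ⟨y, hyP, hxy⟩ := H4.exists_conj_mem_sylow (P.subtype hPC) h2
  obtain ⟨c, hc⟩ := isConj_iff.mp hxy
  have hyP' : (y : G) ∈ (P : Subgroup G) := by
    have h2 : y ∈ ((P.subtype hPC : Sylow 2 C) : Subgroup C) := hyP
    rw [Sylow.coe_subtype] at h2
    exact Subgroup.mem_subgroupOf.mp h2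
  have hc' : (c : G) * u * (c : G)⁻¹ = y := congrArg Subtype.val hc
  have hyH : (y : G) ∈ H := by
    have := hD.conj_mem (inv_mem c.2) u.2
    rw [inv_inv, hc'] at this
    exact this
  -- `μ y = (μ u) ^ ±1`
  have hμy : μ ⟨y, hyH⟩ = μ u ∨ μ ⟨y, hyH⟩ = (μ u)⁻¹ := by
    by_cases hcH : (c : G) ∈ H
    · left
      have : (⟨y, hyH⟩ : H) = ⟨c, hcH⟩ * u * (⟨c, hcH⟩ : H)⁻¹ := Subtype.ext hc'.symm
      rw [this, map_mul, map_mul, map_inv, mul_comm (μ ⟨(c : G), hcH⟩), mul_assoc,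
        mul_inv_cancel, mul_one]
    · right
      exact hD.inv (c : G)⁻¹ (inv_mem c.2) (fun h0 => hcH (by
        have := inv_mem h0; rwa [inv_inv] at this)) u _ (by rw [inv_inv]; exact hc'.symm)
  obtain ⟨i', hi' | hi'⟩ := hd.elements hyP'
  · have h3 : μ ⟨y, hyH⟩ = (μ ⟨σ, hσH⟩) ^ i' := by
      rw [← map_zpow]
      congr 1
      exact Subtype.ext hi'
    have hval : (χ : G → ℂ) u = (χ : G → ℂ) (σ ^ i') := by
      rw [← hi', ← hc']
      exact (irr_classFun χ.2 u c).symm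
    rw [hval]
    have hpow : ∀ a b : ℤ, (μ ⟨σ, hσH⟩) ^ a = (μ ⟨σ, hσH⟩) ^ b → σ ^ a = σ ^ b := by
      intro a b hab
      rw [zpow_eq_zpow_iff_modEq, hd.ho, ← hμo]
      exact zpow_eq_zpow_iff_modEq.mp hab
    rcases hμy with h4 | h4
    · rw [h3, hu, hi] at h4
      rw [hpow _ _ h4]
    · rw [h3, hu, hi, ← zpow_neg] at h4
      rw [hpow _ _ h4]
      exact val_neg hd χ i
  · exfalso
    apply hτH
    have : τ = y * (σ ^ i')⁻¹ := by rw [hi']; group
    rw [this]
    exact mul_mem hyH (inv_mem (zpow_mem hσH i'))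

/-- the inner products with characters of the principal block -/
theorem inner_formula [Fintype H] (hd : DData (P : Subgroup G) σ τ m)
    (hD : DS (σ ^ (2 ^ m)) H μ) (hσH : σ ∈ H) {ζ : ℂ} (hζ : (μ ⟨σ, hσH⟩ : ℂ) = ζ)
    (hμo : orderOf (μ ⟨σ, hσH⟩) = 2 ^ (m + 1))
    (hz : ∀ x : H, μ x ∈ Subgroup.zpowers (μ ⟨σ, hσH⟩))
    (hτC : τ ∈ Subgroup.centralizer ({σ ^ (2 ^ m)} : Set G)) (hτH : τ ∉ H)
    (hM : IsPModular 2 M) {χ : IrrCharacter G} (hχ : χ ∈ principalBlock M G) (j : ℕ) :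
    classInner (fj μ j) (χ : G → ℂ) = (((2 ^ (m + 1) : ℕ) : ℂ))⁻¹ *
      ∑ l ∈ range (2 ^ (m + 1)), (1 - ζ ^ (j * l)) * conj ((χ : G → ℂ) (σ ^ l)) := by
  classical
  rw [fj, frobenius_reciprocity H _ (irr_classFun χ.2)]
  unfold classInner
  have hL : 0 < 2 ^ (m + 1) := by positivity
  have hcard := sum_H_fiber hL hμo hz (fun _ => (1 : ℂ))
  rw [sum_H_fiber hL hμo hz]
  simp only [Finset.sum_const, Finset.card_univ, nsmul_eq_mul, mul_one, Finset.card_range] at hcard
  have h1 : ∀ l ∈ range (2 ^ (m + 1)), ∑ k : μ.ker,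
      (1 - (μ (⟨σ, hσH⟩ ^ l * (k : H)) : ℂ) ^ j) *
        conj ((χ : G → ℂ) ((⟨σ, hσH⟩ ^ l * (k : H) : H) : G)) =
      (Fintype.card μ.ker : ℂ) * ((1 - ζ ^ (j * l)) * conj ((χ : G → ℂ) (σ ^ l))) := by
    intro l _
    have h2 : ∀ k : μ.ker, (1 - (μ (⟨σ, hσH⟩ ^ l * (k : H)) : ℂ) ^ j) *
        conj ((χ : G → ℂ) ((⟨σ, hσH⟩ ^ l * (k : H) : H) : G)) =
        (1 - ζ ^ (j * l)) * conj ((χ : G → ℂ) (σ ^ l)) := by
      intro k
      have hk : μ (k : H) = 1 := k.2
      have h3 : μ (⟨σ, hσH⟩ ^ l * (k : H)) = (μ ⟨σ, hσH⟩) ^ l := by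
        rw [map_mul, hk, mul_one, map_pow]
      have h4 : (μ (⟨σ, hσH⟩ ^ l * (k : H)) : ℂ) ^ j = ζ ^ (j * l) := by
        rw [h3, Units.val_pow_eq_pow_val, hζ, ← pow_mul, mul_comm]
      rw [h4]
      by_cases h5 : μ (⟨σ, hσH⟩ ^ l * (k : H)) = 1
      · have h6 : ζ ^ (j * l) = 1 := by
          rw [← h4, h5, Units.val_one, one_pow]
        rw [h6, sub_self, zero_mul, zero_mul]
      · rw [val_eq hd hD hσH hμo hτC hτH hM hχ h5 (i := (l : ℤ)) (by rw [h3, zpow_natCast]),
          zpow_natCast]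
    rw [Finset.sum_congr rfl fun k _ => h2 k, Finset.sum_const, Finset.card_univ, nsmul_eq_mul]
  rw [Finset.sum_congr rfl h1, ← Finset.mul_sum, Nat.card_eq_fintype_card, hcard]
  have h3 : (Fintype.card μ.ker : ℂ) ≠ 0 := by exact_mod_cast Fintype.card_ne_zero
  have h4 : (((2 ^ (m + 1) : ℕ)) : ℂ) ≠ 0 := by exact_mod_cast hL.ne'
  field_simp

end Val

section Main

variable {G : Type u} [Group G] [Finite G]

theorem st4481 (M : Ideal AlgInt) (hM : IsPModular 2 M) (m : ℕ) (hm : 1 ≤ m) (P : Sylow 2 G)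
    (σ τ : G) (hd : DData (P : Subgroup G) σ τ m) (ζ : ℂ)
    (hζ : IsPrimitiveRoot ζ (2 ^ (m + 1))) :
    Nat.card (principalBlock M G) = 3 + 2 ^ m ∧
    ∃ (χ₁ χ₂ χ₃ : IrrCharacter G) (χ' : Fin (2 ^ m - 1) → IrrCharacter G) (δ₁ δ₂ δ₃ : ℤ),
      (δ₁ = 1 ∨ δ₁ = -1) ∧ (δ₂ = 1 ∨ δ₂ = -1) ∧ (δ₃ = 1 ∨ δ₃ = -1) ∧ Function.Injective χ' ∧
      (χ₁ : G → ℂ) ≠ (fun _ => 1) ∧ (χ₂ : G → ℂ) ≠ (fun _ => 1) ∧ (χ₃ : G → ℂ) ≠ (fun _ => 1) ∧
      χ₁ ≠ χ₂ ∧ χ₁ ≠ χ₃ ∧ χ₂ ≠ χ₃ ∧
      (∀ j, χ' j ≠ χ₁ ∧ χ' j ≠ χ₂ ∧ χ' j ≠ χ₃ ∧ (χ' j : G → ℂ) ≠ (fun _ => 1)) ∧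
      principalBlock M G = {χ : IrrCharacter G | (χ : G → ℂ) = (fun _ => 1) ∨ χ = χ₁ ∨ χ = χ₂ ∨
        χ = χ₃ ∨ ∃ j, χ = χ' j} ∧
      (∀ l : ℕ, 0 < l → l < 2 ^ (m + 1) → (χ₁ : G → ℂ) (σ ^ l) = δ₁ ∧
        (χ₂ : G → ℂ) (σ ^ l) = δ₂ * (-1) ^ (l + 1) ∧
        (χ₃ : G → ℂ) (σ ^ l) = δ₃ * (-1) ^ (l + 1) ∧
        ∀ j : Fin (2 ^ m - 1), (χ' j : G → ℂ) (σ ^ l) =
          δ₁ * (ζ ^ (((j : ℕ) + 1) * l) + (ζ ^ (((j : ℕ) + 1) * l))⁻¹)) ∧
      ∀ ρ : G, Odd (orderOf ρ) → ∀ j : Fin (2 ^ m - 1),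
        1 + δ₁ * (χ₁ : G → ℂ) ρ = -δ₂ * (χ₂ : G → ℂ) ρ - δ₃ * (χ₃ : G → ℂ) ρ ∧
        1 + δ₁ * (χ₁ : G → ℂ) ρ = δ₁ * (χ' j : G → ℂ) ρ := by
  classical
  have := Fintype.ofFinite G
  have := Fintype.ofFinite (IrrCharacter G)
  obtain ⟨H, μ, hσH, hD, hμζ, hμo, hμz, hτC, hτH⟩ := exists_DS' hd hζ
  have hpr := hM.2.1.isPrime
  set N : ℕ := 2 ^ m with hN
  have hN2 : 2 ≤ N := by
    calc 2 = 2 ^ 1 := rfl
      _ ≤ 2 ^ m := Nat.pow_le_pow_right (by norm_num) hm
  have hLN : 2 ^ (m + 1) = 2 * N := by rw [pow_succ, mul_comm]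
  have hL : 0 < 2 ^ (m + 1) := by positivity
  let one : IrrCharacter G := ⟨fun _ => 1, isIrr_one⟩
  have hone : ((one : IrrCharacter G) : G → ℂ) = fun _ => 1 := rfl
  have hone_mem : one ∈ principalBlock M G := sameBlock_refl _
  -- multiplicities
  choose a ha using fun (j : ℕ) (χ : IrrCharacter G) =>
    classInner_gen_int (fj_isGen μ j) (isGen_of_irr χ.2)
  have ha0 : ∀ j (χ : IrrCharacter G), χ ∉ principalBlock M G → a j χ = 0 := by
    intro j χ hχ
    have h1 := fj_inner_not_mem hD hM j hχ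
    rw [ha] at h1
    exact_mod_cast h1
  have ha1 : ∀ j, 0 < j → j < 2 ^ (m + 1) → a j one = 1 := by
    intro j hj0 hj
    have h1 := fj_inner_one (G := G) (μ := μ) hμo hμz hj0 hj
    have h2 := ha j one
    rw [hone, h1] at h2
    exact_mod_cast h2.symm
  have hexp : ∀ j (g : G), fj μ j g = ∑ χ : IrrCharacter G, (a j χ : ℂ) * (χ : G → ℂ) g := by
    intro j g
    rw [classFun_expand_apply (fj_classFun μ j) g]
    exact Finset.sum_congr rfl fun χ _ => by rw [ha]
  have hprod : ∀ i j, 0 < i → 0 < j → i < 2 ^ (m + 1) → j < 2 ^ (m + 1) →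
      ∑ χ : IrrCharacter G, a i χ * a j χ = 2 +
        (if ((2 ^ (m + 1) : ℕ) : ℤ) ∣ (i : ℤ) - j then 1 else 0) +
        (if ((2 ^ (m + 1) : ℕ) : ℤ) ∣ (i : ℤ) + j then 1 else 0) := by
    intro i j hi0 hj0 hi hj
    have h1 := fj_inner hD hμo hμz hi0 hj0 hi hj
    have h2 : classInner (fj μ i) (fj μ j) = ((∑ χ : IrrCharacter G, a i χ * a j χ : ℤ) : ℂ) := by
      rw [classInner_eq_sum (fj_classFun μ i)]
      push_cast
      apply Finset.sum_congr rfl
      intro χ _
      rw [ha i χ, ha j χ]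
      simp
    rw [h2] at h1
    apply Int.cast_injective (α := ℂ)
    rw [h1]
    push_cast
    rfl
  -- degrees
  let d : IrrCharacter G → ℤ := fun χ => (charDegree (χ : G → ℂ) : ℤ)
  have hdeg : ∀ χ : IrrCharacter G, (χ : G → ℂ) 1 = (d χ : ℂ) := by
    intro χ
    rw [(charDegree_spec χ.2).1]
    simp [d]
  have hd1 : ∀ χ, 1 ≤ d χ := by
    intro χ
    have h1 := (charDegree_spec χ.2).2
    have h2 : 0 < charDegree (χ : G → ℂ) := Nat.pos_of_ne_zero h1
    simp only [d]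
    omega
  have hdone : d one = 1 := by
    have h1 : (1 : ℂ) = (d one : ℂ) := hdeg one
    exact_mod_cast h1.symm
  have hreg : ∀ j (ρ : G), ¬ 2 ∣ orderOf ρ → ∑ χ : IrrCharacter G, (a j χ : ℂ) * (χ : G → ℂ) ρ = 0 := by
    intro j ρ hρ
    rw [← hexp]
    exact fj_odd hD j hρ
  have hsd : ∀ j, ∑ χ : IrrCharacter G, a j χ * d χ = 0 := by
    intro j
    have h1 := hreg j 1 (by rw [orderOf_one]; norm_num)
    simp only [hdeg] at h1
    exact_mod_cast h1
  -- subtract the trivial character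
  let w : ℕ → IrrCharacter G → ℤ := fun j χ => a j χ - if χ = one then 1 else 0
  have hw1 : ∀ j, 0 < j → j < 2 ^ (m + 1) → w j one = 0 := by
    intro j hj0 hj
    simp only [w, if_true, ha1 j hj0 hj, sub_self]
  have hwa : ∀ j χ, χ ≠ one → w j χ = a j χ := by
    intro j χ hχ
    simp only [w, if_neg hχ, sub_zero]
  have hwprod : ∀ i j, 0 < i → 0 < j → i < 2 ^ (m + 1) → j < 2 ^ (m + 1) →
      ∑ χ : IrrCharacter G, w i χ * w j χ = 1 +
        (if ((2 ^ (m + 1) : ℕ) : ℤ) ∣ (i : ℤ) - j then 1 else 0) +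
        (if ((2 ^ (m + 1) : ℕ) : ℤ) ∣ (i : ℤ) + j then 1 else 0) := by
    intro i j hi0 hj0 hi hj
    have h1 := hprod i j hi0 hj0 hi hj
    have h2 : ∀ χ : IrrCharacter G, w i χ * w j χ = a i χ * a j χ - (if χ = one then 1 else 0) := by
      intro χ
      by_cases hχ : χ = one
      · rw [hχ, hw1 i hi0 hi, hw1 j hj0 hj, ha1 i hi0 hi, ha1 j hj0 hj, if_pos rfl]
        ring
      · rw [hwa i χ hχ, hwa j χ hχ, if_neg hχ, sub_zero]
    rw [Finset.sum_congr rfl fun χ _ => h2 χ, Finset.sum_sub_distrib, h1, Finset.sum_ite_eq' univ,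
      if_pos (Finset.mem_univ _)]
    ring
  have hwd : ∀ j, ∑ χ : IrrCharacter G, w j χ * d χ = -1 := by
    intro j
    simp only [w, sub_mul, ite_mul, one_mul, zero_mul, Finset.sum_sub_distrib]
    rw [hsd, Finset.sum_ite_eq' univ, if_pos (Finset.mem_univ _), hdone]
    ring
  have hdvd1 : ∀ i j : ℕ, 0 < i → 0 < j → i ≤ N → j ≤ N →
      (((2 ^ (m + 1) : ℕ) : ℤ) ∣ (i : ℤ) - j ↔ i = j) := by
    intro i j hi0 hj0 hi hj
    rw [hLN]
    constructor
    · rintro ⟨q, hq⟩
      push_cast at hq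
      have h1 : q = 0 := by
        by_contra hq0
        rcases lt_or_gt_of_ne hq0 with h | h
        · have : 2 * (N : ℤ) * q ≤ 2 * (N : ℤ) * (-1) :=
            mul_le_mul_of_nonneg_left (by omega) (by positivity)
          omega
        · have : 2 * (N : ℤ) * 1 ≤ 2 * (N : ℤ) * q :=
            mul_le_mul_of_nonneg_left (by omega) (by positivity)
          omega
      rw [h1, mul_zero] at hq
      omega
    · rintro rfl
      rw [sub_self]; exact dvd_zero _
  have hdvd2 : ∀ i j : ℕ, 0 < i → 0 < j → i ≤ N → j ≤ N →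
      (((2 ^ (m + 1) : ℕ) : ℤ) ∣ (i : ℤ) + j ↔ i = N ∧ j = N) := by
    intro i j hi0 hj0 hi hj
    rw [hLN]
    constructor
    · rintro ⟨q, hq⟩
      push_cast at hq
      have h1 : q = 1 := by
        rcases lt_trichotomy q 1 with h | h | h
        · have : 2 * (N : ℤ) * q ≤ 2 * (N : ℤ) * 0 :=
            mul_le_mul_of_nonneg_left (by omega) (by positivity)
          omega
        · exact h
        · have : 2 * (N : ℤ) * 2 ≤ 2 * (N : ℤ) * q :=
            mul_le_mul_of_nonneg_left (by omega) (by positivity)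
          omega
      rw [h1, mul_one] at hq
      omega
    · rintro ⟨rfl, rfl⟩
      exact ⟨1, by push_cast; ring⟩
  -- the configuration
  have ht : 0 < N - 1 := by omega
  have ht2 : N - 1 ≠ 2 := by
    intro h1
    have h2 : N = 3 := by omega
    rw [hN] at h2
    have h3 : 2 ∣ 2 ^ m := dvd_pow_self 2 (by omega)
    rw [h2] at h3
    omega
  obtain ⟨δ, c, v, hδ, hvinj, hvc, hwc, hwv, hw0, huc, y, z, hyc, hzc, hyz, hvy, hvz, huy, huz,
    hu0⟩ := dihedral_config ht ht2 hd1 (fun j : Fin (N - 1) => w (j + 1)) (w N)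
    (by
      intro j
      have h1 := hwprod (j + 1) (j + 1) (by omega) (by omega) (by omega) (by omega)
      rw [if_pos ((hdvd1 _ _ (by omega) (by omega) (by omega) (by omega)).mpr rfl),
        if_neg (fun h => by
          have := (hdvd2 _ _ (by omega) (by omega) (by omega) (by omega)).mp h
          omega)] at h1
      simp only [sq]
      rw [h1]; norm_num)
    (by
      intro j k hjk
      have h1 := hwprod (j + 1) (k + 1) (by omega) (by omega) (by omega) (by omega)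
      rw [if_neg (fun h => hjk (by
          have := (hdvd1 _ _ (by omega) (by omega) (by omega) (by omega)).mp h
          exact Fin.ext (by omega))),
        if_neg (fun h => by
          have := (hdvd2 _ _ (by omega) (by omega) (by omega) (by omega)).mp h
          omega)] at h1
      rw [h1]; norm_num)
    (fun j => hwd _)
    (by
      have h1 := hwprod N N (by omega) (by omega) (by omega) (by omega)
      rw [if_pos ((hdvd1 _ _ (by omega) (by omega) (by omega) (by omega)).mpr rfl),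
        if_pos ((hdvd2 _ _ (by omega) (by omega) (by omega) (by omega)).mpr ⟨rfl, rfl⟩)] at h1
      simp only [sq]
      rw [h1]; norm_num)
    (by
      intro j
      have h1 := hwprod (j + 1) N (by omega) (by omega) (by omega) (by omega)
      rw [if_neg (fun h => by
          have := (hdvd1 _ _ (by omega) (by omega) (by omega) (by omega)).mp h
          omega),
        if_neg (fun h => by
          have := (hdvd2 _ _ (by omega) (by omega) (by omega) (by omega)).mp h
          omega)] at h1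
      rw [h1]; norm_num)
    (hwd N)
  have hδ0 : δ ≠ 0 := by rcases hδ with h | h <;> rw [h] <;> norm_num
  -- all distinct from the trivial character
  have hNL : N < 2 ^ (m + 1) := by omega
  have hc1 : c ≠ one := by
    rintro rfl
    rw [hw1 N (by omega) hNL] at huc
    exact hδ0 huc.symm
  have hy1 : y ≠ one := by
    rintro rfl
    rw [hw1 N (by omega) hNL] at huy
    omega
  have hz1 : z ≠ one := by
    rintro rfl
    rw [hw1 N (by omega) hNL] at huz
    omega
  have hv1 : ∀ j, v j ≠ one := by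
    intro j hj
    have h1 := hwv j
    rw [hj, hw1 (j + 1) (by omega) (by omega)] at h1
    omega
  have hne1 : ∀ χ : IrrCharacter G, χ ≠ one → (χ : G → ℂ) ≠ fun _ => 1 := by
    intro χ hχ h1
    exact hχ (Subtype.ext h1)
  -- values of `a`
  have haN : ∀ χ, χ ≠ one → χ ≠ c → χ ≠ y → χ ≠ z → a N χ = 0 := by
    intro χ h1 h2 h3 h4
    rw [← hwa N χ h1]; exact hu0 χ h2 h3 h4
  have haj : ∀ (j : Fin (N - 1)) χ, χ ≠ one → χ ≠ c → χ ≠ v j → a (j + 1) χ = 0 := by
    intro j χ h1 h2 h3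
    rw [← hwa _ χ h1]; exact hw0 j χ h2 h3
  have hcN : a N c = δ := by rw [← hwa N c hc1]; exact huc
  have hcj : ∀ j : Fin (N - 1), a (j + 1) c = δ := fun j => by rw [← hwa _ c hc1]; exact hwc j
  have hvj : ∀ j : Fin (N - 1), a (j + 1) (v j) = -δ := fun j => by
    rw [← hwa _ _ (hv1 j)]; exact hwv j
  -- membership
  have hmem : ∀ j χ, a j χ ≠ 0 → χ ∈ principalBlock M G := by
    intro j χ h1
    by_contra h2
    exact h1 (ha0 j χ h2)
  have hcB : c ∈ principalBlock M G := hmem N c (by rw [hcN]; exact hδ0)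
  have hyB : y ∈ principalBlock M G := hmem N y (by rw [← hwa N y hy1]; omega)
  have hzB : z ∈ principalBlock M G := hmem N z (by rw [← hwa N z hz1]; omega)
  have hvB : ∀ j, v j ∈ principalBlock M G := fun j => hmem (j + 1) (v j) (by
    rw [hvj]; omega)
  -- Fourier inversion
  have hsym : ∀ χ ∈ principalBlock M G, ∀ j, j ≤ 2 ^ (m + 1) → a (2 ^ (m + 1) - j) χ = a j χ := by
    intro χ hχ j hj
    have h1 := fourier_symm hL hζ (fun l => conj ((χ : G → ℂ) (σ ^ l))) (fun j => (a j χ : ℂ))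
      (fun j => by
        rw [← ha j χ]
        exact inner_formula hd hD hσH hμζ hμo hμz hτC hτH hM hχ j)
      (fun l hl0 hl => by
        have e1 : σ ^ (2 ^ (m + 1) - l) = σ ^ (-(l : ℤ)) := by
          rw [← zpow_natCast, zpow_eq_zpow_iff_modEq, hd.ho, Int.modEq_iff_dvd]
          refine ⟨-1, ?_⟩
          rw [Nat.cast_sub hl.le]
          ring
        rw [e1, val_neg hd χ, zpow_natCast]) hj
    exact_mod_cast h1
  have hinv : ∀ χ ∈ principalBlock M G, ∀ l, 0 < l → l < 2 ^ (m + 1) →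
      (χ : G → ℂ) (σ ^ l) = - ∑ j ∈ range (2 ^ (m + 1)), (a j χ : ℂ) * (ζ ^ (j * l)) := by
    intro χ hχ l hl0 hl
    have h1 := fourier_inv hL hζ (fun l => conj ((χ : G → ℂ) (σ ^ l))) (fun j => (a j χ : ℂ))
      (fun j => by
        rw [← ha j χ]
        exact inner_formula hd hD hσH hμζ hμo hμz hτC hτH hM hχ j) hl0 hl
    rw [h1, neg_neg]
    have e1 : σ ^ (2 ^ (m + 1) - l) = (σ ^ l)⁻¹ := by
      rw [← zpow_natCast, ← zpow_natCast, ← zpow_neg, zpow_eq_zpow_iff_modEq, hd.ho,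
        Int.modEq_iff_dvd]
      refine ⟨-1, ?_⟩
      rw [Nat.cast_sub hl.le]
      ring
    rw [e1, char_inv (irr_isChar χ.2), Complex.conj_conj]
  have ha00 : ∀ χ, χ ∈ principalBlock M G → a 0 χ = 0 := by
    intro χ hχ
    have h1 := inner_formula hd hD hσH hμζ hμo hμz hτC hτH hM hχ 0
    simp only [zero_mul, pow_zero, sub_self, Finset.sum_const_zero, mul_zero] at h1
    rw [ha] at h1
    exact_mod_cast h1
  -- a general evaluation
  have hidx : ∀ χ ∈ principalBlock M G, ∀ j, 0 < j → j < 2 ^ (m + 1) →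
      ∃ i, 0 < i ∧ i ≤ N ∧ a j χ = a i χ ∧ (i = j ∨ i = 2 ^ (m + 1) - j) := by
    intro χ hχ j hj0 hj
    by_cases h1 : j ≤ N
    · exact ⟨j, hj0, h1, rfl, Or.inl rfl⟩
    · exact ⟨2 ^ (m + 1) - j, by omega, by omega, (hsym χ hχ j hj.le).symm, Or.inr rfl⟩
  have hgen : ∀ i, 0 < i → i ≤ N → i = N ∨ ∃ j : Fin (N - 1), i = j + 1 := by
    intro i hi0 hi
    by_cases h1 : i = N
    · exact Or.inl h1
    · exact Or.inr ⟨⟨i - 1, by omega⟩, by simp; omega⟩
  -- nothing else in the block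
  have hother : ∀ χ ∈ principalBlock M G, χ ≠ one → χ ≠ c → χ ≠ y → χ ≠ z → (∀ j, χ ≠ v j) →
      False := by
    intro χ hχ h1 h2 h3 h4 h5
    have h6 : ∀ j, j < 2 ^ (m + 1) → a j χ = 0 := by
      intro j hj
      rcases Nat.eq_zero_or_pos j with h7 | h7
      · rw [h7]; exact ha00 χ hχ
      · obtain ⟨i, hi0, hi, hai, -⟩ := hidx χ hχ j h7 hj
        rw [hai]
        rcases hgen i hi0 hi with h8 | ⟨k, h8⟩
        · rw [h8]; exact haN χ h1 h2 h3 h4
        · rw [h8]; exact haj k χ h1 h2 (h5 k)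
    have h7 := hinv χ hχ N (by omega) hNL
    rw [Finset.sum_eq_zero (fun j hj => by rw [h6 j (Finset.mem_range.mp hj), Int.cast_zero, zero_mul]),
      neg_zero] at h7
    -- contradiction with the central character
    have h8 := (mem_principalBlock_iff.mp hχ) (σ ^ N)
    unfold centralChar at h8
    rw [h7, mul_zero, zero_div, sub_zero, mul_one, div_one] at h8
    have h9 : ¬ 2 ∣ (Subgroup.centralizer ({σ ^ N} : Set G)).index := by
      have hPC : (P : Subgroup G) ≤ Subgroup.centralizer ({σ ^ N} : Set G) := by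
        have h2 : σ ∈ Subgroup.centralizer ({σ ^ N} : Set G) := hD.HC hσH
        rw [← hd.hgen, Subgroup.closure_le]
        rintro x (rfl | hx)
        · exact h2
        · rw [Set.mem_singleton_iff.mp hx]; exact hτC
      intro h0
      have hp2 : Fact (Nat.Prime 2) := ⟨Nat.prime_two⟩
      exact P.not_dvd_index (h0.trans ⟨_, (Subgroup.relIndex_mul_index hPC).symm.trans (mul_comm _ _)⟩)
    exact h9 ((li_natCast_iff hM _).mp h8)
  have hB : principalBlock M G = {χ : IrrCharacter G | (χ : G → ℂ) = (fun _ => 1) ∨ χ = c ∨ χ = y ∨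
        χ = z ∨ ∃ j, χ = v j} := by
    ext χ
    constructor
    · intro hχ
      by_contra h1
      simp only [Set.mem_ofPred_eq, not_or, not_exists] at h1
      exact hother χ hχ (fun h => h1.1 (by rw [h])) h1.2.1 h1.2.2.1 h1.2.2.2.1 h1.2.2.2.2
    · rintro (h | h | h | h | ⟨j, h⟩)
      · have : χ = one := Subtype.ext h
        rw [this]; exact hone_mem
      · rw [h]; exact hcB
      · rw [h]; exact hyB
      · rw [h]; exact hzB
      · rw [h]; exact hvB j
  -- the number of characters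
  have hcard : Nat.card (principalBlock M G) = 3 + N := by
    have h1 : principalBlock M G =
        ((({one, c, y, z} : Finset (IrrCharacter G)) ∪ univ.image v : Finset (IrrCharacter G)) :
          Set (IrrCharacter G)) := by
      rw [hB]
      ext χ
      simp only [Set.mem_ofPred_eq, Finset.coe_union, Finset.coe_insert, Finset.coe_singleton,
        Finset.coe_image, Finset.coe_univ, Set.image_univ, Set.mem_union, Set.mem_insert_iff,
        Set.mem_singleton_iff, Set.mem_range]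
      constructor
      · rintro (h | h | h | h | ⟨j, h⟩)
        · exact Or.inl (Or.inl (Subtype.ext h))
        · exact Or.inl (Or.inr (Or.inl h))
        · exact Or.inl (Or.inr (Or.inr (Or.inl h)))
        · exact Or.inl (Or.inr (Or.inr (Or.inr h)))
        · exact Or.inr ⟨j, h.symm⟩
      · rintro ((h | h | h | h) | ⟨j, h⟩)
        · exact Or.inl (by rw [h])
        · exact Or.inr (Or.inl h)
        · exact Or.inr (Or.inr (Or.inl h))
        · exact Or.inr (Or.inr (Or.inr (Or.inl h)))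
        · exact Or.inr (Or.inr (Or.inr (Or.inr ⟨j, h.symm⟩)))
    rw [h1, Nat.card_coe_set_eq, Set.ncard_coe_finset, Finset.card_union_of_disjoint,
      Finset.card_image_of_injective _ hvinj, Finset.card_univ, Fintype.card_fin]
    · have h2 : ({one, c, y, z} : Finset (IrrCharacter G)).card = 4 := by
        rw [Finset.card_insert_of_notMem, Finset.card_insert_of_notMem,
          Finset.card_insert_of_notMem, Finset.card_singleton]
        · simpa using hyz
        · simp [hyc.symm, hzc.symm]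
        · simp [hc1.symm, hy1.symm, hz1.symm]
      rw [h2]; omega
    · rw [Finset.disjoint_left]
      intro χ h2 h3
      obtain ⟨j, -, rfl⟩ := Finset.mem_image.mp h3
      simp only [Finset.mem_insert, Finset.mem_singleton] at h2
      rcases h2 with h2 | h2 | h2 | h2
      · exact hv1 j h2
      · exact hvc j h2
      · exact hvy j h2
      · exact hvz j h2
  -- powers of the root of unity
  have hζN : ζ ^ N = -1 := by
    have h1 : ζ ^ N * ζ ^ N = 1 := by
      rw [← pow_add, ← two_mul, ← hLN, hζ.pow_eq_one]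
    have h2 : ζ ^ N ≠ 1 := fun h2 => by
      have h3 := (hζ.pow_eq_one_iff_dvd N).mp h2
      exact absurd (Nat.le_of_dvd (by omega) h3) (by omega)
    have h3 : (ζ ^ N - 1) * (ζ ^ N + 1) = 0 := by linear_combination h1
    rcases mul_eq_zero.mp h3 with h4 | h4
    · exact absurd (sub_eq_zero.mp h4) h2
    · exact eq_neg_of_add_eq_zero_left h4
  -- values
  have hval1 : ∀ l : ℕ, 0 < l → l < 2 ^ (m + 1) → (c : G → ℂ) (σ ^ l) = δ := by
    intro l hl0 hl
    rw [hinv c hcB l hl0 hl]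
    have h1 : ∀ j ∈ range (2 ^ (m + 1)), (a j c : ℂ) * (ζ ^ (j * l)) =
        (δ : ℂ) * ζ ^ (j * l) - if j = 0 then (δ : ℂ) else 0 := by
      intro j hj
      rw [Finset.mem_range] at hj
      rcases Nat.eq_zero_or_pos j with h7 | h7
      · rw [h7, ha00 c hcB, if_pos rfl, zero_mul, pow_zero]; push_cast; ring
      · rw [if_neg h7.ne', sub_zero]
        congr 1
        obtain ⟨i, hi0, hi, hai, -⟩ := hidx c hcB j h7 hj
        rw [hai]
        rcases hgen i hi0 hi with h8 | ⟨k, h8⟩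
        · rw [h8, hcN]
        · rw [h8, hcj]
    rw [Finset.sum_congr rfl h1, Finset.sum_sub_distrib, ← Finset.mul_sum, sum_root_pow hL hζ,
      if_neg (Nat.not_dvd_of_pos_of_lt hl0 hl), Finset.sum_ite_eq' (range (2 ^ (m + 1))),
      if_pos (Finset.mem_range.mpr hL)]
    ring
  have hval2 : ∀ x : IrrCharacter G, x ∈ principalBlock M G → x ≠ one → x ≠ c → (∀ j, x ≠ v j) →
      ∀ l : ℕ, 0 < l → l < 2 ^ (m + 1) → (x : G → ℂ) (σ ^ l) = (a N x : ℂ) * (-1) ^ (l + 1) := by
    intro x hxB hx1 hx2 hx3 l hl0 hl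
    rw [hinv x hxB l hl0 hl]
    have h1 : ∀ j ∈ range (2 ^ (m + 1)), (a j x : ℂ) * (ζ ^ (j * l)) =
        if j = N then (a N x : ℂ) * ζ ^ (N * l) else 0 := by
      intro j hj
      rw [Finset.mem_range] at hj
      by_cases hjN : j = N
      · rw [hjN, if_pos rfl]
      · rw [if_neg hjN]
        rcases Nat.eq_zero_or_pos j with h7 | h7
        · rw [h7, ha00 x hxB]; push_cast; ring
        · obtain ⟨i, hi0, hi, hai, hij⟩ := hidx x hxB j h7 hj
          rw [hai]
          rcases hgen i hi0 hi with h8 | ⟨k, h8⟩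
          · exfalso; omega
          · rw [h8, haj k x hx1 hx2 (hx3 k)]; push_cast; ring
    rw [Finset.sum_congr rfl h1, Finset.sum_ite_eq' (range (2 ^ (m + 1))),
      if_pos (Finset.mem_range.mpr hNL), pow_mul, hζN, pow_succ]
    ring
  have hval3 : ∀ (k : Fin (N - 1)) (l : ℕ), 0 < l → l < 2 ^ (m + 1) →
      (v k : G → ℂ) (σ ^ l) = δ * (ζ ^ (((k : ℕ) + 1) * l) + (ζ ^ (((k : ℕ) + 1) * l))⁻¹) := by
    intro k l hl0 hl
    have hkN : (k : ℕ) + 1 < N := by omega
    rw [hinv (v k) (hvB k) l hl0 hl]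
    have h1 : ∀ j ∈ range (2 ^ (m + 1)), (a j (v k) : ℂ) * (ζ ^ (j * l)) =
        (if j = k + 1 then -(δ : ℂ) * ζ ^ (((k : ℕ) + 1) * l) else 0) +
        (if j = 2 ^ (m + 1) - (k + 1) then -(δ : ℂ) * ζ ^ ((2 ^ (m + 1) - ((k : ℕ) + 1)) * l)
          else 0) := by
      intro j hj
      rw [Finset.mem_range] at hj
      by_cases hj1 : j = k + 1
      · rw [if_pos hj1, if_neg (by omega), hj1, hvj k]; push_cast; ring
      · by_cases hj2 : j = 2 ^ (m + 1) - (k + 1)
        · rw [if_neg hj1, if_pos hj2, hj2, hsym (v k) (hvB k) _ (by omega), hvj k]; push_cast; ring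
        · rw [if_neg hj1, if_neg hj2, add_zero]
          rcases Nat.eq_zero_or_pos j with h7 | h7
          · rw [h7, ha00 (v k) (hvB k)]; push_cast; ring
          · obtain ⟨i, hi0, hi, hai, hij⟩ := hidx (v k) (hvB k) j h7 hj
            rw [hai]
            rcases hgen i hi0 hi with h8 | ⟨q, h8⟩
            · rw [h8, haN (v k) (hv1 k) (hvc k) (hvy k) (hvz k)]; push_cast; ring
            · have hqk : v k ≠ v q := by
                intro h9
                have h10 := hvinj h9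
                rw [← h10] at h8
                omega
              rw [h8, haj q (v k) (hv1 k) (hvc k) hqk]; push_cast; ring
    rw [Finset.sum_congr rfl h1, Finset.sum_add_distrib,
      Finset.sum_ite_eq' (range (2 ^ (m + 1))), Finset.sum_ite_eq' (range (2 ^ (m + 1))),
      if_pos (Finset.mem_range.mpr (by omega)), if_pos (Finset.mem_range.mpr (by omega))]
    have h2 : ζ ^ ((2 ^ (m + 1) - ((k : ℕ) + 1)) * l) = (ζ ^ (((k : ℕ) + 1) * l))⁻¹ := by
      apply eq_inv_of_mul_eq_one_left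
      rw [← pow_add, ← add_mul, Nat.sub_add_cancel (by omega), pow_mul, hζ.pow_eq_one, one_pow]
    rw [h2]
    ring
  -- relations
  have hNy : a N y = 1 ∨ a N y = -1 := by rw [← hwa N y hy1]; exact huy
  have hNz : a N z = 1 ∨ a N z = -1 := by rw [← hwa N z hz1]; exact huz
  have hrel : ∀ ρ : G, Odd (orderOf ρ) → ∀ j : Fin (N - 1),
      1 + δ * (c : G → ℂ) ρ = -(a N y : ℂ) * (y : G → ℂ) ρ - (a N z : ℂ) * (z : G → ℂ) ρ ∧
      1 + δ * (c : G → ℂ) ρ = δ * (v j : G → ℂ) ρ := by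
    intro ρ hρ j
    have hρ' : ¬ 2 ∣ orderOf ρ := by
      rw [← even_iff_two_dvd, Nat.not_even_iff_odd]; exact hρ
    constructor
    · have h1 := hreg N ρ hρ'
      have h2 : ∀ χ : IrrCharacter G, (a N χ : ℂ) * (χ : G → ℂ) ρ =
          (if χ = one then (1 : ℂ) else 0) + (if χ = c then (δ : ℂ) * (c : G → ℂ) ρ else 0) +
          (if χ = y then (a N y : ℂ) * (y : G → ℂ) ρ else 0) +
          (if χ = z then (a N z : ℂ) * (z : G → ℂ) ρ else 0) := by
        intro χ
        by_cases k1 : χ = one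
        · rw [k1, if_pos rfl, if_neg hc1.symm, if_neg hy1.symm, if_neg hz1.symm,
            ha1 N (by omega) hNL, hone]
          push_cast; ring
        · by_cases k2 : χ = c
          · rw [k2, if_neg hc1, if_pos rfl, if_neg hyc.symm, if_neg hzc.symm, hcN]; ring
          · by_cases k3 : χ = y
            · rw [k3, if_neg hy1, if_neg hyc, if_pos rfl, if_neg hyz]; ring
            · by_cases k4 : χ = z
              · rw [k4, if_neg hz1, if_neg hzc, if_neg hyz.symm, if_pos rfl]; ring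
              · rw [if_neg k1, if_neg k2, if_neg k3, if_neg k4, haN χ k1 k2 k3 k4]
                push_cast; ring
      rw [Finset.sum_congr rfl fun χ _ => h2 χ] at h1
      simp only [Finset.sum_add_distrib, Finset.sum_ite_eq', Finset.mem_univ, if_true] at h1
      linear_combination h1
    · have h1 := hreg (j + 1) ρ hρ'
      have h2 : ∀ χ : IrrCharacter G, (a (j + 1) χ : ℂ) * (χ : G → ℂ) ρ =
          (if χ = one then (1 : ℂ) else 0) + (if χ = c then (δ : ℂ) * (c : G → ℂ) ρ else 0) +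
          (if χ = v j then -(δ : ℂ) * (v j : G → ℂ) ρ else 0) := by
        intro χ
        by_cases k1 : χ = one
        · rw [k1, if_pos rfl, if_neg hc1.symm, if_neg (hv1 j).symm,
            ha1 (j + 1) (by omega) (by omega), hone]
          push_cast; ring
        · by_cases k2 : χ = c
          · rw [k2, if_neg hc1, if_pos rfl, if_neg (hvc j).symm, hcj]; ring
          · by_cases k3 : χ = v j
            · rw [k3, if_neg (hv1 j), if_neg (hvc j), if_pos rfl, hvj]; push_cast; ring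
            · rw [if_neg k1, if_neg k2, if_neg k3, haj j χ k1 k2 k3]
              push_cast; ring
      rw [Finset.sum_congr rfl fun χ _ => h2 χ] at h1
      simp only [Finset.sum_add_distrib, Finset.sum_ite_eq', Finset.mem_univ, if_true] at h1
      linear_combination h1
  refine ⟨hcard, c, y, z, v, δ, a N y, a N z, hδ, hNy, hNz, hvinj, hne1 c hc1, hne1 y hy1,
    hne1 z hz1, hyc.symm, hzc.symm, hyz, fun j => ⟨hvc j, hvy j, hvz j, hne1 _ (hv1 j)⟩, hB, ?_,
    fun ρ hρ j => hrel ρ hρ j⟩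
  intro l hl0 hl
  exact ⟨hval1 l hl0 hl, hval2 y hyB hy1 hyc (fun j h => hvy j h.symm) l hl0 hl,
    hval2 z hzB hz1 hzc (fun j h => hvz j h.symm) l hl0 hl, fun j => hval3 j l hl0 hl⟩

end Main

end Cfsg.Agent.H11
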