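import Cfsg.Agent.H11.DihD

set_option autoImplicit false

/-!
Dihedral generators from an isomorphism with a dihedral group.
-/

namespace Cfsg.Agent.H11

open Cfsg Cfsg.Agent.H3 Cfsg.Agent.H26

universe u

theorem exists_ddata {G : Type u} [Group G] [Finite G] {m : ℕ} (hm : 1 ≤ m) (P : Subgroup G)
    (hP : Nonempty (P ≃* DihedralGroup (2 ^ (m + 1)))) (σ : G) (hσ : σ ∈ P)
    (hσo : orderOf σ = 2 ^ (m + 1)) : ∃ τ : G, DData P σ τ m := by
  obtain ⟨e⟩ := hP
  have h4 : 4 ≤ 2 ^ (m + 1) := by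
    calc 4 = 2 ^ 2 := rfl
      _ ≤ 2 ^ (m + 1) := Nat.pow_le_pow_right (by norm_num) (by omega)
  have ho : orderOf (e ⟨σ, hσ⟩) = 2 ^ (m + 1) := by
    rw [MulEquiv.orderOf_eq, Subgroup.orderOf_mk, hσo]
  obtain ⟨i, hi⟩ : ∃ i, e ⟨σ, hσ⟩ = DihedralGroup.r i := by
    rcases h : e ⟨σ, hσ⟩ with i | i
    · exact ⟨i, rfl⟩
    · exfalso
      rw [h] at ho
      have h1 : orderOf (DihedralGroup.sr i : DihedralGroup (2 ^ (m + 1))) ∣ 2 :=
        orderOf_dvd_of_pow_eq_one (by rw [sq, DihedralGroup.sr_mul_self])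
      rw [ho] at h1
      exact absurd (Nat.le_of_dvd (by norm_num) h1) (by omega)
  let τ' : P := e.symm (DihedralGroup.sr 0)
  have ht : τ' * τ' = 1 := by
    apply e.injective
    rw [map_mul, map_one]
    simp only [τ', MulEquiv.apply_symm_apply]
    exact DihedralGroup.sr_mul_self 0
  have hti : τ'⁻¹ = τ' := inv_eq_of_mul_eq_one_left ht
  have hrel : τ' * ⟨σ, hσ⟩ * τ'⁻¹ = (⟨σ, hσ⟩ : P)⁻¹ := by
    apply e.injective
    rw [hti, map_mul, map_mul, map_inv, hi]
    simp only [τ', MulEquiv.apply_symm_apply]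
    rw [DihedralGroup.sr_mul_r, DihedralGroup.sr_mul_sr, DihedralGroup.inv_r]
    congr 1
    ring
  have hrel' : (τ' : G) * σ * (τ' : G)⁻¹ = σ⁻¹ := congrArg Subtype.val hrel
  have hne : (τ' : G) ∉ Subgroup.zpowers σ := by
    rintro ⟨k, hk⟩
    have hk' : σ ^ k = (τ' : G) := hk
    have h2 : (τ' : G) * σ * (τ' : G)⁻¹ = σ := by
      rw [← hk']; group
    rw [h2] at hrel'
    have h3 : σ * σ = 1 := by nth_rewrite 2 [hrel']; exact mul_inv_cancel σ
    have h5 : orderOf σ ∣ 2 := orderOf_dvd_of_pow_eq_one (by rw [sq]; exact h3)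
    rw [hσo] at h5
    exact absurd (Nat.le_of_dvd (by norm_num) h5) (by omega)
  refine ⟨τ', hσ, τ'.2, hσo, congrArg Subtype.val ht, hne, hrel', ?_⟩
  have hle : Subgroup.closure ({σ, (τ' : G)} : Set G) ≤ P := by
    rw [Subgroup.closure_le]
    rintro x (rfl | hx)
    · exact hσ
    · rw [Set.mem_singleton_iff.mp hx]; exact τ'.2
  apply Subgroup.eq_of_le_of_card_ge hle
  have hcP : Nat.card P = 2 * 2 ^ (m + 1) := by
    rw [Nat.card_congr e.toEquiv, DihedralGroup.nat_card]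
  set K := Subgroup.closure ({σ, (τ' : G)} : Set G) with hK
  have hσK : σ ∈ K := Subgroup.subset_closure (by simp)
  have hτK : (τ' : G) ∈ K := Subgroup.subset_closure (by simp)
  have hzK : Subgroup.zpowers σ ≤ K := by rw [Subgroup.zpowers_le]; exact hσK
  have h6 : Nat.card (Subgroup.zpowers σ) ∣ Nat.card K := Subgroup.card_dvd_of_le hzK
  obtain ⟨q, hq⟩ := h6
  rw [Nat.card_zpowers, hσo] at hq
  rw [hcP, hq, mul_comm 2]
  apply Nat.mul_le_mul_left
  have hq0 : q ≠ 0 := by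
    rintro rfl
    rw [mul_zero] at hq
    exact Nat.card_pos.ne' hq
  have hq1 : q ≠ 1 := by
    rintro rfl
    rw [mul_one] at hq
    have h7 : Subgroup.zpowers σ = K := by
      apply Subgroup.eq_of_le_of_card_ge hzK
      rw [Nat.card_zpowers, hσo, hq]
    apply hne
    rw [h7]; exact hτK
  omega

end Cfsg.Agent.H11
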