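import Cfsg.Agent.H27.GalBlock
import Cfsg.Agent.H11.SecondMain
import Cfsg.Agent.H11.Defect3

set_option autoImplicit false

/-! S0902: blocks do not depend on the maximal ideal. -/

namespace Cfsg.Agent.H11

open Cfsg Finset Cfsg.Agent.H3 Cfsg.Agent.H27

theorem isGalSeq_pow {N : ℕ} {a : ℕ → ℂ} (ha : IsGalSeq N a) (k : ℕ) :
    IsGalSeq N (fun m => a m ^ k) := by
  induction k with
  | zero => simpa using IsGalSeq.intCast (N := N) 1
  | succ k ih =>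
    have := ih.mul ha
    simpa only [← pow_succ] using this

theorem st0902 {G : Type*} [Group G] [Finite G] {p : ℕ} {M M' : Ideal AlgInt}
    (hM : IsPModular p M) (hM' : IsPModular p M') (χ ψ : IrrCharacter G)
    (h : SameBlock M (χ : G → ℂ) (ψ : G → ℂ)) (g : G) :
    ∃ r : AlgInt, r ∈ M' ∧ (r : ℂ) = centralChar (χ : G → ℂ) g - centralChar (ψ : G → ℂ) g := by
  classical
  haveI := Fintype.ofFinite G
  have hpr := hM.2.1.isPrime
  have hpr' := hM'.2.1.isPrime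
  have hp0 : (p : ℂ) ≠ 0 := by exact_mod_cast hM.1.ne_zero
  have hN : Nat.card G ≠ 0 := Nat.card_pos.ne'
  obtain ⟨a, ha0, ha⟩ := irr_one_eq_nat χ.2
  obtain ⟨b, hb0, hb⟩ := irr_one_eq_nat ψ.2
  obtain ⟨c, hc⟩ : ∃ c, c = (Subgroup.centralizer ({g} : Set G)).index := ⟨_, rfl⟩
  obtain ⟨z, hz⟩ : ∃ z : ℕ → ℂ, z = fun m => centralChar (χ : G → ℂ) (g ^ m) -
    centralChar (ψ : G → ℂ) (g ^ m) := ⟨_, rfl⟩
  have hgN : g ^ Nat.card G = 1 := pow_card_eq_one'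
  have hzint : IsIntegral ℤ (z 1) := by
    rw [hz]
    exact (centralChar_isIntegral χ.2 _).sub (centralChar_isIntegral ψ.2 _)
  obtain ⟨D, hD⟩ : ∃ D, D = a * b := ⟨_, rfl⟩
  have hD0 : D ≠ 0 := by rw [hD]; exact (Nat.mul_pos ha0 hb0).ne'
  -- the Galois sequence
  have hseq : IsGalSeq (Nat.card G) (fun m => ((b * c : ℕ) : ℂ) * (χ : G → ℂ) (g ^ m) +
      ((-(a * c : ℕ) : ℤ) : ℂ) * (ψ : G → ℂ) (g ^ m)) :=
    ((IsGalSeq.natCast _).mul (IsGalSeq.char (irr_isChar χ.2) hN hgN)).add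
      ((IsGalSeq.intCast _).mul (IsGalSeq.char (irr_isChar ψ.2) hN hgN))
  have hval : ∀ m : ℕ, m.Coprime (Nat.card G) → ((b * c : ℕ) : ℂ) * (χ : G → ℂ) (g ^ m) +
      ((-(a * c : ℕ) : ℤ) : ℂ) * (ψ : G → ℂ) (g ^ m) = (D : ℂ) * z m := by
    intro m hm
    rw [hz, hD]
    unfold centralChar
    simp only
    rw [centralizer_pow_coprime hm, ← hc, ha, hb]
    have ha' : (a : ℂ) ≠ 0 := by exact_mod_cast ha0.ne'
    have hb' : (b : ℂ) ≠ 0 := by exact_mod_cast hb0.ne'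
    push_cast
    field_simp
    ring
  -- powers
  have hpow : ∀ m ∈ cop (Nat.card G), ∃ n₀ : ℕ, ∀ n, n₀ ≤ n → MemLocalRing M (z m ^ n / p) := by
    intro m _
    have h1 : MemLocalIdeal M (z m) := by rw [hz]; exact h (g ^ m)
    obtain ⟨n₀, hn₀⟩ := exists_pow_div hM h1 1
    exact ⟨n₀, fun n hn => by simpa using hn₀ n hn⟩
  choose! n₀ hn₀ using hpow
  obtain ⟨k, hk⟩ : ∃ k, k = (∑ m ∈ cop (Nat.card G), n₀ m) + 1 := ⟨_, rfl⟩
  have hk' : ∀ m ∈ cop (Nat.card G), MemLocalRing M (z m ^ k / p) := by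
    intro m hm
    apply hn₀ m hm
    rw [hk]
    exact (Finset.single_le_sum (f := n₀) (fun _ _ => Nat.zero_le _) hm).trans (Nat.le_succ _)
  obtain ⟨d, hd⟩ : ∃ d, d = D.factorization p := ⟨_, rfl⟩
  obtain ⟨D', hD'⟩ : ∃ D', D' = D / p ^ D.factorization p := ⟨_, rfl⟩
  have hDD : (D : ℂ) = (p : ℂ) ^ d * (D' : ℂ) := by
    rw [hd, hD']; exact natCast_eq_pPart_mul p D
  have hDp : ¬ p ∣ D' := by rw [hD']; exact Nat.not_dvd_ordCompl hM.1 hD0
  have hdiv : ∀ w : ℂ, ((D : ℂ) * w) ^ k / (p : ℂ) ^ (d * k + 1) = (D' : ℂ) ^ k * (w ^ k / p) := by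
    intro w
    rw [hDD, mul_pow, mul_pow, ← pow_mul, pow_succ]
    field_simp
  have hint := (isGalSeq_pow hseq k).integral_div hM hN (d * k + 1) (by
    intro m hm
    have hm' : m.Coprime (Nat.card G) := (mem_cop.mp hm).2
    rw [hval m hm', hdiv]
    exact lr_mul (lr_pow (lr_natCast M D') k) (hk' m hm))
  rw [hval 1 (Nat.coprime_one_left _), hdiv] at hint
  -- conclusion
  refine ⟨⟨z 1, hzint⟩, ?_, by
    show z 1 = _
    rw [hz]; simp⟩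
  have h1 : ((D' : AlgInt) ^ k * (⟨z 1, hzint⟩ : AlgInt) ^ k : AlgInt) = (p : AlgInt) *
      ⟨(D' : ℂ) ^ k * (z 1 ^ k / p), hint⟩ := by
    apply Subtype.ext
    show ((D' : AlgInt) : ℂ) ^ k * z 1 ^ k = ((p : AlgInt) : ℂ) * ((D' : ℂ) ^ k * (z 1 ^ k / p))
    have e1 : ((D' : AlgInt) : ℂ) = D' := rfl
    have e2 : ((p : AlgInt) : ℂ) = p := rfl
    rw [e1, e2]
    field_simp
  have h2 : ((D' : AlgInt) ^ k * (⟨z 1, hzint⟩ : AlgInt) ^ k : AlgInt) ∈ M' := by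
    rw [h1]; exact Ideal.mul_mem_right _ _ hM'.2.2
  rcases hpr'.mem_or_mem h2 with h3 | h3
  · exfalso
    have h4 := hpr'.mem_of_pow_mem _ h3
    apply hDp
    rw [← li_natCast_iff hM']
    exact ⟨(D' : AlgInt), 1, h4, fun h5 => hpr'.ne_top ((Ideal.eq_top_iff_one _).2 h5), by simp⟩
  · exact hpr'.mem_of_pow_mem _ h3

end Cfsg.Agent.H11
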