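import Mathlib

set_option autoImplicit false

namespace Cfsg.Agent.H11.Hup

open Module

/-- homomorphisms into the units of a field trivial on `B` number at most the index of `B`. -/
theorem chi_le {X : Type*} [Group X] [Finite X] {K : Type*} [Field K] (B : Subgroup X)
    (S : Set (X →* Kˣ)) (hS : ∀ f ∈ S, ∀ b ∈ B, f b = 1) : Nat.card S ≤ B.index := by
  classical
  have : Fintype (X ⧸ B) := Fintype.ofFinite _
  let w : S → (X ⧸ B → K) := fun f => Quotient.lift (fun x => ((f : X →* Kˣ) x : K)) (by
    intro a b hab
    have h : a⁻¹ * b ∈ B := QuotientGroup.leftRel_apply.mp hab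
    have h1 := hS f f.2 _ h
    rw [map_mul, map_inv, inv_mul_eq_one] at h1
    simp [h1])
  have hli : LinearIndependent K (fun f : S => ((Units.coeHom K).comp (f : X →* Kˣ) : X → K)) := by
    have h := linearIndependent_monoidHom X K
    have h2 := h.comp (fun f : S => (Units.coeHom K).comp (f : X →* Kˣ)) (by
      intro f g hfg
      apply Subtype.ext
      ext x
      have := DFunLike.congr_fun hfg x
      simpa using this)
    exact h2
  have hw : LinearIndependent K w := by
    apply LinearIndependent.of_comp (LinearMap.funLeft K K (fun x : X => (x : X ⧸ B)))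
    exact hli
  have hfin : Finite S := hw.finite
  have : Fintype S := Fintype.ofFinite _
  have h := hw.fintype_card_le_finrank
  rw [Module.finrank_fintype_fun_eq_card] at h
  rw [Nat.card_eq_fintype_card, Subgroup.index, Nat.card_eq_fintype_card]
  exact h

theorem sq_index {E : Type*} [Group E] [Finite E] {K : Type*} [Field K] (c : E →* (E →* Kˣ))
    (hs : ∀ a b, c a b = (c b a)⁻¹) (ha : ∀ a, c a a = 1) : ∃ m : ℕ, c.ker.index = m ^ 2 := by
  classical
  have hfin : ({A : Subgroup E | c.ker ≤ A ∧ ∀ a ∈ A, ∀ b ∈ A, c a b = 1}).Finite := Set.toFinite _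
  obtain ⟨A, hA⟩ := hfin.exists_maximal (by
    refine ⟨c.ker, le_rfl, fun a ha b _ => ?_⟩
    rw [MonoidHom.mem_ker] at ha
    rw [ha]; rfl)
  obtain ⟨⟨hkA, hiso⟩, hmax⟩ := hA
  have hperp : ∀ e : E, (∀ a ∈ A, c e a = 1) → e ∈ A := by
    intro e he
    let U : Set E := (A : Set E) ∪ {e}
    have h1 : ∀ x ∈ Subgroup.closure U, ∀ y ∈ U, c x y = 1 := by
      intro x hx
      induction hx using Subgroup.closure_induction with
      | mem x hx =>
        intro y hy
        rcases hx with hx | hx <;> rcases hy with hy | hy
        · exact hiso x hx y hy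
        · rw [Set.mem_singleton_iff] at hy
          rw [hy, hs, he x hx, inv_one]
        · rw [Set.mem_singleton_iff] at hx
          rw [hx]; exact he y hy
        · rw [Set.mem_singleton_iff] at hx hy
          rw [hx, hy]; exact ha e
      | one => intro y _; rw [map_one]; rfl
      | mul x y _ _ hx hy => intro z hz; rw [map_mul, MonoidHom.mul_apply, hx z hz, hy z hz, one_mul]
      | inv x _ hx => intro z hz; rw [map_inv, MonoidHom.inv_apply, hx z hz, inv_one]
    have h2 : ∀ x ∈ Subgroup.closure U, ∀ y ∈ Subgroup.closure U, c x y = 1 := by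
      intro x hx y hy
      induction hy using Subgroup.closure_induction with
      | mem y hy => exact h1 x hx y hy
      | one => exact map_one _
      | mul y z _ _ hy hz => rw [map_mul, hy, hz, one_mul]
      | inv y _ hy => rw [map_inv, hy, inv_one]
    have hle : A ≤ Subgroup.closure U := fun a ha => Subgroup.subset_closure (Or.inl ha)
    have h3 := hmax (y := Subgroup.closure U) ⟨hkA.trans hle, h2⟩ hle
    exact h3 (Subgroup.subset_closure (Or.inr rfl))
  -- first inequality
  let r : E →* (↥A →* Kˣ) :=
    { toFun := fun e => (c e).comp A.subtype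
      map_one' := by ext; simp
      map_mul' := fun a b => by ext; simp }
  have hkerr : r.ker = A := by
    ext e
    rw [MonoidHom.mem_ker]
    constructor
    · intro h
      apply hperp
      intro a ha
      exact DFunLike.congr_fun h ⟨a, ha⟩
    · intro he
      ext a
      have := hiso e he a a.2
      exact congrArg Units.val this
  have h1 : A.index ≤ (c.ker.subgroupOf A).index := by
    have h := chi_le (c.ker.subgroupOf A) (r.range : Set (↥A →* Kˣ)) (by
      rintro f ⟨e, rfl⟩ b hb
      rw [Subgroup.mem_subgroupOf, MonoidHom.mem_ker] at hb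
      change c e b = 1
      rw [hs, hb]; simp)
    rw [← hkerr, Subgroup.index_ker]
    rw [hkerr]
    exact h
  have h2 : (c.ker.subgroupOf A).index ≤ A.index := by
    have h := chi_le A ((A.map c : Subgroup (E →* Kˣ)) : Set (E →* Kˣ)) (by
      rintro f ⟨a, ha, rfl⟩ b hb
      exact hiso a ha b hb)
    refine le_trans (le_of_eq ?_) h
    have : (A.map c : Subgroup (E →* Kˣ)) = (c.comp A.subtype).range := by
      rw [MonoidHom.range_comp, Subgroup.range_subtype]
    rw [this]
    have h3 := Subgroup.index_ker (c.comp A.subtype)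
    rw [← MonoidHom.comap_ker] at h3
    exact h3
  have h3 : (c.ker.subgroupOf A).index * A.index = c.ker.index := Subgroup.relIndex_mul_index hkA
  refine ⟨A.index, ?_⟩
  rw [← h3, le_antisymm h2 h1, sq]

/-- linear independence of a transversal. -/
theorem indep {K : Type*} [Field K] {R : Type*} [Ring R] [Nontrivial R] [Algebra K R]
    {E : Type*} [Group E] (ρ : E →* R) {ι : Type*} (t : ι → E) (lam : ι → (E →* Kˣ))
    (hinj : Function.Injective lam)
    (h : ∀ i f, ρ f * ρ (t i) = (lam i f : K) • (ρ (t i) * ρ f)) :
    LinearIndependent K (fun i => ρ (t i)) := by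
  classical
  have hli : LinearIndependent K (fun i : ι => ((Units.coeHom K).comp (lam i) : E → K)) := by
    have h := linearIndependent_monoidHom E K
    have h2 := h.comp (fun i : ι => (Units.coeHom K).comp (lam i)) (by
      intro i j hij
      apply hinj
      ext x
      have := DFunLike.congr_fun hij x
      simpa using this)
    exact h2
  rw [linearIndependent_iff']
  intro s c hc i hi
  have hne : ρ (t i) ≠ 0 := by
    intro h0
    have : ρ (t i) * ρ (t i)⁻¹ = 1 := by rw [← map_mul, mul_inv_cancel, map_one]
    rw [h0, zero_mul] at this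
    exact zero_ne_one this
  have key : ∀ φ : Module.Dual K R, c i * φ (ρ (t i)) = 0 := by
    intro φ
    have h1 : ∑ j ∈ s, (c j * φ (ρ (t j))) • ((Units.coeHom K).comp (lam j) : E → K) = 0 := by
      funext f
      have h2 : ρ f * (∑ j ∈ s, c j • ρ (t j)) * ρ f⁻¹ = 0 := by rw [hc]; simp
      have h3 : ρ f * (∑ j ∈ s, c j • ρ (t j)) * ρ f⁻¹
          = ∑ j ∈ s, (c j * (lam j f : K)) • ρ (t j) := by
        rw [Finset.mul_sum, Finset.sum_mul]
        apply Finset.sum_congr rfl
        intro j _
        rw [Algebra.mul_smul_comm, h, Algebra.smul_mul_assoc, Algebra.smul_mul_assoc, mul_assoc,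
          ← map_mul, mul_inv_cancel, map_one, mul_one, smul_smul]
      rw [h3] at h2
      have h4 := congrArg φ h2
      rw [map_sum, map_zero] at h4
      rw [Finset.sum_apply, Pi.zero_apply, ← h4]
      apply Finset.sum_congr rfl
      intro j _
      rw [map_smul]
      simp only [Pi.smul_apply, smul_eq_mul, MonoidHom.coe_comp, Function.comp_apply,
        Units.coeHom_apply]
      ring
    exact (linearIndependent_iff'.mp hli) s _ h1 i hi
  have h5 : c i • ρ (t i) = 0 := by
    rw [← Module.forall_dual_apply_eq_zero_iff K]
    intro φ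
    rw [map_smul, smul_eq_mul]
    exact key φ
  rcases smul_eq_zero.mp h5 with h6 | h6
  · exact h6
  · exact absurd h6 hne

end Cfsg.Agent.H11.Hup
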