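import Mathlib
import Cfsg.Agent.H11.Hup1

set_option autoImplicit false

namespace Cfsg.Agent.H11.Hup

open Module

section GF
variable {q : ℕ} [Fact q.Prime] {V : Type*} [AddCommGroup V] [Module (ZMod q) V] [Finite V]
  [Nontrivial V]

/-- A commutative subalgebra acting without kernels is a Galois field. -/
theorem exists_gf (A : Subalgebra (ZMod q) (Module.End (ZMod q) V))
    (hcomm : ∀ a ∈ A, ∀ b ∈ A, a * b = b * a)
    (hker : ∀ a ∈ A, a ≠ 0 → ∀ v : V, a v = 0 → v = 0) :
    ∃ (l : ℕ) (φ : GaloisField q l →+* Module.End (ZMod q) V), l ≠ 0 ∧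
      Set.range φ = (A : Set (Module.End (ZMod q) V)) := by
  classical
  have : Module.Finite (ZMod q) V := Module.Finite.of_finite
  have : Finite (Module.End (ZMod q) V) := Module.finite_of_finite (ZMod q)
  have hfA : Finite A := inferInstance
  obtain ⟨v0, hv0⟩ := exists_ne (0 : V)
  letI cr : CommRing A := { (inferInstance : Ring A) with
    mul_comm := fun a b => Subtype.ext (hcomm a a.2 b b.2) }
  have hnt : Nontrivial A := inferInstance
  have hnz : NoZeroDivisors A := by
    constructor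
    intro a b hab
    by_contra hcon
    push Not at hcon
    have h1 : (b : Module.End (ZMod q) V) v0 ≠ 0 := fun h =>
      hv0 (hker b b.2 (fun h' => hcon.2 (Subtype.ext h')) v0 h)
    have h2 : (a : Module.End (ZMod q) V) ((b : Module.End (ZMod q) V) v0) = 0 := by
      have := congrArg (fun c : A => (c : Module.End (ZMod q) V) v0) hab
      exact this
    exact h1 (hker a a.2 (fun h' => hcon.1 (Subtype.ext h')) _ h2)
  have hdom : IsDomain A := NoZeroDivisors.to_isDomain A
  letI fA : Field A := (Finite.isDomain_to_isField A).toField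
  have : Fintype A := Fintype.ofFinite _
  have hchar : CharP A q := by
    have : CharP (Module.End (ZMod q) V) q := charP_of_injective_algebraMap
      (FaithfulSMul.algebraMap_injective (ZMod q) (Module.End (ZMod q) V)) q
    exact (A.subtype : A →+* Module.End (ZMod q) V).charP Subtype.val_injective q
  obtain ⟨l, -, hl⟩ := FiniteField.card A q
  have : Fintype (GaloisField q l) := Fintype.ofFinite _
  have hc2 : Fintype.card (GaloisField q l) = Fintype.card A := by
    rw [hl, ← Nat.card_eq_fintype_card, GaloisField.card q l l.2.ne']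
  let ψ : GaloisField q l ≃+* A := FiniteField.ringEquivOfCardEq hc2
  refine ⟨l, ((A.subtype : A →+* Module.End (ZMod q) V)).comp (ψ : GaloisField q l →+* A), l.2.ne', ?_⟩
  ext a
  constructor
  · rintro ⟨k, rfl⟩
    exact (ψ k).2
  · intro ha
    refine ⟨ψ.symm ⟨a, ha⟩, ?_⟩
    change ((ψ (ψ.symm ⟨a, ha⟩) : A) : Module.End (ZMod q) V) = a
    rw [RingEquiv.apply_symm_apply]

end GF

section Semilin
variable {V : Type*} [AddCommGroup V] [Finite V] [Nontrivial V]

theorem semilin {K : Type*} [Field K] [Finite K] (φ : K →+* AddMonoid.End V)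
    (hcard : Nat.card K = Nat.card V) :
    ∃ e : V ≃+ K, (∀ k v, e (φ k v) = k * e v) ∧
      ∀ g : V ≃+ V, (∀ k : K, ∃ k' : K, ∀ v, g (φ k v) = φ k' (g v)) →
      ∃ (a : K) (σ : K ≃+* K), ∀ v : V, e (g v) = a * σ (e v) := by
  classical
  obtain ⟨v0, hv0⟩ := exists_ne (0 : V)
  let f : K →+ V :=
    { toFun := fun k => φ k v0
      map_zero' := by rw [map_zero]; rfl
      map_add' := fun a b => by rw [map_add]; rfl }
  have pm : ∀ a b v, φ (a * b) v = φ a (φ b v) := fun a b v => by rw [map_mul]; rfl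
  have pa : ∀ a b v, φ (a + b) v = φ a v + φ b v := fun a b v => by rw [map_add]; rfl
  have p1 : ∀ v, φ 1 v = v := fun v => by rw [map_one]; rfl
  have hunit : ∀ k : K, k ≠ 0 → ∀ v, φ k v = 0 → v = 0 := by
    intro k hk v hv
    have h : φ (k⁻¹ * k) v = 0 := by rw [pm, hv, map_zero]
    rw [inv_mul_cancel₀ hk, p1] at h
    exact h
  have hinj : Function.Injective f := by
    rw [injective_iff_map_eq_zero]
    intro k hk
    by_contra hne
    exact hv0 (hunit k hne v0 hk)
  have hbij : Function.Bijective f := (Nat.bijective_iff_injective_and_card f).mpr ⟨hinj, hcard⟩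
  let e' : K ≃+ V := AddEquiv.ofBijective f hbij
  have he' : ∀ k, e' k = φ k v0 := fun k => rfl
  have hsymm : ∀ k, e'.symm (φ k v0) = k := fun k => by rw [← he', AddEquiv.symm_apply_apply]
  have hsurj : ∀ v, ∃ k, φ k v0 = v := fun v => hbij.2 v
  have hφinj : ∀ k k', (∀ v, φ k v = φ k' v) → k = k' := by
    intro k k' h
    apply hinj
    exact h v0
  refine ⟨e'.symm, ?_, ?_⟩
  · intro k v
    obtain ⟨u, rfl⟩ := hsurj v
    rw [hsymm, ← pm, hsymm]
  · intro g hg
    choose σ hσ using hg
    have hgs : ∀ v, g (g.symm v) = v := fun v => g.apply_symm_apply v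
    have hone : σ 1 = 1 := by
      apply hφinj; intro v
      have := hσ 1 (g.symm v)
      rw [p1, hgs] at this
      rw [← this, p1]
    have hmul : ∀ a b, σ (a * b) = σ a * σ b := by
      intro a b
      apply hφinj; intro v
      have h1 := hσ (a * b) (g.symm v)
      rw [pm, hσ, hσ, hgs] at h1
      rw [← h1, pm]
    have hadd : ∀ a b, σ (a + b) = σ a + σ b := by
      intro a b
      apply hφinj; intro v
      have h1 := hσ (a + b) (g.symm v)
      rw [pa, map_add, hσ, hσ, hgs] at h1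
      rw [← h1, pa]
    have hzero : σ 0 = 0 := by
      have := hadd 0 0
      rw [add_zero] at this
      exact left_eq_add.mp this
    let σr : K →+* K := { toFun := σ, map_one' := hone, map_mul' := hmul, map_zero' := hzero,
                          map_add' := hadd }
    have hσb : Function.Bijective σr := Finite.injective_iff_bijective.mp σr.injective
    refine ⟨e'.symm (g v0), RingEquiv.ofBijective σr hσb, ?_⟩
    intro v
    obtain ⟨u, rfl⟩ := hsurj v
    rw [hsymm, hσ]
    change e'.symm (φ (σ u) (g v0)) = e'.symm (g v0) * σ u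
    obtain ⟨w, hw⟩ := hsurj (g v0)
    rw [← hw, ← pm, hsymm, hsymm, mul_comm]

end Semilin

section Ann
variable {F : Type*} [Field F] {V : Type*} [AddCommGroup V] [Module F V] [Finite V]

/-- a commutative subalgebra invariant under a group transitive on nonzero vectors is a field. -/
theorem ann_zero {G : Type*} [Group G] (ρ : G →* (V ≃ₗ[F] V))
    (htrans : ∀ v w : V, v ≠ 0 → w ≠ 0 → ∃ g : G, ρ g v = w)
    (A : Set (Module.End F V)) (hcomm : ∀ a ∈ A, ∀ b ∈ A, a * b = b * a)
    (hinv : ∀ g : G, ∀ a ∈ A, ∃ b ∈ A, ∀ v, ρ g (a v) = b (ρ g v)) :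
    ∀ a ∈ A, a ≠ 0 → ∀ v : V, a v = 0 → v = 0 := by
  classical
  have : Finite (Module.End F V) := Finite.of_injective (fun f : Module.End F V => (f : V → V))
    DFunLike.coe_injective
  let I : V → Set (Module.End F V) := fun v => {a | a ∈ A ∧ a v = 0}
  have hfin : ∀ v, (I v).Finite := fun v => Set.toFinite _
  -- conjugation
  have hcard1 : ∀ (g : G) (v : V), (I v).ncard ≤ (I (ρ g v)).ncard := by
    intro g v
    have hc : ∀ a : Module.End F V, ∃ b : Module.End F V, a ∈ A → (b ∈ A ∧ ∀ v, ρ g (a v) = b (ρ g v)) := by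
      intro a
      by_cases ha : a ∈ A
      · obtain ⟨b, hb, h⟩ := hinv g a ha
        exact ⟨b, fun _ => ⟨hb, h⟩⟩
      · exact ⟨a, fun h => absurd h ha⟩
    choose c hc using hc
    apply Set.ncard_le_ncard_of_injOn c
    · intro a ha
      refine ⟨(hc a ha.1).1, ?_⟩
      rw [← (hc a ha.1).2, ha.2, map_zero]
    · intro a ha b hb hab
      ext v
      apply (ρ g).injective
      rw [(hc a ha.1).2, (hc b hb.1).2, hab]
  have hcard : ∀ v w : V, v ≠ 0 → w ≠ 0 → (I v).ncard = (I w).ncard := by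
    intro v w hv hw
    obtain ⟨g, hg⟩ := htrans v w hv hw
    obtain ⟨h, hh⟩ := htrans w v hw hv
    apply le_antisymm
    · rw [← hg]; exact hcard1 g v
    · rw [← hh]; exact hcard1 h w
  have hsub : ∀ v w : V, v ≠ 0 → w ≠ 0 → I v ⊆ I w → I v = I w := by
    intro v w hv hw h
    exact Set.eq_of_subset_of_ncard_le h (hcard w v hw hv).le (hfin _)
  have h1 : ∀ v : V, v ≠ 0 → ∀ a ∈ A, a v ≠ 0 → I v = I (a v) := by
    intro v hv a ha hav
    apply hsub v _ hv hav
    intro b hb
    refine ⟨hb.1, ?_⟩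
    rw [← Module.End.mul_apply, hcomm b hb.1 a ha, Module.End.mul_apply, hb.2, map_zero]
  have h2 : ∀ v w : V, v ≠ 0 → w ≠ 0 → v + w ≠ 0 → I v ≠ I w → I (v + w) = I w := by
    intro v w hv hw hvw hne
    have hex : ∃ b, b ∈ I v ∧ b ∉ I w := by
      by_contra hcon
      push Not at hcon
      exact hne (hsub v w hv hw hcon)
    obtain ⟨b, hb, hbw⟩ := hex
    have hbw' : b w ≠ 0 := fun h => hbw ⟨hb.1, h⟩
    have h3 : b (v + w) = b w := by rw [map_add, hb.2, zero_add]
    rw [h1 (v + w) hvw b hb.1 (by rw [h3]; exact hbw'), h3, ← h1 w hw b hb.1 hbw']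
  have h3 : ∀ v w : V, v ≠ 0 → w ≠ 0 → I v = I w := by
    intro v w hv hw
    by_cases hvw : v + w = 0
    · have hw' : w = -v := by rw [← add_eq_zero_iff_neg_eq.mp hvw]
      apply hsub v w hv hw
      intro a ha
      refine ⟨ha.1, ?_⟩
      rw [hw', map_neg, ha.2, neg_zero]
    · by_contra hne
      have h4 := h2 v w hv hw hvw hne
      have h5 := h2 w v hw hv (by rwa [add_comm]) (Ne.symm hne)
      rw [add_comm, h4] at h5
      exact hne h5.symm
  intro a ha ha0 v hv
  by_contra hv0
  apply ha0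
  ext w
  rw [LinearMap.zero_apply]
  by_cases hw : w = 0
  · rw [hw, map_zero]
  · have h6 : a ∈ I v := ⟨ha, hv⟩
    rw [h3 v w hv0 hw] at h6
    exact h6.2

end Ann

section Adj
variable {F : Type*} [Field F] {V : Type*} [AddCommGroup V] [Module F V]
  {G : Type*} [Group G]

/-- the subalgebra generated by the image of a subgroup -/
def adj (ρ : G →* (V ≃ₗ[F] V)) (N : Subgroup G) : Subalgebra F (Module.End F V) :=
  Algebra.adjoin F {a | ∃ n ∈ N, a = (ρ n : V →ₗ[F] V)}

theorem mem_adj (ρ : G →* (V ≃ₗ[F] V)) (N : Subgroup G) {n : G} (hn : n ∈ N) :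
    (ρ n : V →ₗ[F] V) ∈ adj ρ N := Algebra.subset_adjoin ⟨n, hn, rfl⟩

theorem adj_commutes (ρ : G →* (V ≃ₗ[F] V)) (N : Subgroup G) (b : Module.End F V)
    (hb : ∀ n ∈ N, ∀ v, b (ρ n v) = ρ n (b v)) : ∀ a ∈ adj ρ N, b * a = a * b := by
  intro a ha
  induction ha using Algebra.adjoin_induction with
  | mem a ha =>
    obtain ⟨n, hn, rfl⟩ := ha
    ext v
    exact hb n hn v
  | algebraMap r => exact (Algebra.commutes r b).symm
  | add x y _ _ hx hy => rw [mul_add, add_mul, hx, hy]
  | mul x y _ _ hx hy => rw [← mul_assoc, hx, mul_assoc, hy, mul_assoc]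

theorem adj_comm (ρ : G →* (V ≃ₗ[F] V)) (N : Subgroup G)
    (hN : ∀ m ∈ N, ∀ n ∈ N, m * n = n * m) : ∀ a ∈ adj ρ N, ∀ b ∈ adj ρ N, a * b = b * a := by
  intro a ha b hb
  apply adj_commutes ρ N a _ b hb
  intro n hn v
  have h := adj_commutes ρ N (ρ n : V →ₗ[F] V) (by
    intro m hm w
    have h1 : ρ (n * m) w = ρ (m * n) w := by rw [hN n hn m hm]
    rw [map_mul, map_mul] at h1
    exact h1) a ha
  have := LinearMap.congr_fun h v
  exact this.symm

theorem adj_inv (ρ : G →* (V ≃ₗ[F] V)) (N : Subgroup G) (g : G)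
    (hg : ∀ n ∈ N, g * n * g⁻¹ ∈ N) : ∀ a ∈ adj ρ N, ∃ b ∈ adj ρ N, ∀ v, ρ g (a v) = b (ρ g v) := by
  intro a ha
  induction ha using Algebra.adjoin_induction with
  | mem a ha =>
    obtain ⟨n, hn, rfl⟩ := ha
    refine ⟨_, mem_adj ρ N (hg n hn), ?_⟩
    intro v
    have h1 : ρ (g * n) v = ρ (g * n * g⁻¹ * g) v := by congr 2; group
    rw [map_mul, map_mul] at h1
    exact h1
  | algebraMap r =>
    refine ⟨algebraMap _ _ r, Subalgebra.algebraMap_mem _ r, ?_⟩
    intro v
    rw [Module.algebraMap_end_apply, Module.algebraMap_end_apply, map_smul]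
  | add x y _ _ hx hy =>
    obtain ⟨b, hb, h1⟩ := hx
    obtain ⟨c, hc, h2⟩ := hy
    exact ⟨b + c, add_mem hb hc, fun v => by
      rw [LinearMap.add_apply, map_add, h1, h2, LinearMap.add_apply]⟩
  | mul x y _ _ hx hy =>
    obtain ⟨b, hb, h1⟩ := hx
    obtain ⟨c, hc, h2⟩ := hy
    exact ⟨b * c, mul_mem hb hc, fun v => by
      rw [Module.End.mul_apply, h1, h2, Module.End.mul_apply]⟩

end Adj

end Cfsg.Agent.H11.Hup
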