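import Mathlib
import Cfsg.Agent.H11.Hup2

set_option autoImplicit false

namespace Cfsg.Agent.H11.Hup

open Module

section Count
variable {q : ℕ} [Fact q.Prime] {U : Type*} [AddCommGroup U] [Module (ZMod q) U] [Finite U]

theorem card_modEq {s : ℕ} (hs : s.Prime) (T : U ≃ₗ[ZMod q] U) (hT : T ^ s = 1)
    (W : Submodule (ZMod q) U) (hW : ∀ w ∈ W, T w ∈ W) :
    Nat.card W ≡ Nat.card ↥(W ⊓ LinearMap.ker ((T : U →ₗ[ZMod q] U) - 1)) [MOD s] := by
  classical
  have : Fact s.Prime := ⟨hs⟩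
  have hP : IsPGroup s (Subgroup.zpowers T) := by
    intro ⟨g, hg⟩
    refine ⟨1, ?_⟩
    obtain ⟨k, rfl⟩ := Subgroup.mem_zpowers_iff.mp hg
    apply Subtype.ext
    change (T ^ k) ^ (s ^ 1) = 1
    rw [pow_one, ← zpow_natCast, ← zpow_mul, mul_comm, zpow_mul, zpow_natCast, hT, one_zpow]
  have hWk : ∀ g ∈ Subgroup.zpowers T, ∀ w ∈ W, g w ∈ W := by
    intro g hg
    have hfin : IsOfFinOrder T := isOfFinOrder_iff_pow_eq_one.mpr ⟨s, hs.pos, hT⟩
    rw [hfin.mem_zpowers_iff_mem_range_orderOf] at hg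
    simp only [Finset.mem_image, Finset.mem_range] at hg
    obtain ⟨k, _, rfl⟩ := hg
    clear * - hW
    induction k with
    | zero => intro w hw; rw [pow_zero]; exact hw
    | succ k ih => intro w hw; rw [pow_succ]; exact ih _ (hW w hw)
  letI act : MulAction (Subgroup.zpowers T) W :=
    { smul := fun g w => ⟨(g : U ≃ₗ[ZMod q] U) w, hWk g g.2 w w.2⟩
      one_smul := fun w => Subtype.ext rfl
      mul_smul := fun a b w => Subtype.ext rfl }
  have h := hP.card_modEq_card_fixedPoints W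
  suffices hcc : Nat.card (MulAction.fixedPoints (Subgroup.zpowers T) W)
      = Nat.card ↥(W ⊓ LinearMap.ker ((T : U →ₗ[ZMod q] U) - 1)) by
    rw [hcc] at h; exact h
  apply Nat.card_congr
  refine ⟨fun w => ⟨(w : W), ⟨(w : W).2, ?_⟩⟩, fun w => ⟨⟨w, w.2.1⟩, ?_⟩, ?_, ?_⟩
  · have h1 := w.2 ⟨T, Subgroup.mem_zpowers T⟩
    have h2 := congrArg Subtype.val h1
    change T ((w : W) : U) = ((w : W) : U) at h2
    exact sub_eq_zero.mpr h2
  · rintro ⟨g, hg⟩
    apply Subtype.ext
    change g (w : U) = w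
    have hTw : T (w : U) = w := by
      have : ((T : U →ₗ[ZMod q] U) - 1) (w : U) = 0 := w.2.2
      rw [LinearMap.sub_apply] at this
      exact sub_eq_zero.mp this
    have hfin : IsOfFinOrder T := isOfFinOrder_iff_pow_eq_one.mpr ⟨s, hs.pos, hT⟩
    rw [hfin.mem_zpowers_iff_mem_range_orderOf] at hg
    simp only [Finset.mem_image, Finset.mem_range] at hg
    obtain ⟨k, _, rfl⟩ := hg
    clear * - hTw
    induction k with
    | zero => rfl
    | succ k ih => rw [pow_succ]; change (T ^ k) (T (w : U)) = w; rw [hTw]; exact ih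
  · intro w; rfl
  · intro w; rfl

/-- the primitivity hypothesis -/
structure Prim (q n s : ℕ) : Prop where
  ps : s.Prime
  dvd : s ∣ q ^ n - 1
  prim : ∀ k : ℕ, 0 < k → k < n → ¬ s ∣ q ^ k - 1

theorem Prim.not_dvd {q n s : ℕ} (h : Prim q n s) (hq : 1 < q) (hn : n ≠ 0) : ¬ s ∣ q := by
  intro hd
  have h1 : s ∣ q ^ n := dvd_pow hd hn
  have h2 : 1 ≤ q ^ n := Nat.one_le_pow _ _ (by omega)
  have h3 : s ∣ 1 := by
    have := (Nat.dvd_sub h1 h.dvd)
    rwa [Nat.sub_sub_self h2] at this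
  exact h.ps.one_lt.ne' (Nat.dvd_one.mp h3)

theorem Prim.le {q n s : ℕ} (h : Prim q n s) (hq : 1 < q) (hn : n ≠ 0) : n + 1 ≤ s := by
  have : Fact s.Prime := ⟨h.ps⟩
  have hnd := h.not_dvd hq hn
  have h1 : s ∣ q ^ (s - 1) - 1 := by
    have h2 : (q : ZMod s) ^ (s - 1) = 1 := by
      apply ZMod.pow_card_sub_one_eq_one
      rwa [Ne, ZMod.natCast_eq_zero_iff]
    have h3 : ((q ^ (s - 1) - 1 : ℕ) : ZMod s) = 0 := by
      rw [Nat.cast_sub (Nat.one_le_pow _ _ (by omega))]
      push_cast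
      rw [h2, sub_self]
    rwa [ZMod.natCast_eq_zero_iff] at h3
  by_contra hcon
  have hs2 := h.ps.two_le
  exact h.prim (s - 1) (by omega) (by omega) h1

theorem Prim.cong {q n s : ℕ} (h : Prim q n s) (hq : 1 < q) (hn : n ≠ 0) {a b : ℕ} (hba : b ≤ a)
    (hab : a - b < n) (hc : q ^ a ≡ q ^ b [MOD s]) : a = b := by
  by_contra hne
  have h1 : q ^ a - q ^ b = q ^ b * (q ^ (a - b) - 1) := by
    rw [Nat.mul_sub, ← pow_add, mul_one, Nat.add_sub_of_le hba]
  have h2 : s ∣ q ^ a - q ^ b := (Nat.modEq_iff_dvd' (Nat.pow_le_pow_right (by omega) hba)).mp hc.symm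
  rw [h1] at h2
  rcases h.ps.dvd_mul.mp h2 with h3 | h3
  · exact h.not_dvd hq hn (h.ps.dvd_of_dvd_pow h3)
  · exact h.prim (a - b) (by omega) hab h3

theorem card_pow (W : Submodule (ZMod q) U) : Nat.card W = q ^ (finrank (ZMod q) W) := by
  have : Module.Finite (ZMod q) U := Module.Finite.of_finite
  have := Module.natCard_eq_pow_finrank (K := ZMod q) (V := W)
  rw [this, Nat.card_zmod]

theorem fix_all_of_lt {n s : ℕ} (h : Prim q n s) (hn : n ≠ 0) (T : U ≃ₗ[ZMod q] U) (hT : T ^ s = 1)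
    (W : Submodule (ZMod q) U) (hW : ∀ w ∈ W, T w ∈ W)
    (hlt : finrank (ZMod q) W - finrank (ZMod q) ↥(W ⊓ LinearMap.ker ((T : U →ₗ[ZMod q] U) - 1)) < n) :
    ∀ w ∈ W, T w = w := by
  have : Module.Finite (ZMod q) U := Module.Finite.of_finite
  have h1 := card_modEq h.ps T hT W hW
  rw [card_pow, card_pow] at h1
  have hle : W ⊓ LinearMap.ker ((T : U →ₗ[ZMod q] U) - 1) ≤ W := inf_le_left
  have h2 := h.cong (Fact.out : q.Prime).one_lt hn (Submodule.finrank_mono hle) hlt h1
  have h3 := Submodule.eq_of_le_of_finrank_eq hle h2.symm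
  intro w hw
  rw [← h3] at hw
  have : ((T : U →ₗ[ZMod q] U) - 1) w = 0 := hw.2
  rw [LinearMap.sub_apply] at this
  exact sub_eq_zero.mp this

end Count

section Prims
variable {q : ℕ} [Fact q.Prime] {V : Type*} [AddCommGroup V] [Module (ZMod q) V] [Finite V]
  [Nontrivial V]

theorem fix_zero {n s : ℕ} (h : Prim q n s) (hn : finrank (ZMod q) V = n) (T : V ≃ₗ[ZMod q] V)
    (hT : T ^ s = 1) (hT1 : T ≠ 1) (v : V) (hv : T v = v) : v = 0 := by
  have : Module.Finite (ZMod q) V := Module.Finite.of_finite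
  have hn0 : n ≠ 0 := by rw [← hn]; exact Module.finrank_pos.ne'
  by_contra hv0
  apply hT1
  have h1 := fix_all_of_lt h hn0 T hT ⊤ (fun w _ => Submodule.mem_top) (by
    rw [finrank_top, hn]
    have : 0 < finrank (ZMod q) ↥(⊤ ⊓ LinearMap.ker ((T : V →ₗ[ZMod q] V) - 1)) := by
      rw [Module.finrank_pos_iff_exists_ne_zero]
      refine ⟨⟨v, Submodule.mem_top, ?_⟩, fun h => hv0 (congrArg Subtype.val h)⟩
      change ((T : V →ₗ[ZMod q] V) - 1) v = 0
      rw [LinearMap.sub_apply]
      exact sub_eq_zero.mpr hv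
    omega)
  ext w
  exact h1 w Submodule.mem_top

theorem irred {n s : ℕ} (h : Prim q n s) (hn : finrank (ZMod q) V = n) (T : V ≃ₗ[ZMod q] V)
    (hT : T ^ s = 1) (hT1 : T ≠ 1) (W : Submodule (ZMod q) V) (hW : ∀ w ∈ W, T w ∈ W)
    (hW0 : W ≠ ⊥) : W = ⊤ := by
  have : Module.Finite (ZMod q) V := Module.Finite.of_finite
  have hn0 : n ≠ 0 := by rw [← hn]; exact Module.finrank_pos.ne'
  by_contra hne
  have hlt : finrank (ZMod q) W < n := by rw [← hn]; exact Submodule.finrank_lt hne
  have h1 := fix_all_of_lt h hn0 T hT W hW (by omega)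
  apply hW0
  rw [Submodule.eq_bot_iff]
  intro w hw
  exact fix_zero h hn T hT hT1 w (h1 w hw)

theorem inj_of_comm {n s : ℕ} (h : Prim q n s) (hn : finrank (ZMod q) V = n) (T : V ≃ₗ[ZMod q] V)
    (hT : T ^ s = 1) (hT1 : T ≠ 1) (a : Module.End (ZMod q) V) (ha : ∀ v, T (a v) = a (T v))
    (ha0 : a ≠ 0) (v : V) (hv : a v = 0) : v = 0 := by
  by_contra hv0
  have h1 := irred h hn T hT hT1 (LinearMap.ker a) (by
    intro w hw
    rw [LinearMap.mem_ker] at hw ⊢
    rw [← ha, hw, map_zero]) (by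
    intro hb
    apply hv0
    have : v ∈ LinearMap.ker a := hv
    rw [hb] at this
    exact this)
  exact ha0 (LinearMap.ker_eq_top.mp h1)

/-- elements commuting with a primitive element commute. -/
theorem comm_of_comm {n s : ℕ} (h : Prim q n s) (hn : finrank (ZMod q) V = n) (T : V ≃ₗ[ZMod q] V)
    (hT : T ^ s = 1) (hT1 : T ≠ 1) (a b : Module.End (ZMod q) V) (ha : ∀ v, T (a v) = a (T v))
    (hb : ∀ v, T (b v) = b (T v)) : a * b = b * a := by
  classical
  have : Finite (Module.End (ZMod q) V) := Module.finite_of_finite (ZMod q)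
  let D := Subalgebra.centralizer (ZMod q) ({(T : V →ₗ[ZMod q] V)} : Set (Module.End (ZMod q) V))
  have hmem : ∀ c : Module.End (ZMod q) V, c ∈ D ↔ ∀ v, T (c v) = c (T v) := by
    intro c
    rw [Subalgebra.mem_centralizer_iff]
    constructor
    · intro h v
      exact LinearMap.congr_fun (h _ rfl) v
    · rintro h g hg
      rw [Set.mem_singleton_iff] at hg
      subst hg
      ext v
      exact h v
  have hnz : NoZeroDivisors D := by
    constructor
    intro a b hab
    by_contra hcon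
    push Not at hcon
    apply hcon.2
    apply Subtype.ext
    ext v
    have h2 : (a : Module.End (ZMod q) V) ((b : Module.End (ZMod q) V) v) = 0 := by
      have := congrArg (fun c : D => (c : Module.End (ZMod q) V) v) hab
      exact this
    exact inj_of_comm h hn T hT hT1 a ((hmem _).mp a.2) (fun h' => hcon.1 (Subtype.ext h')) _ h2
  have hdom : IsDomain D := NoZeroDivisors.to_isDomain D
  have hf : IsField D := Finite.isDomain_to_isField D
  have := hf.mul_comm ⟨a, (hmem a).mpr ha⟩ ⟨b, (hmem b).mpr hb⟩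
  exact congrArg Subtype.val this

end Prims

section Sep
variable {F : Type*} [Field F] {V : Type*} [AddCommGroup V] [Module F V] [Finite V]

theorem exists_sep (A : Subalgebra F (Module.End F V))
    (hcomm : ∀ a ∈ A, ∀ b ∈ A, a * b = b * a) (Q : ℕ) (hQ : 2 ≤ Q) (hpow : ∀ a ∈ A, a ^ Q = a) :
    ∃ v : V, ∀ a ∈ A, a v = 0 → a = 0 := by
  classical
  have : Finite (Module.End F V) := Finite.of_injective (fun f : Module.End F V => (f : V → V))
    DFunLike.coe_injective
  obtain ⟨v, -, hv⟩ := Set.Finite.exists_minimalFor (fun v : V => {a : Module.End F V | a ∈ A ∧ a v = 0}) Set.univ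
    Set.finite_univ ⟨0, trivial⟩
  refine ⟨v, ?_⟩
  intro a ha hav
  by_contra ha0
  obtain ⟨w, hw⟩ : ∃ w, a w ≠ 0 := by
    by_contra hcon
    push Not at hcon
    exact ha0 (LinearMap.ext hcon)
  obtain ⟨k, rfl⟩ : ∃ k, Q = k + 2 := ⟨Q - 2, by omega⟩
  let e := a ^ (k + 1)
  have heA : e ∈ A := pow_mem ha _
  have hea : a * e = a := by
    change a * a ^ (k + 1) = a
    rw [← pow_succ']
    exact hpow a ha
  have hee : e * e = e := by
    change a ^ (k + 1) * e = e
    rw [pow_succ, mul_assoc, hea]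
    rw [← pow_succ]
  have hev : e v = 0 := by
    change (a ^ (k + 1)) v = 0
    rw [pow_succ, Module.End.mul_apply, hav, map_zero]
  have hew : e w ≠ 0 := by
    intro h
    apply hw
    rw [← hea, Module.End.mul_apply, h, map_zero]
  have hle : {b : Module.End F V | b ∈ A ∧ b (v + e w) = 0} ≤ {b | b ∈ A ∧ b v = 0} := by
    rintro b ⟨hbA, hb⟩
    refine ⟨hbA, ?_⟩
    have h1 : b v = b (v + e w) - e (b (v + e w)) := by
      rw [map_add, map_add, ← Module.End.mul_apply e b, hcomm e heA b hbA, Module.End.mul_apply, hev,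
        map_zero, zero_add, ← Module.End.mul_apply e b, hcomm e heA b hbA, Module.End.mul_apply,
        ← Module.End.mul_apply e e, hee, add_sub_cancel_right]
    rw [h1, hb, map_zero, sub_zero]
  have h2 := hv (Set.mem_univ (v + e w)) hle
  have h3 := h2 ⟨heA, hev⟩
  have h4 := h3.2
  rw [map_add, hev, zero_add, ← Module.End.mul_apply, hee] at h4
  exact hew h4

end Sep

section R2
variable {q : ℕ} [Fact q.Prime] {V : Type*} [AddCommGroup V] [Module (ZMod q) V] [Finite V]
  [Nontrivial V] {G : Type*} [Group G] [Finite G]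

theorem adj_pow (ρ : G →* (V ≃ₗ[ZMod q] V)) (B : Subgroup G)
    (hB : ∀ m ∈ B, ∀ n ∈ B, m * n = n * m) (hco : (Nat.card B).Coprime q) :
    ∃ Q : ℕ, 2 ≤ Q ∧ ∀ a ∈ adj ρ B, a ^ Q = a := by
  classical
  have hq1 : 1 < q := (Fact.out : q.Prime).one_lt
  have hB0 : 0 < Nat.card B := Nat.card_pos
  let m := Nat.totient (Nat.card B)
  have hm0 : 0 < m := Nat.totient_pos.mpr hB0
  have hE : q ^ m ≡ 1 [MOD Nat.card B] := Nat.ModEq.pow_totient hco.symm
  have : Fact q.Prime := inferInstance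
  have hchar : CharP (Module.End (ZMod q) V) q := charP_of_injective_algebraMap
      (FaithfulSMul.algebraMap_injective (ZMod q) (Module.End (ZMod q) V)) q
  refine ⟨q ^ m, ?_, ?_⟩
  · calc 2 ≤ q := hq1
      _ = q ^ 1 := (pow_one q).symm
      _ ≤ q ^ m := Nat.pow_le_pow_right (by omega) hm0
  · intro a ha
    have hcm := adj_comm ρ B hB
    induction ha using Algebra.adjoin_induction with
    | mem a ha =>
      obtain ⟨b, hb, rfl⟩ := ha
      have h1 : b ^ (q ^ m) = b := by
        have h2 : b ^ Nat.card B = 1 := by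
          have := pow_card_eq_one' (x := (⟨b, hb⟩ : B))
          exact congrArg Subtype.val this
        have h3 : Nat.card B ∣ q ^ m - 1 := (Nat.modEq_iff_dvd' (Nat.one_le_pow _ _ (by omega))).mp hE.symm
        obtain ⟨c, hc⟩ := h3
        have h4 : q ^ m = Nat.card B * c + 1 := by
          have := Nat.one_le_pow m q (by omega)
          omega
        rw [h4, pow_succ, pow_mul, h2, one_pow, one_mul]
      have h5 : ∀ (g : G) (j : ℕ), (ρ g : V →ₗ[ZMod q] V) ^ j = (ρ (g ^ j) : V →ₗ[ZMod q] V) := by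
        intro g j
        induction j with
        | zero => rw [pow_zero, pow_zero, map_one]; rfl
        | succ j ih => rw [pow_succ, ih, pow_succ, map_mul]; rfl
      rw [h5, h1]
    | algebraMap r => rw [← map_pow, ZMod.pow_card_pow]
    | add x y hx hy ihx ihy =>
      rw [add_pow_char_pow_of_commute q m (show Commute x y from hcm x hx y hy), ihx, ihy]
    | mul x y hx hy ihx ihy =>
      rw [(show Commute x y from hcm x hx y hy).mul_pow, ihx, ihy]

/-- abelian subgroups normalised by a primitive element are centralised. -/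
theorem abelian_centralized (ρ : G →* (V ≃ₗ[ZMod q] V)) (hρ : Function.Injective ρ)
    {n s : ℕ} (h : Prim q n s) (hn : finrank (ZMod q) V = n) (x : G) (hx : x ^ s = 1)
    (B : Subgroup G) (hB : ∀ m ∈ B, ∀ n ∈ B, m * n = n * m) (hco : (Nat.card B).Coprime q)
    (hnorm : ∀ b ∈ B, x * b * x⁻¹ ∈ B) : ∀ b ∈ B, x * b = b * x := by
  classical
  have : Module.Finite (ZMod q) V := Module.Finite.of_finite
  have hfE : Finite (Module.End (ZMod q) V) := Module.finite_of_finite (ZMod q)
  have hn0 : n ≠ 0 := by rw [← hn]; exact Module.finrank_pos.ne'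
  obtain ⟨Q, hQ, hpow⟩ := adj_pow ρ B hB hco
  obtain ⟨v, hv⟩ := exists_sep (adj ρ B) (adj_comm ρ B hB) Q hQ hpow
  let A := adj ρ B
  let W : Submodule (ZMod q) (Module.End (ZMod q) V) := Subalgebra.toSubmodule A
  have hWle : finrank (ZMod q) W ≤ n := by
    rw [← hn]
    let f : W →ₗ[ZMod q] V := (LinearMap.applyₗ v).comp W.subtype
    apply LinearMap.finrank_le_finrank_of_injective (f := f)
    rw [injective_iff_map_eq_zero]
    intro a ha
    apply Subtype.ext
    exact hv a a.2 ha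
  let T := ρ x
  let T' : Module.End (ZMod q) V ≃ₗ[ZMod q] Module.End (ZMod q) V := LinearEquiv.conj T
  have hT'app : ∀ (a : Module.End (ZMod q) V) w, (T' a) (T w) = T (a w) := by
    intro a w
    change T (a (T.symm (T w))) = T (a w)
    rw [LinearEquiv.symm_apply_apply]
  have hT' : T' ^ s = 1 := by
    have h1 : ∀ (j : ℕ) (a : Module.End (ZMod q) V) (w : V), ((T' ^ j) a) ((T ^ j) w) = (T ^ j) (a w) := by
      intro j
      induction j with
      | zero => intro a w; rfl
      | succ j ih =>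
        intro a w
        rw [pow_succ' T', pow_succ' T]
        change (T' ((T' ^ j) a)) (T ((T ^ j) w)) = T ((T ^ j) (a w))
        rw [hT'app, ih]
    have h2 : T ^ s = 1 := by
      change (ρ x) ^ s = 1
      rw [← map_pow, hx, map_one]
    ext a w
    have := h1 s a w
    rw [h2] at this
    exact this
  have hinvW : ∀ a ∈ W, T' a ∈ W := by
    intro a ha
    obtain ⟨b, hb, hab⟩ := adj_inv ρ B x hnorm a ha
    have : T' a = b := by
      ext w
      have := hab (T.symm w)
      change T (a (T.symm w)) = b (T (T.symm w)) at this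
      rw [LinearEquiv.apply_symm_apply] at this
      exact this
    rw [this]; exact hb
  have hfix : 0 < finrank (ZMod q) ↥(W ⊓ LinearMap.ker
      ((T' : Module.End (ZMod q) V →ₗ[ZMod q] Module.End (ZMod q) V) - 1)) := by
    rw [Module.finrank_pos_iff_exists_ne_zero]
    refine ⟨⟨1, ⟨one_mem A, ?_⟩⟩, fun h => one_ne_zero (congrArg Subtype.val h)⟩
    change ((T' : Module.End (ZMod q) V →ₗ[ZMod q] Module.End (ZMod q) V) - 1) 1 = 0
    rw [LinearMap.sub_apply]
    apply sub_eq_zero.mpr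
    ext w
    change T ((1 : Module.End (ZMod q) V) (T.symm w)) = w
    simp
  have hall := fix_all_of_lt h hn0 T' hT' W hinvW (by omega)
  intro b hb
  apply hρ
  ext w
  have h1 := hall (ρ b : V →ₗ[ZMod q] V) (mem_adj ρ B hb)
  have h2 := hT'app (ρ b : V →ₗ[ZMod q] V) w
  rw [h1] at h2
  rw [map_mul, map_mul]
  exact h2.symm

end R2

end Cfsg.Agent.H11.Hup
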