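import Mathlib
import Cfsg.Agent.H11.Hup3

set_option autoImplicit false

namespace Cfsg.Agent.H11.Hup

open Module
open scoped commutatorElement

section Ext
variable {K : Type*} [Field K] {V : Type*} [AddCommGroup V] [Module K V] [Module.Finite K V]
  [Nontrivial V]

theorem ext1 {E : Type*} [Group E] [Finite E] (r : E →* Module.End K V)
    (hc : ∀ a b, ∃ c : K, r a * r b = c • (r b * r a)) (Z : Subgroup E)
    (hZ : ∀ z, z ∈ Z ↔ ∀ e, r z * r e = r e * r z) :
    ∃ m : ℕ, Z.index = m ^ 2 ∧ m ≤ finrank K V ∧
      (m = finrank K V → ∀ α : Module.End K V, (∀ e, α * r e = r e * α) → ∃ c : K, α = c • 1) := by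
  classical
  have hne : ∀ a, r a ≠ 0 := by
    intro a h0
    have : r a * r a⁻¹ = 1 := by rw [← map_mul, mul_inv_cancel, map_one]
    rw [h0, zero_mul] at this
    exact zero_ne_one this
  have hne2 : ∀ a b, r a * r b ≠ 0 := fun a b => by rw [← map_mul]; exact hne _
  choose c0 hc0 using hc
  have hc0ne : ∀ a b, c0 a b ≠ 0 := by
    intro a b h
    have := hc0 a b
    rw [h, zero_smul] at this
    exact hne2 a b this
  have huniq : ∀ a b (k k' : K), k • (r b * r a) = k' • (r b * r a) → k = k' := by
    intro a b k k' h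
    exact smul_left_injective K (hne2 b a) h
  have hmul1 : ∀ a a' b, c0 (a * a') b = c0 a b * c0 a' b := by
    intro a a' b
    apply huniq (a * a') b
    rw [← hc0, map_mul, mul_assoc, hc0 a' b, Algebra.mul_smul_comm, ← mul_assoc, hc0 a b,
      Algebra.smul_mul_assoc, smul_smul, mul_assoc, mul_comm (c0 a' b)]
  have hmul2 : ∀ a b b', c0 a (b * b') = c0 a b * c0 a b' := by
    intro a b b'
    apply huniq a (b * b')
    rw [← hc0, map_mul, ← mul_assoc, hc0 a b, Algebra.smul_mul_assoc, mul_assoc, hc0 a b',
      Algebra.mul_smul_comm, smul_smul, mul_assoc]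
  have hself : ∀ a, c0 a a = 1 := by
    intro a
    apply huniq a a
    rw [← hc0, one_smul]
  have hskew : ∀ a b, c0 a b * c0 b a = 1 := by
    intro a b
    apply huniq b a
    rw [one_smul]
    conv_rhs => rw [hc0 a b, hc0 b a]
    rw [smul_smul]
  have hone2 : ∀ a, c0 a 1 = 1 := by
    intro a
    apply huniq a 1
    rw [← hc0, map_one, one_smul, mul_one, one_mul]
  have hone1 : ∀ a, c0 1 a = 1 := by
    intro a
    apply huniq 1 a
    rw [← hc0, map_one, one_smul, mul_one, one_mul]
  let c : E →* (E →* Kˣ) :=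
    { toFun := fun a =>
        { toFun := fun b => Units.mk0 (c0 a b) (hc0ne a b)
          map_one' := Units.ext (hone2 a)
          map_mul' := fun b b' => Units.ext (hmul2 a b b') }
      map_one' := by ext b; exact hone1 b
      map_mul' := fun a a' => by ext b; exact hmul1 a a' b }
  have hcv : ∀ a b, ((c a b : Kˣ) : K) = c0 a b := fun a b => rfl
  have hker : c.ker = Z := by
    ext z
    rw [MonoidHom.mem_ker, hZ]
    constructor
    · intro h e
      have h1 : c0 z e = 1 := by rw [← hcv, h]; rfl
      rw [hc0 z e, h1, one_smul]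
    · intro h
      ext e
      rw [hcv]
      apply huniq z e
      rw [← hc0, h e]
      simp
  obtain ⟨m, hm⟩ := sq_index c (by
    intro a b
    rw [eq_inv_iff_mul_eq_one]
    exact Units.ext (hskew a b)) (fun a => Units.ext (hself a))
  rw [hker] at hm
  have hfinq : Finite (E ⧸ Z) := inferInstance
  have : Fintype (E ⧸ Z) := Fintype.ofFinite _
  have hli : LinearIndependent K (fun i : E ⧸ Z => r (Quotient.out i)) := by
    apply indep r (fun i : E ⧸ Z => Quotient.out i) (fun i => (c (Quotient.out i))⁻¹)
    · intro i j hij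
      have h1 : c (Quotient.out i) = c (Quotient.out j) := inv_injective hij
      have h2' : (Quotient.out i)⁻¹ * (Quotient.out j) ∈ c.ker := by
        rw [MonoidHom.mem_ker, map_mul, map_inv, h1, inv_mul_cancel]
      have h2 := hker.le h2'
      have h3 := QuotientGroup.eq.mpr h2
      rwa [QuotientGroup.out_eq', QuotientGroup.out_eq'] at h3
    · intro i f
      rw [MonoidHom.inv_apply, Units.val_inv_eq_inv_val, hcv, hc0 (Quotient.out i) f, smul_smul,
        inv_mul_cancel₀ (hc0ne _ _), one_smul]
  have hcard : Fintype.card (E ⧸ Z) = m ^ 2 := by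
    rw [← hm, Subgroup.index, Nat.card_eq_fintype_card]
  have hfr : finrank K (Module.End K V) = finrank K V * finrank K V := Module.finrank_linearMap K K V V
  have hle := hli.fintype_card_le_finrank
  rw [hcard, hfr, sq] at hle
  refine ⟨m, hm, Nat.mul_self_le_mul_self_iff.mp hle, ?_⟩
  intro hmd α hα
  have hspan : Submodule.span K (Set.range (fun i : E ⧸ Z => r (Quotient.out i))) = ⊤ := by
    apply hli.span_eq_top_of_card_eq_finrank'
    rw [hcard, hfr, sq, hmd]
  have hcen : α ∈ Subalgebra.center K (Module.End K V) := by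
    rw [Subalgebra.mem_center_iff]
    intro b
    have hb : b ∈ Submodule.span K (Set.range (fun i : E ⧸ Z => r (Quotient.out i))) := by
      rw [hspan]; trivial
    induction hb using Submodule.span_induction with
    | mem b hb => obtain ⟨i, rfl⟩ := hb; exact (hα _).symm
    | zero => rw [zero_mul, mul_zero]
    | add x y _ _ hx hy => rw [add_mul, mul_add, hx, hy]
    | smul k x _ hx => rw [Algebra.smul_mul_assoc, Algebra.mul_smul_comm, hx]
  rw [Algebra.IsCentral.center_eq_bot K (Module.End K V), Algebra.mem_bot] at hcen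
  obtain ⟨k, hk⟩ := hcen
  exact ⟨k, by rw [← hk, Algebra.algebraMap_eq_smul_one]⟩

end Ext

section Ext2
variable {q : ℕ} [Fact q.Prime] {V : Type*} [AddCommGroup V] [Module (ZMod q) V] [Finite V]
  [Nontrivial V] {G : Type*} [Group G] [Finite G]

theorem card_pow_gf {l : ℕ} (hl : l ≠ 0) (φ : GaloisField q l →+* Module.End (ZMod q) V) :
    ∃ d, finrank (ZMod q) V = l * d := by
  letI : Module (GaloisField q l) V := Module.compHom V φ
  have : Module.Finite (ZMod q) V := Module.Finite.of_finite
  have : Module.Finite (GaloisField q l) V := Module.Finite.of_finite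
  refine ⟨finrank (GaloisField q l) V, ?_⟩
  have h1 := Module.natCard_eq_pow_finrank (K := ZMod q) (V := V)
  have h2 := Module.natCard_eq_pow_finrank (K := GaloisField q l) (V := V)
  rw [Nat.card_zmod] at h1
  rw [GaloisField.card q l hl, ← pow_mul, h1] at h2
  exact Nat.pow_right_injective (Fact.out : q.Prime).two_le h2

theorem ext2 (ρ : G →* (V ≃ₗ[ZMod q] V)) (hρ : Function.Injective ρ) (R : Subgroup G) {l : ℕ}
    (hl : l ≠ 0) (φ : GaloisField q l →+* Module.End (ZMod q) V)
    (hcm : ∀ k, ∀ r ∈ R, ∀ v, ρ r (φ k v) = φ k (ρ r v))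
    (hcm2 : ∀ a ∈ R, ∀ b ∈ R, ∃ k, ∀ v, ρ ⁅a, b⁆ v = φ k v) :
    ∃ m d : ℕ, finrank (ZMod q) V = l * d ∧ (R ⊓ Subgroup.centralizer R).relIndex R = m ^ 2 ∧
      m ≤ d ∧ (m = d → ∀ α : Module.End (ZMod q) V, (∀ k v, α (φ k v) = φ k (α v)) →
        (∀ r ∈ R, ∀ v, α (ρ r v) = ρ r (α v)) → ∃ k, ∀ v, α v = φ k v) := by
  classical
  letI : Module (GaloisField q l) V := Module.compHom V φ
  have hsm : ∀ (k : GaloisField q l) (v : V), k • v = φ k v := fun k v => rfl
  have : Module.Finite (ZMod q) V := Module.Finite.of_finite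
  have : Module.Finite (GaloisField q l) V := Module.Finite.of_finite
  have hn : finrank (ZMod q) V = l * finrank (GaloisField q l) V := by
    have h1 := Module.natCard_eq_pow_finrank (K := ZMod q) (V := V)
    have h2 := Module.natCard_eq_pow_finrank (K := GaloisField q l) (V := V)
    rw [Nat.card_zmod] at h1
    rw [GaloisField.card q l hl, ← pow_mul, h1] at h2
    exact Nat.pow_right_injective (Fact.out : q.Prime).two_le h2
  let r : ↥R →* Module.End (GaloisField q l) V :=
    { toFun := fun x =>
        { toFun := fun v => ρ x v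
          map_add' := fun v w => map_add _ v w
          map_smul' := fun k v => hcm k x x.2 v }
      map_one' := by
        ext v
        change ρ ((1 : R) : G) v = v
        rw [Subgroup.coe_one, map_one]; rfl
      map_mul' := fun x y => by
        ext v
        change ρ ((x * y : R) : G) v = ρ x (ρ y v)
        rw [Subgroup.coe_mul, map_mul]; rfl }
  have hr : ∀ (x : R) v, r x v = ρ x v := fun x v => rfl
  obtain ⟨m, h1, h2, h3⟩ := ext1 r (by
    intro a b
    obtain ⟨k, hk⟩ := hcm2 a a.2 b b.2
    refine ⟨k, ?_⟩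
    ext v
    change ρ a (ρ b v) = φ k (ρ b (ρ a v))
    rw [← hk]
    have : (a : G) * b = ⁅(a : G), (b : G)⁆ * (b * a) := by rw [commutatorElement_def]; group
    have h5 : ρ ((a : G) * b) v = ρ (⁅(a : G), (b : G)⁆ * (b * a)) v := by rw [← this]
    rw [map_mul, map_mul, map_mul] at h5
    exact h5) ((R ⊓ Subgroup.centralizer R).subgroupOf R) (by
    intro z
    rw [Subgroup.mem_subgroupOf]
    constructor
    · intro hz e
      have h4 := (Subgroup.mem_centralizer_iff.mp hz.2) e e.2
      rw [← map_mul, ← map_mul]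
      congr 1
      exact Subtype.ext h4.symm
    · intro h
      refine ⟨z.2, Subgroup.mem_centralizer_iff.mpr ?_⟩
      intro e he
      apply hρ
      rw [map_mul, map_mul]
      ext v
      have := LinearMap.congr_fun (h ⟨e, he⟩) v
      exact this.symm)
  refine ⟨m, finrank (GaloisField q l) V, hn, h1, h2, ?_⟩
  intro hmd α hα1 hα2
  obtain ⟨k, hk⟩ := h3 hmd { toFun := α, map_add' := fun v w => map_add α v w,
                             map_smul' := fun k v => hα1 k v } (by
    intro e
    ext v
    exact hα2 e e.2 v)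
  refine ⟨k, ?_⟩
  intro v
  have := LinearMap.congr_fun hk v
  exact this

end Ext2

end Cfsg.Agent.H11.Hup
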