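import Mathlib
import Cfsg.Agent.H11.Hup4

set_option autoImplicit false

namespace Cfsg.Agent.H11.Hup

open Module
open scoped commutatorElement

theorem dvd_of_free {S X : Type*} [Group S] [MulAction S X] [Finite S] [Finite X]
    (h : ∀ (g : S) (x : X), g • x = x → g = 1) : Nat.card S ∣ Nat.card X := by
  classical
  have e := MulAction.selfEquivSigmaOrbitsQuotientStabilizer S X
  have hfq : Finite (Quotient (MulAction.orbitRel S X)) := inferInstance
  have : Fintype (Quotient (MulAction.orbitRel S X)) := Fintype.ofFinite _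
  rw [Nat.card_congr e, Nat.card_sigma]
  apply Finset.dvd_sum
  intro ω _
  have h1 : MulAction.stabilizer S (Quotient.out ω) = ⊥ := by
    rw [Subgroup.eq_bot_iff_forall]
    intro g hg
    exact h g _ hg
  rw [h1]
  rw [Nat.card_congr (QuotientGroup.quotientBot (G := S)).toEquiv]

theorem num {q n s p m k a : ℕ} (hq : 1 < q) (hn : n ≠ 0) (h : Prim q n s) (hp : p.Prime)
    (ha : a ≠ 0) (hd : s ^ a ∣ m ^ 2 - 1) (h1m : 1 < m) (hmn : m ≤ n) (hmk : m = p ^ k) :
    s = n + 1 ∧ m = n ∧ a = 1 ∧ p = 2 := by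
  have hle := h.le hq hn
  have hs2 := h.ps.two_le
  have hm2 : m ^ 2 - 1 = (m - 1) * (m + 1) := by
    obtain ⟨t, rfl⟩ : ∃ t, m = t + 1 := ⟨m - 1, by omega⟩
    simp only [Nat.add_sub_cancel]
    rw [show (t + 1) ^ 2 = t * (t + 1 + 1) + 1 by ring, Nat.add_sub_cancel]
  have hpos : 0 < m ^ 2 - 1 := by
    rw [hm2]; exact Nat.mul_pos (by omega) (by omega)
  have hsle : s ^ a ≤ m ^ 2 - 1 := Nat.le_of_dvd hpos hd
  have ha1 : a = 1 := by
    by_contra hne
    have h2 : 2 ≤ a := by omega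
    have h3 : s ^ 2 ≤ s ^ a := Nat.pow_le_pow_right (by omega) h2
    have h4 : m ^ 2 ≤ n ^ 2 := Nat.pow_le_pow_left hmn 2
    have h5 : (n + 1) ^ 2 ≤ s ^ 2 := Nat.pow_le_pow_left hle 2
    have h6 : (n + 1) ^ 2 = n ^ 2 + 2 * n + 1 := by ring
    omega
  subst ha1
  rw [pow_one, hm2] at hd
  have hs : s = m + 1 := by
    rcases h.ps.dvd_mul.mp hd with h3 | h3
    · have := Nat.le_of_dvd (by omega) h3
      omega
    · have := Nat.le_of_dvd (by omega) h3
      omega
  refine ⟨by omega, by omega, rfl, ?_⟩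
  by_contra hp2
  have hodd : Odd p := hp.odd_of_ne_two hp2
  have hm : Odd m := by rw [hmk]; exact hodd.pow
  have hse : Even s := by rw [hs]; exact hm.add_one
  have := h.ps.even_iff.mp hse
  omega

section MR
variable {q : ℕ} [Fact q.Prime] {V : Type*} [AddCommGroup V] [Module (ZMod q) V] [Finite V]
  [Nontrivial V] {G : Type*} [Group G] [Finite G]

theorem main_R (hsol : Group.IsSolvable G) (ρ : G →* (V ≃ₗ[ZMod q] V)) (hρ : Function.Injective ρ)
    {n s : ℕ} (h : Prim q n s) (hn : finrank (ZMod q) V = n)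
    (S : Subgroup G) (hSc : ∀ a ∈ S, ∀ b ∈ S, a * b = b * a) {a : ℕ} (hSa : Nat.card S = s ^ a)
    (x : G) (hxS : x ∈ S) (hxs : x ^ s = 1) (hx1 : x ≠ 1) {p : ℕ} (hp : p.Prime) (hpq : p ≠ q)
    (hps : p ≠ s) (P : Subgroup G) (hP : IsPGroup p P)
    (hSP : ∀ y ∈ S, ∀ r ∈ P, y * r * y⁻¹ ∈ P) (hnot : ¬ ∀ r ∈ P, x * r = r * x) :
    s = n + 1 ∧ (∃ k, n = 2 ^ k) ∧ Nat.card S = s ∧ p = 2 := by
  classical
  have : Module.Finite (ZMod q) V := Module.Finite.of_finite
  have hn0 : n ≠ 0 := by rw [← hn]; exact Module.finrank_pos.ne'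
  have hq1 : 1 < q := (Fact.out : q.Prime).one_lt
  have hFp : Fact p.Prime := ⟨hp⟩
  have hFs : Fact s.Prime := ⟨h.ps⟩
  have hfin : ({R : Subgroup G | R ≤ P ∧ (∀ y ∈ S, ∀ r ∈ R, y * r * y⁻¹ ∈ R) ∧
      ¬ R ≤ Subgroup.centralizer {x}}).Finite := Set.toFinite _
  obtain ⟨R, hR⟩ := hfin.exists_minimal ⟨P, le_rfl, hSP, fun hle => hnot (fun r hr => by
    have := Subgroup.mem_centralizer_iff.mp (hle hr) x rfl
    exact this)⟩
  obtain ⟨⟨hRP, hRS, hRx⟩, hmin⟩ := hR
  have hcx : ∀ r : G, r ∈ Subgroup.centralizer ({x} : Set G) ↔ x * r = r * x := by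
    intro r
    rw [Subgroup.mem_centralizer_iff]
    constructor
    · intro h; exact h x rfl
    · rintro h _ rfl; exact h
  -- minimality
  have hmin' : ∀ T : Subgroup G, T ≤ R → T ≠ R → (∀ y ∈ S, ∀ r ∈ T, y * r * y⁻¹ ∈ T) →
      T ≤ Subgroup.centralizer {x} := by
    intro T hTR hne hTS
    by_contra hcon
    exact hne (le_antisymm hTR (hmin ⟨hTR.trans hRP, hTS, hcon⟩ hTR))
  have hRpg : IsPGroup p R := hP.to_le hRP
  have hco : ∀ B : Subgroup G, B ≤ R → (Nat.card B).Coprime q := by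
    intro B hB
    obtain ⟨j, hj⟩ := IsPGroup.iff_card.mp (hRpg.to_le hB)
    rw [hj]
    exact Nat.Coprime.pow_left _ ((Nat.coprime_primes hp Fact.out).mpr hpq)
  have hRnc : ¬ ∀ a ∈ R, ∀ b ∈ R, a * b = b * a := by
    intro hc
    apply hRx
    intro r hr
    rw [hcx]
    exact abelian_centralized ρ hρ h hn x hxs R hc (hco R le_rfl) (hRS x hxS) r hr
  have hRbot : R ≠ ⊥ := by
    rintro rfl
    exact hRx bot_le
  -- commutator with x
  let X := Subgroup.zpowers x
  have hXS : X ≤ S := by rw [Subgroup.zpowers_le]; exact hxS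
  have hRXle : ⁅R, X⁆ ≤ R := by
    rw [Subgroup.commutator_le]
    intro r hr y hy
    rw [commutatorElement_def]
    have : r * y * r⁻¹ * y⁻¹ = r * (y * r⁻¹ * y⁻¹) := by group
    rw [this]
    exact mul_mem hr (hRS y (hXS hy) _ (inv_mem hr))
  have hconjcomm : ∀ (A B : Subgroup G) (y : G), (∀ r ∈ A, y * r * y⁻¹ ∈ A) →
      (∀ r ∈ B, y * r * y⁻¹ ∈ B) → ∀ r ∈ ⁅A, B⁆, y * r * y⁻¹ ∈ ⁅A, B⁆ := by
    intro A B y hA hB r hr
    have h1 : (⁅A, B⁆).map (MulAut.conj y).toMonoidHom ≤ ⁅A, B⁆ := by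
      rw [Subgroup.map_commutator]
      apply Subgroup.commutator_mono
      · rintro _ ⟨r, hr, rfl⟩; exact hA r hr
      · rintro _ ⟨r, hr, rfl⟩; exact hB r hr
    exact h1 ⟨r, hr, rfl⟩
  have hXinv : ∀ y ∈ S, ∀ r ∈ X, y * r * y⁻¹ ∈ X := by
    intro y hy r hr
    rw [hSc y hy r (hXS hr), mul_inv_cancel_right]
    exact hr
  have hRX : ⁅R, X⁆ = R := by
    by_contra hne
    have h1 := hmin' _ hRXle hne (fun y hy => hconjcomm R X y (hRS y hy) (hXinv y hy))
    apply hRx
    intro r hr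
    rw [hcx]
    -- c = x r x⁻¹ r⁻¹ commutes with x
    let c := x * r * x⁻¹ * r⁻¹
    have hcm : c ∈ ⁅R, X⁆ := by
      have h2 := Subgroup.commutator_mem_commutator hr (Subgroup.mem_zpowers x)
      have h3 := inv_mem h2
      rw [commutatorElement_inv, commutatorElement_def] at h3
      exact h3
    have hcx' : x * c = c * x := (hcx c).mp (h1 hcm)
    have hpow : ∀ j : ℕ, x ^ j * r * (x ^ j)⁻¹ = c ^ j * r := by
      intro j
      induction j with
      | zero => simp
      | succ j ih =>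
        have h4 : x ^ (j + 1) * r * (x ^ (j + 1))⁻¹ = x * (x ^ j * r * (x ^ j)⁻¹) * x⁻¹ := by
          rw [pow_succ']; group
        rw [h4, ih]
        have h5 : x * (c ^ j * r) * x⁻¹ = (x * c ^ j * x⁻¹) * (x * r * x⁻¹) := by group
        have h6 : x * c ^ j * x⁻¹ = c ^ j := by
          have h7 : Commute x (c ^ j) := (show Commute x c from hcx').pow_right j
          rw [h7.eq, mul_inv_cancel_right]
        have h8 : x * r * x⁻¹ = c * r := by
          change x * r * x⁻¹ = x * r * x⁻¹ * r⁻¹ * r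
          group
        rw [h5, h6, h8, pow_succ]
        group
    have h9 := hpow s
    rw [hxs] at h9
    have h10 : c ^ s = 1 := by
      have : (1 : G) * r * 1⁻¹ = r := by group
      rw [this] at h9
      exact (right_eq_mul.mp h9)
    have hc1 : c = 1 := by
      have hcR : c ∈ R := hRXle hcm
      obtain ⟨j, hj⟩ := hRpg ⟨c, hcR⟩
      have hj' : c ^ (p ^ j) = 1 := congrArg Subtype.val hj
      have hd1 := orderOf_dvd_of_pow_eq_one h10
      have hd2 := orderOf_dvd_of_pow_eq_one hj'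
      have hcop : Nat.Coprime s (p ^ j) := Nat.Coprime.pow_right _
        ((Nat.coprime_primes h.ps hp).mpr (Ne.symm hps))
      have := Nat.dvd_gcd hd1 hd2
      rw [hcop] at this
      exact orderOf_eq_one_iff.mp (Nat.dvd_one.mp this)
    have h11 : x * r * x⁻¹ * r⁻¹ = 1 := hc1
    rw [mul_inv_eq_one, mul_inv_eq_iff_eq_mul] at h11
    exact h11
  have hRRlt : ⁅R, R⁆ ≠ R := (Group.IsSolvable.commutator_lt_of_ne_bot hRbot).ne
  have hRRle : ⁅R, R⁆ ≤ R := by
    rw [Subgroup.commutator_le]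
    intro a ha b hb
    rw [commutatorElement_def]
    exact mul_mem (mul_mem (mul_mem ha hb) (inv_mem ha)) (inv_mem hb)
  have hRRx : ⁅R, R⁆ ≤ Subgroup.centralizer {x} := hmin' _ hRRle hRRlt
    (fun y hy => hconjcomm R R y (hRS y hy) (hRS y hy))
  have hcomX : ∀ T : Subgroup G, T ≤ Subgroup.centralizer {x} → ⁅X, T⁆ = ⊥ ∧ ⁅T, X⁆ = ⊥ := by
    intro T hT
    have h1 : ⁅T, X⁆ = ⊥ := by
      rw [Subgroup.commutator_eq_bot_iff_le_centralizer]
      intro t ht
      rw [Subgroup.mem_centralizer_iff]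
      intro y hy
      obtain ⟨k, rfl⟩ := Subgroup.mem_zpowers_iff.mp hy
      have h0 : Commute x t := (hcx t).mp (hT ht)
      exact (h0.zpow_left k).eq
    exact ⟨by rw [Subgroup.commutator_comm]; exact h1, h1⟩
  have hkey : ∀ T : Subgroup G, T ≤ R → T ≠ R → (∀ y ∈ S, ∀ r ∈ T, y * r * y⁻¹ ∈ T) →
      T ≤ Subgroup.centralizer (R : Set G) := by
    intro T hTR hne hTS
    have hTx := hmin' T hTR hne hTS
    have h1 : ⁅⁅X, T⁆, R⁆ = ⊥ := by rw [(hcomX T hTx).1, Subgroup.commutator_bot_left]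
    have h2 : ⁅⁅T, R⁆, X⁆ = ⊥ := (hcomX _ ((Subgroup.commutator_mono hTR le_rfl).trans hRRx)).2
    have h3 : ⁅⁅R, X⁆, T⁆ = ⊥ := Subgroup.commutator_commutator_eq_bot_of_rotate h1 h2
    rw [hRX, Subgroup.commutator_comm, Subgroup.commutator_eq_bot_iff_le_centralizer] at h3
    exact h3
  -- the centre
  let Z := R ⊓ Subgroup.centralizer (R : Set G)
  have hZS : ∀ y ∈ S, ∀ r ∈ Z, y * r * y⁻¹ ∈ Z := by
    intro y hy r hr
    refine ⟨hRS y hy r hr.1, Subgroup.mem_centralizer_iff.mpr ?_⟩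
    intro t ht
    have h1 : y⁻¹ * t * y ∈ R := by
      have := hRS y⁻¹ (inv_mem hy) t ht
      rwa [inv_inv] at this
    have h2 := Subgroup.mem_centralizer_iff.mp hr.2 _ h1
    have h3 : t * (y * r * y⁻¹) = y * ((y⁻¹ * t * y) * r) * y⁻¹ := by group
    rw [h3, h2]; group
  have hZne : Z ≠ R := by
    intro hZR
    apply hRnc
    intro a ha b hb
    have : b ∈ Z := by rw [hZR]; exact hb
    exact Subgroup.mem_centralizer_iff.mp this.2 a ha
  have hZx : Z ≤ Subgroup.centralizer {x} := hmin' Z inf_le_left hZne hZS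
  have hRRZ : ⁅R, R⁆ ≤ Z := le_inf hRRle (hkey _ hRRle hRRlt
    (fun y hy => hconjcomm R R y (hRS y hy) (hRS y hy)))
  -- free action
  have hfree : ∀ y ∈ S, y ≠ 1 → ∀ r ∈ R, y * r = r * y → r ∈ Z := by
    intro y hy hy1 r hr hyr
    let T := R ⊓ Subgroup.centralizer ({y} : Set G)
    have hTS : ∀ z ∈ S, ∀ r ∈ T, z * r * z⁻¹ ∈ T := by
      intro z hz r hr
      refine ⟨hRS z hz r hr.1, Subgroup.mem_centralizer_iff.mpr ?_⟩
      intro w hw
      rw [Set.mem_singleton_iff] at hw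
      subst hw
      have h2 := Subgroup.mem_centralizer_iff.mp hr.2 w rfl
      have h3 := hSc w hy z hz
      calc w * (z * r * z⁻¹) = (w * z) * r * z⁻¹ := by group
        _ = z * (w * r) * z⁻¹ := by rw [h3]; group
        _ = z * (r * w) * z⁻¹ := by rw [h2]
        _ = z * r * z⁻¹ * (z * w) * z⁻¹ := by group
        _ = z * r * z⁻¹ * (w * z) * z⁻¹ := by rw [h3]
        _ = z * r * z⁻¹ * w := by group
    have hTne : T ≠ R := by
      intro hTR
      -- a power of y of order s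
      obtain ⟨j, hj⟩ : ∃ j, orderOf y = s ^ j := by
        have hd : orderOf y ∣ s ^ a := by
          rw [← hSa]
          have := orderOf_dvd_natCard (⟨y, hy⟩ : S)
          rwa [Subgroup.orderOf_mk] at this
        obtain ⟨j, _, hj⟩ := (Nat.dvd_prime_pow h.ps).mp hd
        exact ⟨j, hj⟩
      have hj0 : j ≠ 0 := by
        rintro rfl
        rw [pow_zero] at hj
        exact hy1 (orderOf_eq_one_iff.mp hj)
      let y' := y ^ (s ^ (j - 1))
      have hy's : y' ^ s = 1 := by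
        change (y ^ (s ^ (j - 1))) ^ s = 1
        rw [← pow_mul, ← pow_succ, Nat.sub_add_cancel (by omega), ← hj, pow_orderOf_eq_one]
      have hy'1 : y' ≠ 1 := by
        intro h1
        have := orderOf_dvd_of_pow_eq_one h1
        rw [hj] at this
        have h2 := (Nat.pow_dvd_pow_iff_le_right h.ps.one_lt).mp this
        omega
      have hy'R : ∀ r ∈ R, y' * r = r * y' := by
        intro r hr
        rw [← hTR] at hr
        have h2 := Subgroup.mem_centralizer_iff.mp hr.2 y rfl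
        exact ((show Commute y r from h2).pow_left _).eq
      have hT1 : (ρ y') ^ s = 1 := by rw [← map_pow, hy's, map_one]
      have hT2 : ρ y' ≠ 1 := fun h1 => hy'1 (hρ (by rw [h1, map_one]))
      apply hRx
      intro r hr
      rw [hcx]
      apply hρ
      have h5 : ∀ g : G, y' * g = g * y' → ∀ v, ρ y' (ρ g v) = ρ g (ρ y' v) := by
        intro g hg v
        have : ρ (y' * g) v = ρ (g * y') v := by rw [hg]
        rw [map_mul, map_mul] at this
        exact this
      have h4 := comm_of_comm h hn (ρ y') hT1 hT2 (ρ x : V →ₗ[ZMod q] V) (ρ r : V →ₗ[ZMod q] V)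
        (h5 x ((show Commute y x from hSc y hy x hxS).pow_left _).eq)
        (h5 r (hy'R r hr))
      rw [map_mul, map_mul]
      ext v
      exact LinearMap.congr_fun h4 v
    have := hkey T inf_le_left hTne hTS
    refine ⟨hr, this ⟨hr, Subgroup.mem_centralizer_iff.mpr ?_⟩⟩
    intro w hw
    rw [Set.mem_singleton_iff] at hw
    subst hw
    exact hyr
  -- field
  have hZc : ∀ m ∈ Z, ∀ n ∈ Z, m * n = n * m := by
    intro m hm n hn
    exact Subgroup.mem_centralizer_iff.mp hn.2 m hm.1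
  have hT1 : (ρ x) ^ s = 1 := by rw [← map_pow, hxs, map_one]
  have hT2 : ρ x ≠ 1 := fun h1 => hx1 (hρ (by rw [h1, map_one]))
  obtain ⟨l, φ, hl, hφ⟩ := exists_gf (adj ρ Z) (adj_comm ρ Z hZc) (by
    intro a ha ha0 v hv
    refine inj_of_comm h hn (ρ x) hT1 hT2 a ?_ ha0 v hv
    have h1 := adj_commutes ρ Z (ρ x : V →ₗ[ZMod q] V) (by
      intro z hz w
      have h2 : ρ (x * z) w = ρ (z * x) w := by rw [(hcx z).mp (hZx hz)]
      rw [map_mul, map_mul] at h2
      exact h2) a ha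
    intro w
    exact LinearMap.congr_fun h1 w)
  have hφm : ∀ k, φ k ∈ adj ρ Z := by
    intro k
    have : φ k ∈ (adj ρ Z : Set (Module.End (ZMod q) V)) := by rw [← hφ]; exact ⟨k, rfl⟩
    exact this
  obtain ⟨m, d, hnd, hm, hmd, -⟩ := ext2 ρ hρ R hl φ (by
    intro k r hr v
    have h1 := adj_commutes ρ Z (ρ r : V →ₗ[ZMod q] V) (by
      intro z hz w
      have h2 : ρ (r * z) w = ρ (z * r) w := by rw [Subgroup.mem_centralizer_iff.mp hz.2 r hr]
      rw [map_mul, map_mul] at h2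
      exact h2) (φ k) (hφm k)
    exact LinearMap.congr_fun h1 v) (by
    intro a ha b hb
    have h1 : ⁅a, b⁆ ∈ Z := hRRZ (Subgroup.commutator_mem_commutator ha hb)
    have h2 : (ρ ⁅a, b⁆ : V →ₗ[ZMod q] V) ∈ (adj ρ Z : Set (Module.End (ZMod q) V)) := mem_adj ρ Z h1
    rw [← hφ] at h2
    obtain ⟨k, hk⟩ := h2
    exact ⟨k, fun v => by rw [hk]; rfl⟩)
  have hcardR : Nat.card R = Nat.card Z * m ^ 2 := by
    rw [← hm]
    have h1 := Subgroup.relIndex_mul_relIndex (⊥ : Subgroup G) Z R bot_le inf_le_left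
    rw [Subgroup.relIndex_bot_left, Subgroup.relIndex_bot_left] at h1
    exact h1.symm
  have hZpos : 0 < Nat.card Z := Nat.card_pos
  have hRpos : 0 < Nat.card R := Nat.card_pos
  have hm0 : m ≠ 0 := by
    rintro rfl
    rw [hcardR] at hRpos
    simp at hRpos
  have hm1 : 1 < m := by
    by_contra hcon
    have hm1 : m = 1 := by omega
    apply hZne
    apply le_antisymm inf_le_left
    rw [hm1, one_pow, Subgroup.relIndex_eq_one] at hm
    exact hm
  have hmn : m ≤ n := by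
    rw [← hn, hnd]
    calc m ≤ d := hmd
      _ = 1 * d := (one_mul d).symm
      _ ≤ l * d := Nat.mul_le_mul_right _ (Nat.one_le_iff_ne_zero.mpr hl)
  obtain ⟨k, hk⟩ : ∃ k, m = p ^ k := by
    obtain ⟨j, hj⟩ := IsPGroup.iff_card.mp hRpg
    have hd : m ∣ p ^ j := by
      rw [← hj, hcardR, sq]
      exact Dvd.intro_left (Nat.card Z * m) (by ring)
    obtain ⟨k, _, hk⟩ := (Nat.dvd_prime_pow hp).mp hd
    exact ⟨k, hk⟩
  -- counting
  have hdvd : Nat.card S ∣ m ^ 2 - 1 := by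
    letI act : MulAction S {r : G // r ∈ R ∧ r ∉ Z} :=
      { smul := fun y r => ⟨y * r * (y : G)⁻¹, hRS y y.2 r r.2.1, fun hc => r.2.2 (by
          have := hZS (y : G)⁻¹ (inv_mem y.2) _ hc
          have h2 : (y : G)⁻¹ * ((y : G) * r * (y : G)⁻¹) * ((y : G)⁻¹)⁻¹ = r := by group
          rwa [h2] at this)⟩
        one_smul := fun r => Subtype.ext (by
          change ((1 : S) : G) * r * ((1 : S) : G)⁻¹ = r
          simp)
        mul_smul := fun y z r => Subtype.ext (by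
          change ((y * z : S) : G) * r * ((y * z : S) : G)⁻¹ = (y : G) * ((z : G) * r * (z : G)⁻¹) * (y : G)⁻¹
          rw [Subgroup.coe_mul]; group) }
    have h1 : Nat.card S ∣ Nat.card {r : G // r ∈ R ∧ r ∉ Z} := by
      apply dvd_of_free
      intro y r hyr
      have h2 : (y : G) * r * (y : G)⁻¹ = r := congrArg Subtype.val hyr
      by_contra hy1
      exact r.2.2 (hfree y y.2 (fun h3 => hy1 (Subtype.ext h3)) r r.2.1 (by
        rw [mul_inv_eq_iff_eq_mul] at h2
        exact h2))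
    have h2 : Nat.card {r : G // r ∈ R ∧ r ∉ Z} = Nat.card Z * (m ^ 2 - 1) := by
      have h3 : Nat.card {r : G // r ∈ R ∧ r ∉ Z} = ((R : Set G) \ (Z : Set G)).ncard := rfl
      have h4 : (Z : Set G) ⊆ (R : Set G) := fun z hz => hz.1
      rw [h3, Set.ncard_sdiff h4]
      change Nat.card R - Nat.card Z = _
      rw [hcardR, Nat.mul_sub, mul_one]
    rw [h2] at h1
    apply Nat.Coprime.dvd_of_dvd_mul_left _ h1
    rw [hSa]
    obtain ⟨j, hj⟩ := IsPGroup.iff_card.mp (hRpg.to_le (inf_le_left : Z ≤ R))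
    rw [hj]
    exact Nat.Coprime.pow _ _ ((Nat.coprime_primes h.ps hp).mpr (Ne.symm hps))
  have ha0 : a ≠ 0 := by
    rintro rfl
    rw [pow_zero] at hSa
    have := Subgroup.card_eq_one.mp hSa
    rw [this] at hxS
    exact hx1 hxS
  rw [hSa] at hdvd
  obtain ⟨e1, e2, e3, e4⟩ := num hq1 hn0 h hp ha0 hdvd hm1 hmn hk
  refine ⟨e1, ⟨k, ?_⟩, ?_, e4⟩
  · rw [← e2, hk, e4]
  · rw [hSa, e3, pow_one]

end MR

end Cfsg.Agent.H11.Hup
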