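import Mathlib
import Cfsg.Agent.H11.Hup5
import Cfsg.Agent.H1.Chief

set_option autoImplicit false

namespace Cfsg.Agent.H11.Hup

open Module
open scoped commutatorElement

section Tr
variable {q : ℕ} [Fact q.Prime] {V : Type*} [AddCommGroup V] [Module (ZMod q) V] [Finite V]
  [Nontrivial V] {G : Type*} [Group G] [Finite G]

/-- Semilinear of dimension one. -/
def Semi (ρ : G →* (V ≃ₗ[ZMod q] V)) : Prop :=
  ∃ (n : ℕ) (e : V ≃+ GaloisField q n), n ≠ 0 ∧ Nat.card V = q ^ n ∧
    ∀ g : G, ∃ (a : GaloisField q n) (σ : GaloisField q n ≃+* GaloisField q n),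
      ∀ v, e (ρ g v) = a * σ (e v)

theorem card_V : Nat.card V = q ^ finrank (ZMod q) V := by
  have : Module.Finite (ZMod q) V := Module.Finite.of_finite
  have := Module.natCard_eq_pow_finrank (K := ZMod q) (V := V)
  rw [this, Nat.card_zmod]

theorem semi_of_field (ρ : G →* (V ≃ₗ[ZMod q] V)) {l : ℕ}
    (φ : GaloisField q l →+* Module.End (ZMod q) V) (hl : l = finrank (ZMod q) V)
    (hconj : ∀ g k, ∃ k', ∀ v, ρ g (φ k v) = φ k' (ρ g v)) : Semi ρ := by
  have : Module.Finite (ZMod q) V := Module.Finite.of_finite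
  have hl0 : l ≠ 0 := by rw [hl]; exact Module.finrank_pos.ne'
  obtain ⟨e, -, he⟩ := semilin ((Module.toAddMonoidEnd (Module.End (ZMod q) V) V).comp φ) (by
    rw [GaloisField.card q l hl0, card_V (q := q) (V := V), hl])
  refine ⟨l, e, hl0, by rw [card_V (q := q), hl], ?_⟩
  intro g
  exact he (ρ g).toAddEquiv (fun k => hconj g k)

theorem normal_field (ρ : G →* (V ≃ₗ[ZMod q] V))
    (htrans : ∀ v w : V, v ≠ 0 → w ≠ 0 → ∃ g : G, ρ g v = w) (N : Subgroup G) (hN : N.Normal)
    (hNc : ∀ a ∈ N, ∀ b ∈ N, a * b = b * a) :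
    ∃ (l : ℕ) (φ : GaloisField q l →+* Module.End (ZMod q) V), l ≠ 0 ∧
      Set.range φ = (adj ρ N : Set (Module.End (ZMod q) V)) ∧
      (l = finrank (ZMod q) V → Semi ρ) ∧ ∃ d, finrank (ZMod q) V = l * d := by
  obtain ⟨l, φ, hl, hφ⟩ := exists_gf (adj ρ N) (adj_comm ρ N hNc)
    (ann_zero ρ htrans (adj ρ N : Set (Module.End (ZMod q) V)) (adj_comm ρ N hNc)
      (fun g => adj_inv ρ N g (fun n hn => hN.conj_mem n hn g)))
  refine ⟨l, φ, hl, hφ, ?_, card_pow_gf hl φ⟩
  intro hln
  apply semi_of_field ρ φ hln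
  intro g k
  have h1 : φ k ∈ adj ρ N := by
    have : φ k ∈ (adj ρ N : Set (Module.End (ZMod q) V)) := by rw [← hφ]; exact ⟨k, rfl⟩
    exact this
  obtain ⟨b, hb, hb2⟩ := adj_inv ρ N g (fun n hn => hN.conj_mem n hn g) _ h1
  have h2 : b ∈ (adj ρ N : Set (Module.End (ZMod q) V)) := hb
  rw [← hφ] at h2
  obtain ⟨k', rfl⟩ := h2
  exact ⟨k', hb2⟩

/-- the action on nonzero vectors -/
theorem dvd_card (ρ : G →* (V ≃ₗ[ZMod q] V))
    (htrans : ∀ v w : V, v ≠ 0 → w ≠ 0 → ∃ g : G, ρ g v = w) :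
    q ^ finrank (ZMod q) V - 1 ∣ Nat.card G := by
  classical
  letI act : MulAction G V :=
    { smul := fun g v => ρ g v
      one_smul := fun v => by change ρ 1 v = v; rw [map_one]; rfl
      mul_smul := fun a b v => by change ρ (a * b) v = ρ a (ρ b v); rw [map_mul]; rfl }
  obtain ⟨v, hv⟩ := exists_ne (0 : V)
  have h1 : MulAction.orbit G v = {w | w ≠ 0} := by
    ext w
    constructor
    · rintro ⟨g, rfl⟩ h0
      exact hv ((ρ g).map_eq_zero_iff.mp h0)
    · intro hw
      obtain ⟨g, hg⟩ := htrans v w hv hw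
      exact ⟨g, hg⟩
  have h2 : Nat.card (MulAction.orbit G v) = q ^ finrank (ZMod q) V - 1 := by
    rw [h1, ← card_V (q := q) (V := V)]
    have : ({w : V | w ≠ 0}) = ({0} : Set V)ᶜ := rfl
    rw [this]
    change (({0} : Set V)ᶜ).ncard = _
    rw [Set.ncard_compl, Set.ncard_singleton]
  rw [← h2]
  have h3 := MulAction.index_stabilizer G v
  have h4 := Subgroup.index_dvd_card (MulAction.stabilizer G v)
  rw [h3] at h4
  exact h4

theorem q_core (ρ : G →* (V ≃ₗ[ZMod q] V)) (hρ : Function.Injective ρ)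
    (htrans : ∀ v w : V, v ≠ 0 → w ≠ 0 → ∃ g : G, ρ g v = w) (P : Subgroup G) (hPn : P.Normal)
    (hP : IsPGroup q P) : P = ⊥ := by
  classical
  have : Module.Finite (ZMod q) V := Module.Finite.of_finite
  letI act : MulAction P V :=
    { smul := fun g v => ρ g v
      one_smul := fun v => by change ρ ((1 : P) : G) v = v; rw [Subgroup.coe_one, map_one]; rfl
      mul_smul := fun a b v => by
        change ρ ((a * b : P) : G) v = ρ a (ρ b v); rw [Subgroup.coe_mul, map_mul]; rfl }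
  have h1 := hP.card_modEq_card_fixedPoints V
  have h0 : (0 : V) ∈ MulAction.fixedPoints P V := fun g => map_zero (ρ (g : G))
  have h2 : q ∣ Nat.card (MulAction.fixedPoints P V) := by
    rw [← Nat.modEq_zero_iff_dvd]
    refine h1.symm.trans ?_
    rw [card_V (q := q), Nat.modEq_zero_iff_dvd]
    exact dvd_pow_self q Module.finrank_pos.ne'
  have h3 : 1 < Nat.card (MulAction.fixedPoints P V) := by
    have hpos : 0 < Nat.card (MulAction.fixedPoints P V) := by
      have : Nonempty (MulAction.fixedPoints P V) := ⟨⟨0, h0⟩⟩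
      exact Nat.card_pos
    exact lt_of_lt_of_le (Fact.out : q.Prime).one_lt (Nat.le_of_dvd hpos h2)
  have h4 : Nontrivial (MulAction.fixedPoints P V) := by
    rw [← Finite.one_lt_card_iff_nontrivial]; exact h3
  obtain ⟨w, hw⟩ := exists_ne (⟨0, h0⟩ : MulAction.fixedPoints P V)
  have hw0 : (w : V) ≠ 0 := fun h => hw (Subtype.ext h)
  rw [Subgroup.eq_bot_iff_forall]
  intro r hr
  apply hρ
  rw [map_one]
  ext v
  by_cases hv : v = 0
  · rw [hv, map_zero, map_zero]
  · obtain ⟨g, hg⟩ := htrans w v hw0 hv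
    have h5 : g⁻¹ * r * g ∈ P := by
      have := hPn.conj_mem r hr g⁻¹
      rwa [inv_inv] at this
    have h6 : ρ (g⁻¹ * r * g) (w : V) = w := w.2 ⟨_, h5⟩
    have h7 : ρ (r * g) (w : V) = ρ (g * (g⁻¹ * r * g)) w := by congr 2; group
    rw [map_mul, map_mul] at h7
    change ρ r (ρ g w) = ρ g (ρ (g⁻¹ * r * g) w) at h7
    rw [h6, hg] at h7
    exact h7

theorem numA {q n k : ℕ} (hq : q.Prime) (hq2 : q ≠ 2) (hn : n = 2 ^ k) (hn3 : 3 ≤ n)
    (hA : ∀ s, Prim q n s → s = n + 1 ∧ ¬ s ^ 2 ∣ q ^ n - 1) : q ^ n = 81 := by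
  have hqodd : Odd q := hq.odd_of_ne_two hq2
  have hq3 : 3 ≤ q := by
    have := hq.two_le
    omega
  obtain ⟨k, rfl⟩ : ∃ k', k = k' + 2 := ⟨k - 2, by
    have : 2 ≤ k := by
      by_contra hcon
      have : k = 0 ∨ k = 1 := by omega
      rcases this with rfl | rfl <;> omega
    omega⟩
  let j := 2 ^ (k + 1)
  have hj2 : 2 ≤ j := by
    change 2 ≤ 2 ^ (k + 1)
    calc 2 = 2 ^ 1 := by norm_num
      _ ≤ 2 ^ (k + 1) := Nat.pow_le_pow_right (by norm_num) (by omega)
  have hnj : n = 2 * j := by rw [hn]; change 2 ^ (k + 2) = 2 * 2 ^ (k + 1); ring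
  have hmod : q ^ j % 4 = 1 := by
    have hj' : q ^ j = (q ^ (2 ^ k)) ^ 2 := by
      change q ^ (2 ^ (k + 1)) = _
      rw [← pow_mul, ← pow_succ]
    rw [hj']
    have hodd : Odd (q ^ (2 ^ k)) := hqodd.pow
    obtain ⟨t, ht⟩ := hodd
    rw [ht]
    have : (2 * t + 1) ^ 2 = 4 * (t ^ 2 + t) + 1 := by ring
    rw [this]; omega
  obtain ⟨t, ht⟩ : ∃ t, q ^ j + 1 = 2 * t := ⟨(q ^ j + 1) / 2, by omega⟩
  have htodd : ¬ 2 ∣ t := by omega
  have hfac : q ^ n - 1 = (q ^ j - 1) * (q ^ j + 1) := by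
    rw [hnj, mul_comm 2 j, pow_mul]
    obtain ⟨u, hu⟩ : ∃ u, q ^ j = u + 1 := ⟨q ^ j - 1, by omega⟩
    rw [hu, Nat.add_sub_cancel]
    rw [show (u + 1) ^ 2 = u * (u + 1 + 1) + 1 by ring, Nat.add_sub_cancel]
  have hprim : ∀ r, r.Prime → r ∣ t → r = n + 1 := by
    intro r hr hrt
    have hr2 : r ≠ 2 := fun h => htodd (h ▸ hrt)
    have hrN : r ∣ q ^ j + 1 := by rw [ht]; exact Dvd.dvd.mul_left hrt 2
    refine (hA r ⟨hr, by rw [hfac]; exact Dvd.dvd.mul_left hrN _, ?_⟩).1
    intro i hi0 hin hri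
    have hFr : Fact r.Prime := ⟨hr⟩
    have h1 : (q : ZMod r) ^ j = -1 := by
      have : ((q ^ j + 1 : ℕ) : ZMod r) = 0 := by rwa [ZMod.natCast_eq_zero_iff]
      push_cast at this
      exact eq_neg_of_add_eq_zero_left this
    have h2 : (q : ZMod r) ^ i = 1 := by
      have h3 : ((q ^ i - 1 : ℕ) : ZMod r) = 0 := by rwa [ZMod.natCast_eq_zero_iff]
      rw [Nat.cast_sub (Nat.one_le_pow _ _ (by omega))] at h3
      push_cast at h3
      exact sub_eq_zero.mp h3
    have h3 : orderOf (q : ZMod r) ∣ 2 ^ (k + 2) := by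
      apply orderOf_dvd_of_pow_eq_one
      rw [← hn, hnj, mul_comm, pow_mul, h1]; norm_num
    have h4 := orderOf_dvd_of_pow_eq_one h2
    obtain ⟨c, hc, hc2⟩ := (Nat.dvd_prime_pow Nat.prime_two).mp h3
    have h5 : c ≤ k + 1 := by
      by_contra hcon
      have : c = k + 2 := by omega
      rw [hc2, this] at h4
      have := Nat.le_of_dvd hi0 h4
      omega
    have h6 : (q : ZMod r) ^ j = 1 := by
      apply orderOf_dvd_iff_pow_eq_one.mp
      rw [hc2]
      exact pow_dvd_pow 2 h5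
    rw [h1] at h6
    have h7 : ((2 : ℕ) : ZMod r) = 0 := by
      have : (1 : ZMod r) + 1 = 0 := by nth_rewrite 1 [← h6]; ring
      push_cast
      rw [← this]; norm_num
    rw [ZMod.natCast_eq_zero_iff] at h7
    exact hr2 ((Nat.prime_dvd_prime_iff_eq hr Nat.prime_two).mp h7)
  have htle : t ≤ n + 1 := by
    by_cases ht1 : t = 1
    · omega
    · have hr := hprim _ (Nat.minFac_prime ht1) (Nat.minFac_dvd t)
      have hsp : (n + 1).Prime := by rw [← hr]; exact Nat.minFac_prime ht1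
      have hdvd : n + 1 ∣ t := by rw [← hr]; exact Nat.minFac_dvd t
      obtain ⟨u, hu⟩ := hdvd
      by_cases hu1 : u = 1
      · rw [hu, hu1]; omega
      · exfalso
        have h8 := hprim _ (Nat.minFac_prime hu1) ((Nat.minFac_dvd u).trans (Dvd.intro_left _ hu.symm))
        have h9 : n + 1 ∣ u := by rw [← h8]; exact Nat.minFac_dvd u
        have h10 : (n + 1) ^ 2 ∣ q ^ n - 1 := by
          rw [hfac, ht, hu, sq]
          exact Dvd.dvd.mul_left (Dvd.dvd.mul_left (mul_dvd_mul_left _ h9) 2) _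
        have h11 : Prim q n (n + 1) := by
          refine ⟨hsp, (dvd_pow_self _ two_ne_zero).trans h10, ?_⟩
          -- repeat the primitivity
          intro i hi0 hin hri
          have hFr : Fact (n + 1).Prime := ⟨hsp⟩
          have h1 : (q : ZMod (n + 1)) ^ j = -1 := by
            have : ((q ^ j + 1 : ℕ) : ZMod (n + 1)) = 0 := by
              rw [ZMod.natCast_eq_zero_iff, ht, hu]
              exact Dvd.dvd.mul_left (Dvd.intro _ rfl) 2
            push_cast at this
            exact eq_neg_of_add_eq_zero_left this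
          have h2 : (q : ZMod (n + 1)) ^ i = 1 := by
            have h3 : ((q ^ i - 1 : ℕ) : ZMod (n + 1)) = 0 := by rwa [ZMod.natCast_eq_zero_iff]
            rw [Nat.cast_sub (Nat.one_le_pow _ _ (by omega))] at h3
            push_cast at h3
            exact sub_eq_zero.mp h3
          have h3 : orderOf (q : ZMod (n + 1)) ∣ 2 ^ (k + 2) := by
            apply orderOf_dvd_of_pow_eq_one
            rw [show (2 : ℕ) ^ (k + 2) = j * 2 by rw [← hn, hnj, mul_comm], pow_mul, h1]; norm_num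
          have h4 := orderOf_dvd_of_pow_eq_one h2
          obtain ⟨c, hc, hc2⟩ := (Nat.dvd_prime_pow Nat.prime_two).mp h3
          have h5 : c ≤ k + 1 := by
            by_contra hcon
            have : c = k + 2 := by omega
            rw [hc2, this] at h4
            have := Nat.le_of_dvd hi0 h4
            omega
          have h6 : (q : ZMod (n + 1)) ^ j = 1 := by
            apply orderOf_dvd_iff_pow_eq_one.mp
            rw [hc2]
            exact pow_dvd_pow 2 h5
          rw [h1] at h6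
          have h7 : ((2 : ℕ) : ZMod (n + 1)) = 0 := by
            have : (1 : ZMod (n + 1)) + 1 = 0 := by nth_rewrite 1 [← h6]; ring
            push_cast
            rw [← this]; norm_num
          rw [ZMod.natCast_eq_zero_iff] at h7
          have := Nat.le_of_dvd (by norm_num) h7
          omega
        exact (hA _ h11).2 h10
  -- size
  have hbound : q ^ j ≤ 4 * j + 1 := by omega
  have hj : j = 2 := by
    by_contra hne
    have hj3 : 3 ≤ j := by omega
    have h1 : ∀ i : ℕ, 4 * (i + 3) + 1 < 3 ^ (i + 3) := by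
      intro i
      induction i with
      | zero => norm_num
      | succ i ih => rw [pow_succ] ; omega
    have h2 := h1 (j - 3)
    rw [Nat.sub_add_cancel hj3] at h2
    have h3 : 3 ^ j ≤ q ^ j := Nat.pow_le_pow_left hq3 j
    omega
  rw [hj] at hbound
  have hq' : q = 3 := by nlinarith
  rw [hnj, hj, hq']; norm_num

end Tr

end Cfsg.Agent.H11.Hup
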