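import Mathlib
import Cfsg.Agent.H11.Hup6
import Cfsg.Agent.H18.Zsig

set_option autoImplicit false

namespace Cfsg.Agent.H11.Hup

open Module Cfsg
open scoped commutatorElement

section Fit
variable {G : Type*} [Group G] [Finite G]

theorem fit_abelian (h : ∀ p : ℕ, p.Prime → ∀ a ∈ pCore p G, ∀ b ∈ pCore p G, a * b = b * a) :
    ∀ a ∈ fittingSubgroup G, ∀ b ∈ fittingSubgroup G, a * b = b * a := by
  have key : ∀ p q : Nat.Primes, pCore (q : ℕ) G ≤ Subgroup.centralizer (pCore (p : ℕ) G : Set G) := by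
    intro p q b hb
    rw [Subgroup.mem_centralizer_iff]
    intro a ha
    by_cases hpq : p = q
    · subst hpq
      exact h p p.2 a ha b hb
    · have hp : Fact (p : ℕ).Prime := ⟨p.2⟩
      have hq : Fact (q : ℕ).Prime := ⟨q.2⟩
      have hne : (p : ℕ) ≠ q := fun h => hpq (Subtype.ext h)
      have hdis : Disjoint (pCore (p : ℕ) G) (pCore (q : ℕ) G) := by
        rw [disjoint_iff, eq_bot_iff, ← H1.pCore_inf_pPrimeCore (G := G) (p : ℕ)]
        exact inf_le_inf_left _ (H1.pCore_le_pPrimeCore_of_ne hne)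
      exact (Subgroup.commute_of_normal_of_disjoint _ _ (H1.pCore_normal _ G) (H1.pCore_normal _ G)
        hdis a b ha hb).eq
  have h1 : ∀ p : Nat.Primes, fittingSubgroup G ≤ Subgroup.centralizer (pCore (p : ℕ) G : Set G) := by
    intro p
    rw [H1.fitting_eq_iSup_pCore]
    exact iSup_le (fun q => key p q)
  have h2 : fittingSubgroup G ≤ Subgroup.centralizer (fittingSubgroup G : Set G) := by
    conv_lhs => rw [H1.fitting_eq_iSup_pCore]
    apply iSup_le
    intro p
    rw [Subgroup.le_centralizer_iff]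
    exact h1 p
  intro a ha b hb
  exact Subgroup.mem_centralizer_iff.mp (h2 hb) a ha

end Fit

section CaseA
variable {q : ℕ} [Fact q.Prime] {V : Type*} [AddCommGroup V] [Module (ZMod q) V] [Finite V]
  [Nontrivial V] {G : Type*} [Group G] [Finite G]

theorem claimA (hsol : Group.IsSolvable G) (ρ : G →* (V ≃ₗ[ZMod q] V)) (hρ : Function.Injective ρ)
    (htrans : ∀ v w : V, v ≠ 0 → w ≠ 0 → ∃ g : G, ρ g v = w) (hns : ¬ Semi ρ)
    {n s : ℕ} (h : Prim q n s) (hn : finrank (ZMod q) V = n) :
    s = n + 1 ∧ (∃ k, n = 2 ^ k) ∧ ¬ s ^ 2 ∣ q ^ n - 1 ∧ q ≠ 2 := by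
  classical
  have : Module.Finite (ZMod q) V := Module.Finite.of_finite
  have hn0 : n ≠ 0 := by rw [← hn]; exact Module.finrank_pos.ne'
  have hq1 : 1 < q := (Fact.out : q.Prime).one_lt
  have hFs : Fact s.Prime := ⟨h.ps⟩
  have hdG := dvd_card ρ htrans
  rw [hn] at hdG
  have hsG : s ∣ Nat.card G := h.dvd.trans hdG
  let S0 : Sylow s G := default
  have hSnt : Nontrivial S0 := by
    have h1 : s ∣ Nat.card (S0 : Subgroup G) := by
      have := S0.pow_dvd_card_of_pow_dvd_card (n := 1) (by rwa [pow_one])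
      rwa [pow_one] at this
    by_contra hcon
    rw [not_nontrivial_iff_subsingleton] at hcon
    have h2 : Nat.card (S0 : Subgroup G) = 1 := Nat.card_of_subsingleton (1 : (S0 : Subgroup G))
    rw [h2] at h1
    exact h.ps.one_lt.ne' (Nat.dvd_one.mp h1)
  have hcnt : Nontrivial (Subgroup.center S0) := S0.2.center_nontrivial
  have hsc : s ∣ Nat.card (Subgroup.center S0) := by
    obtain ⟨j, hj⟩ := IsPGroup.iff_card.mp (S0.2.to_subgroup (Subgroup.center S0))
    have h2 := Finite.one_lt_card_iff_nontrivial.mpr hcnt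
    rw [hj] at h2 ⊢
    apply dvd_pow_self
    rintro rfl
    simp at h2
  obtain ⟨z, hz⟩ := exists_prime_orderOf_dvd_card' s hsc
  let x : G := ((z : S0) : G)
  have hx1 : x ≠ 1 := by
    intro h0
    have : z = 1 := Subtype.ext (Subtype.ext h0)
    rw [this, orderOf_one] at hz
    exact h.ps.one_lt.ne hz
  have hxs : x ^ s = 1 := by
    have h1 : z ^ s = 1 := orderOf_dvd_iff_pow_eq_one.mp hz.dvd
    exact congrArg (fun w : Subgroup.center S0 => ((w : S0) : G)) h1
  have hxc : ∀ g ∈ (S0 : Subgroup G), x * g = g * x := by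
    intro g hg
    have := Subgroup.mem_center_iff.mp z.2 ⟨g, hg⟩
    exact (congrArg Subtype.val this).symm
  have hxS : x ∈ (S0 : Subgroup G) := (z : S0).2
  have hT1 : (ρ x) ^ s = 1 := by rw [← map_pow, hxs, map_one]
  have hT2 : ρ x ≠ 1 := fun h1 => hx1 (hρ (by rw [h1, map_one]))
  have hcommρ : ∀ a b : G, a * b = b * a → ∀ v, ρ a (ρ b v) = ρ b (ρ a v) := by
    intro a b hab v
    have : ρ (a * b) v = ρ (b * a) v := by rw [hab]
    rw [map_mul, map_mul] at this
    exact this
  have hcx : ∀ a b : G, x * a = a * x → x * b = b * x → a * b = b * a := by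
    intro a b ha hb
    apply hρ
    have h4 := comm_of_comm h hn (ρ x) hT1 hT2 (ρ a : V →ₗ[ZMod q] V) (ρ b : V →ₗ[ZMod q] V)
      (hcommρ x a ha) (hcommρ x b hb)
    rw [map_mul, map_mul]
    ext v
    exact LinearMap.congr_fun h4 v
  have hSc : ∀ a ∈ (S0 : Subgroup G), ∀ b ∈ (S0 : Subgroup G), a * b = b * a :=
    fun a ha b hb => hcx a b (hxc a ha) (hxc b hb)
  by_cases hc : ∀ p : ℕ, p.Prime → ∀ r ∈ pCore p G, x * r = r * x
  · -- x lies in an abelian normal subgroup
    exfalso
    have hF : fittingSubgroup G ≤ Subgroup.centralizer {x} := by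
      rw [H1.fitting_eq_iSup_pCore]
      apply iSup_le
      intro p r hr
      rw [Subgroup.mem_centralizer_iff]
      rintro _ rfl
      exact hc p p.2 r hr
    have hFx : ∀ r ∈ fittingSubgroup G, x * r = r * x := fun r hr =>
      Subgroup.mem_centralizer_iff.mp (hF hr) x rfl
    have hxF : x ∈ fittingSubgroup G := by
      apply H1.centralizer_fitting_le hsol
      rw [Subgroup.mem_centralizer_iff]
      intro r hr
      exact (hFx r hr).symm
    obtain ⟨l, φ, hl, hφ, hsemi, d, hd⟩ := normal_field ρ htrans (fittingSubgroup G)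
      (H1.fitting_normal G) (fun a ha b hb => hcx a b (hFx a ha) (hFx b hb))
    apply hns
    apply hsemi
    obtain ⟨v0, hv0⟩ := exists_ne (0 : V)
    have hxm : (ρ x : V →ₗ[ZMod q] V) ∈ Set.range φ := by
      rw [hφ]; exact mem_adj ρ _ hxF
    obtain ⟨kx, hkx⟩ := hxm
    let f : GaloisField q l →+ V :=
      { toFun := fun k => φ k v0
        map_zero' := by rw [map_zero]; rfl
        map_add' := fun a b => by rw [map_add]; rfl }
    let W : Submodule (ZMod q) V := AddSubgroup.toZModSubmodule q f.range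
    have hW : W = ⊤ := by
      apply irred h hn (ρ x) hT1 hT2
      · intro w hw
        obtain ⟨k, rfl⟩ : ∃ k, f k = w := hw
        have : f (kx * k) ∈ W := ⟨kx * k, rfl⟩
        have h5 : f (kx * k) = ρ x (f k) := by
          change φ (kx * k) v0 = ρ x (φ k v0)
          rw [map_mul, hkx]; rfl
        rwa [h5] at this
      · intro hb
        have h6 : f 1 ∈ W := ⟨1, rfl⟩
        rw [hb, Submodule.mem_bot] at h6
        apply hv0
        have : f 1 = v0 := by change φ 1 v0 = v0; rw [map_one]; rfl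
        rw [← this, h6]
    have hsurj : Function.Surjective f := by
      intro v
      have : v ∈ W := by rw [hW]; trivial
      exact this
    have hcard := Nat.card_le_card_of_surjective f hsurj
    rw [GaloisField.card q l hl, card_V (q := q)] at hcard
    have hle := (Nat.pow_le_pow_iff_right hq1).mp hcard
    have hpos : 0 < finrank (ZMod q) V := Module.finrank_pos
    have : l ∣ finrank (ZMod q) V := Dvd.intro d hd.symm
    exact le_antisymm (Nat.le_of_dvd hpos this) hle
  · push Not at hc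
    obtain ⟨p, hp, r, hr, hxr⟩ := hc
    have hFp : Fact p.Prime := ⟨hp⟩
    have hps : p ≠ s := by
      rintro rfl
      exact hxr (hxc r (H1.pCore_le_sylow S0 hr))
    have hpq : p ≠ q := by
      rintro rfl
      have h1 := q_core ρ hρ htrans _ (H1.pCore_normal p G) (H1.pCore_isPGroup p G)
      rw [h1, Subgroup.mem_bot] at hr
      rw [hr] at hxr
      exact hxr (by rw [mul_one, one_mul])
    obtain ⟨a, ha⟩ := IsPGroup.iff_card.mp S0.2
    obtain ⟨e1, e2, e3, e4⟩ := main_R hsol ρ hρ h hn (S0 : Subgroup G) hSc ha x hxS hxs hx1 hp hpq hps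
      (pCore p G) (H1.pCore_isPGroup p G) (fun y _ r hr => (H1.pCore_normal p G).conj_mem r hr y)
      (fun hall => hxr (hall r hr))
    refine ⟨e1, e2, ?_, ?_⟩
    · intro hd2
      have h1 := S0.pow_dvd_card_of_pow_dvd_card (n := 2) (hd2.trans hdG)
      rw [e3] at h1
      have := Nat.le_of_dvd h.ps.pos h1
      have h2 := h.ps.two_le
      nlinarith
    · rw [← e4]; exact hpq.symm

theorem caseA (hsol : Group.IsSolvable G) (ρ : G →* (V ≃ₗ[ZMod q] V)) (hρ : Function.Injective ρ)
    (htrans : ∀ v w : V, v ≠ 0 → w ≠ 0 → ∃ g : G, ρ g v = w) (hns : ¬ Semi ρ)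
    (hn3 : 3 ≤ finrank (ZMod q) V) (h6 : ¬ (q = 2 ∧ finrank (ZMod q) V = 6)) : Nat.card V = 81 := by
  obtain ⟨s, hs, hd, hprim⟩ := H18.Zsig.zsigmondy (Fact.out : q.Prime).one_lt
    (by omega : 2 < finrank (ZMod q) V) h6
  have h : Prim q (finrank (ZMod q) V) s := ⟨hs, hd, hprim⟩
  obtain ⟨-, ⟨k, hk⟩, -, hq2⟩ := claimA hsol ρ hρ htrans hns h rfl
  rw [card_V (q := q)]
  apply numA Fact.out hq2 hk hn3
  intro s hs
  obtain ⟨h1, -, h3, -⟩ := claimA hsol ρ hρ htrans hns hs rfl
  exact ⟨h1, h3⟩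

end CaseA

end Cfsg.Agent.H11.Hup
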