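import Mathlib
import Cfsg.Agent.H11.Hup7

set_option autoImplicit false

namespace Cfsg.Agent.H11.Hup

open Module Cfsg
open scoped commutatorElement

theorem relIndex_le {G : Type*} [Group G] [Finite G] {K H : Subgroup G} {Y : Type*}
    [DecidableEq Y] (f : G → Y) (T : Finset Y) (hT : ∀ g ∈ K, f g ∈ T)
    (hf : ∀ g ∈ K, ∀ g' ∈ K, f g = f g' → g⁻¹ * g' ∈ H) : H.relIndex K ≤ T.card := by
  classical
  have h1 : H.relIndex K = Nat.card (↥K ⧸ H.subgroupOf K) := rfl
  rw [h1, ← Fintype.card_coe T, ← Nat.card_eq_fintype_card]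
  let F : (↥K ⧸ H.subgroupOf K) → T := fun c => ⟨f ((Quotient.out c : K) : G), hT _ (Quotient.out c).2⟩
  apply Nat.card_le_card_of_injective F
  intro c c' hcc
  have h2 : f ((Quotient.out c : K) : G) = f ((Quotient.out c' : K) : G) := congrArg Subtype.val hcc
  have h3 := hf _ (Quotient.out c).2 _ (Quotient.out c').2 h2
  have h4 : (Quotient.out c : K)⁻¹ * Quotient.out c' ∈ H.subgroupOf K := h3
  have h5 := QuotientGroup.eq.mpr h4
  rwa [QuotientGroup.out_eq', QuotientGroup.out_eq'] at h5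

section Small
variable {q : ℕ} [Fact q.Prime] {V : Type*} [AddCommGroup V] [Module (ZMod q) V] [Finite V]
  [Nontrivial V] {G : Type*} [Group G] [Finite G]

theorem scal_hom (ρ : G →* (V ≃ₗ[ZMod q] V)) (hρ : Function.Injective ρ) {l : ℕ}
    (φ : GaloisField q l →+* Module.End (ZMod q) V) (N : Subgroup G)
    (h : ∀ n ∈ N, ∃ k, ∀ v, ρ n v = φ k v) :
    ∃ κ : N →* (GaloisField q l)ˣ, Function.Injective κ ∧ ∀ n v, φ (κ n : GaloisField q l) v = ρ n v := by
  classical
  have h' : ∀ n : N, ∃ k, ∀ v, ρ n v = φ k v := fun n => h n n.2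
  choose c hc using h'
  have hinj : ∀ a b : GaloisField q l, (∀ v, φ a v = φ b v) → a = b := fun a b hab =>
    φ.injective (LinearMap.ext hab)
  let κ0 : N →* GaloisField q l :=
    { toFun := c
      map_one' := by
        apply hinj; intro v
        rw [← hc, map_one, Subgroup.coe_one, map_one]; rfl
      map_mul' := fun a b => by
        apply hinj; intro v
        rw [← hc, map_mul, Subgroup.coe_mul, map_mul]
        change ρ a (ρ b v) = φ (c a) (φ (c b) v)
        rw [← hc, ← hc] }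
  refine ⟨κ0.toHomUnits, ?_, ?_⟩
  · intro a b hab
    have h1 : c a = c b := congrArg Units.val hab
    apply Subtype.ext
    apply hρ
    ext v
    rw [hc, hc, h1]
  · intro n v
    exact (hc n v).symm

theorem scal_card (ρ : G →* (V ≃ₗ[ZMod q] V)) (hρ : Function.Injective ρ) {l : ℕ} (hl : l ≠ 0)
    (φ : GaloisField q l →+* Module.End (ZMod q) V) (N : Subgroup G)
    (h : ∀ n ∈ N, ∃ k, ∀ v, ρ n v = φ k v) : Nat.card N ∣ q ^ l - 1 := by
  classical
  obtain ⟨κ, hκ, -⟩ := scal_hom ρ hρ φ N h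
  have h1 := Subgroup.card_dvd_of_injective κ hκ
  have : Fintype (GaloisField q l) := Fintype.ofFinite _
  have h2 : Nat.card (GaloisField q l)ˣ = q ^ l - 1 := by
    rw [Nat.card_eq_fintype_card, Fintype.card_units, ← Nat.card_eq_fintype_card,
      GaloisField.card q l hl]
  rwa [h2] at h1

theorem mem_range_of_mem (ρ : G →* (V ≃ₗ[ZMod q] V)) {N : Subgroup G} {l : ℕ}
    {φ : GaloisField q l →+* Module.End (ZMod q) V}
    (hφ : Set.range φ = (adj ρ N : Set (Module.End (ZMod q) V))) :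
    ∀ n ∈ N, ∃ k, ∀ v, ρ n v = φ k v := by
  intro n hn
  have h2 : (ρ n : V →ₗ[ZMod q] V) ∈ (adj ρ N : Set (Module.End (ZMod q) V)) := mem_adj ρ N hn
  rw [← hφ] at h2
  obtain ⟨k, hk⟩ := h2
  exact ⟨k, fun v => by rw [hk]; rfl⟩

theorem fit_nonab (hsol : Group.IsSolvable G) (ρ : G →* (V ≃ₗ[ZMod q] V))
    (hρ : Function.Injective ρ)
    (htrans : ∀ v w : V, v ≠ 0 → w ≠ 0 → ∃ g : G, ρ g v = w) (hns : ¬ Semi ρ) :
    ¬ ∀ a ∈ fittingSubgroup G, ∀ b ∈ fittingSubgroup G, a * b = b * a := by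
  classical
  intro hab
  have : Module.Finite (ZMod q) V := Module.Finite.of_finite
  have hpos : 0 < finrank (ZMod q) V := Module.finrank_pos
  obtain ⟨l, φ, hl, hφ, hsemi, d, hd⟩ := normal_field ρ htrans (fittingSubgroup G)
    (H1.fitting_normal G) hab
  have hd2 : 2 ≤ d := by
    by_contra hcon
    have : d = 0 ∨ d = 1 := by omega
    rcases this with rfl | rfl
    · omega
    · exact hns (hsemi (by omega))
  have hmem := mem_range_of_mem ρ hφ
  obtain ⟨κ, hκ, -⟩ := scal_hom ρ hρ φ (fittingSubgroup G) hmem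
  have hcard := scal_card ρ hρ hl φ (fittingSubgroup G) hmem
  have hq1 : 1 < q := (Fact.out : q.Prime).one_lt
  have hql : 1 ≤ q ^ l - 1 := by
    have : q ^ 1 ≤ q ^ l := Nat.pow_le_pow_right (by omega) (by omega)
    rw [pow_one] at this
    omega
  have hle : Nat.card (fittingSubgroup G) ≤ q ^ l - 1 := Nat.le_of_dvd (by omega) hcard
  have hcyc : IsCyclic (fittingSubgroup G) := by
    apply isCyclic_of_subgroup_isDomain ((Units.coeHom (GaloisField q l)).comp κ)
    intro a b h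
    exact hκ (Units.ext h)
  obtain ⟨f0, hf0⟩ := hcyc.exists_generator
  have hidx : (fittingSubgroup G).relIndex ⊤ ≤
      (Set.toFinite (fittingSubgroup G : Set G)).toFinset.card := by
    apply relIndex_le (fun g : G => g * (f0 : G) * g⁻¹)
    · intro g _
      rw [Set.Finite.mem_toFinset]
      exact (H1.fitting_normal G).conj_mem f0 f0.2 g
    · intro g _ g' _ hgg
      apply H1.centralizer_fitting_le hsol
      rw [Subgroup.mem_centralizer_iff]
      have h0 : Commute (g⁻¹ * g') (f0 : G) := by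
        have hgg' : g * f0 * g⁻¹ = g' * f0 * g'⁻¹ := hgg
        change g⁻¹ * g' * f0 = f0 * (g⁻¹ * g')
        calc g⁻¹ * g' * f0 = g⁻¹ * (g' * f0 * g'⁻¹) * g' := by group
          _ = g⁻¹ * (g * f0 * g⁻¹) * g' := by rw [hgg']
          _ = f0 * (g⁻¹ * g') := by group
      intro r hr
      obtain ⟨j, hj⟩ := Subgroup.mem_zpowers_iff.mp (hf0 ⟨r, hr⟩)
      have hj' : (f0 : G) ^ j = r := congrArg Subtype.val hj
      rw [← hj']
      exact (h0.zpow_right j).eq.symm
  have hTc : (Set.toFinite (fittingSubgroup G : Set G)).toFinset.card = Nat.card (fittingSubgroup G) := by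
    rw [← Set.ncard_eq_toFinset_card]; rfl
  rw [hTc, Subgroup.relIndex_top_right] at hidx
  have hG : Nat.card G ≤ (q ^ l - 1) * (q ^ l - 1) := by
    rw [← Subgroup.card_mul_index (fittingSubgroup G)]
    exact Nat.mul_le_mul hle (hidx.trans hle)
  have hG2 := Nat.le_of_dvd Nat.card_pos (dvd_card ρ htrans)
  have h3 : q ^ (l * 2) ≤ q ^ finrank (ZMod q) V := by
    rw [hd]; exact Nat.pow_le_pow_right (by omega) (Nat.mul_le_mul_left _ hd2)
  rw [pow_mul] at h3
  obtain ⟨u, hu⟩ : ∃ u, q ^ l = u + 1 := ⟨q ^ l - 1, by omega⟩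
  rw [hu] at h3 hG hql
  rw [Nat.add_sub_cancel] at hG hql
  have h4 : (u + 1) ^ 2 = u * u + 2 * u + 1 := by ring
  rw [h4] at h3
  generalize q ^ finrank (ZMod q) V = Q at *
  generalize u * u = U at *
  omega

/-- basic data -/
theorem setup (hsol : Group.IsSolvable G) (ρ : G →* (V ≃ₗ[ZMod q] V))
    (hρ : Function.Injective ρ)
    (htrans : ∀ v w : V, v ≠ 0 → w ≠ 0 → ∃ g : G, ρ g v = w) (hns : ¬ Semi ρ) :
    ∃ (p : ℕ) (P Z E : Subgroup G), p.Prime ∧ p ≠ q ∧ P.Normal ∧ IsPGroup p P ∧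
      Z = P ⊓ Subgroup.centralizer (P : Set G) ∧ Z.Normal ∧ Z ≠ ⊥ ∧ E.Normal ∧ Z < E ∧ E ≤ P ∧
      ⁅E, E⁆ ≤ Z := by
  classical
  have h1 := fit_nonab hsol ρ hρ htrans hns
  have h2 : ∃ p : ℕ, p.Prime ∧ ¬ ∀ a ∈ pCore p G, ∀ b ∈ pCore p G, a * b = b * a := by
    by_contra hcon
    push Not at hcon
    exact h1 (fit_abelian (fun p hp => hcon p hp))
  obtain ⟨p, hp, hna⟩ := h2
  have hFp : Fact p.Prime := ⟨hp⟩
  have hPn := H1.pCore_normal p G
  have hPp := H1.pCore_isPGroup p G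
  have hpq : p ≠ q := by
    rintro rfl
    have h3 := q_core ρ hρ htrans _ hPn hPp
    apply hna
    intro a ha b hb
    rw [h3, Subgroup.mem_bot] at ha hb
    rw [ha, hb]
  have hCn : (Subgroup.centralizer (pCore p G : Set G)).Normal := inferInstance
  have hZn : (pCore p G ⊓ Subgroup.centralizer (pCore p G : Set G)).Normal := inferInstance
  have hlt : pCore p G ⊓ Subgroup.centralizer (pCore p G : Set G) < pCore p G := by
    refine lt_of_le_of_ne inf_le_left fun h => hna ?_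
    intro a ha b hb
    rw [← h] at hb
    exact Subgroup.mem_centralizer_iff.mp hb.2 a ha
  obtain ⟨E, hEn, hZE, hEP, hch⟩ := H1.exists_chief_above hPn hlt
  obtain ⟨h4, -⟩ := H1.chief_factor_solvable hZn hEn hZE hch inferInstance
  refine ⟨p, pCore p G, _, E, hp, hpq, hPn, hPp, rfl, hZn, ?_, hEn, hZE, hEP, h4⟩
  have hnt : Nontrivial (pCore p G) := by
    rw [Subgroup.nontrivial_iff_ne_bot]
    intro hb
    rw [hb] at hlt
    exact not_lt_bot hlt
  have hcnt := hPp.center_nontrivial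
  obtain ⟨z, hz⟩ := exists_ne (1 : Subgroup.center (pCore p G))
  intro hbot
  apply hz
  apply Subtype.ext
  apply Subtype.ext
  have h5 : (((z : pCore p G)) : G) ∈ pCore p G ⊓ Subgroup.centralizer (pCore p G : Set G) := by
    refine ⟨(z : pCore p G).2, Subgroup.mem_centralizer_iff.mpr ?_⟩
    intro r hr
    exact congrArg Subtype.val (Subgroup.mem_center_iff.mp z.2 ⟨r, hr⟩)
  rw [hbot, Subgroup.mem_bot] at h5
  exact h5

end Small

end Cfsg.Agent.H11.Hup
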