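import Mathlib
import Cfsg.Agent.H11.Hup8

set_option autoImplicit false

namespace Cfsg.Agent.H11.Hup

open Module Cfsg
open scoped commutatorElement

section Small
variable {q : ℕ} [Fact q.Prime] {V : Type*} [AddCommGroup V] [Module (ZMod q) V] [Finite V]
  [Nontrivial V] {G : Type*} [Group G] [Finite G]

theorem hcommρ' (ρ : G →* (V ≃ₗ[ZMod q] V)) (a b : G) (hab : a * b = b * a) (v : V) :
    ρ a (ρ b v) = ρ b (ρ a v) := by
  have : ρ (a * b) v = ρ (b * a) v := by rw [hab]
  rw [map_mul, map_mul] at this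
  exact this

/-- number of elements of a subgroup centralised -/
theorem fix_card {s : ℕ} (hs : s.Prime) (x : G) (hx : x ^ s = 1) (E : Subgroup G)
    (hE : E.Normal) : Nat.card E ≡ Nat.card ↥(E ⊓ Subgroup.centralizer ({x} : Set G)) [MOD s] := by
  classical
  have : Fact s.Prime := ⟨hs⟩
  have hP : IsPGroup s (Subgroup.zpowers x) := by
    intro ⟨g, hg⟩
    refine ⟨1, ?_⟩
    obtain ⟨k, rfl⟩ := Subgroup.mem_zpowers_iff.mp hg
    apply Subtype.ext
    change (x ^ k) ^ (s ^ 1) = 1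
    rw [pow_one, ← zpow_natCast, ← zpow_mul, mul_comm, zpow_mul, zpow_natCast, hx, one_zpow]
  letI act : MulAction (Subgroup.zpowers x) E :=
    { smul := fun g w => ⟨(g : G) * w * (g : G)⁻¹, hE.conj_mem w w.2 g⟩
      one_smul := fun w => Subtype.ext (by
        change ((1 : Subgroup.zpowers x) : G) * w * ((1 : Subgroup.zpowers x) : G)⁻¹ = w
        simp)
      mul_smul := fun a b w => Subtype.ext (by
        change ((a * b : Subgroup.zpowers x) : G) * w * ((a * b : Subgroup.zpowers x) : G)⁻¹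
          = (a : G) * ((b : G) * w * (b : G)⁻¹) * (a : G)⁻¹
        rw [Subgroup.coe_mul]; group) }
  have h := hP.card_modEq_card_fixedPoints E
  suffices hcc : Nat.card (MulAction.fixedPoints (Subgroup.zpowers x) E)
      = Nat.card ↥(E ⊓ Subgroup.centralizer ({x} : Set G)) by
    rw [hcc] at h; exact h
  apply Nat.card_congr
  refine ⟨fun w => ⟨(w : E), ⟨(w : E).2, Subgroup.mem_centralizer_iff.mpr ?_⟩⟩,
    fun w => ⟨⟨w, w.2.1⟩, ?_⟩, ?_, ?_⟩
  · rintro _ rfl
    have h1 := w.2 ⟨_, Subgroup.mem_zpowers _⟩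
    have h2 : _ * ((w : E) : G) * _ = ((w : E) : G) := congrArg Subtype.val h1
    rw [mul_inv_eq_iff_eq_mul] at h2
    exact h2
  · rintro ⟨g, hg⟩
    apply Subtype.ext
    change g * (w : G) * g⁻¹ = w
    have h3 : Commute x (w : G) := Subgroup.mem_centralizer_iff.mp w.2.2 x rfl
    obtain ⟨k, rfl⟩ := Subgroup.mem_zpowers_iff.mp hg
    rw [mul_inv_eq_iff_eq_mul]
    exact (h3.zpow_left k).eq
  · intro w; rfl
  · intro w; rfl

theorem case6 (hsol : Group.IsSolvable G) (ρ : G →* (V ≃ₗ[ZMod q] V))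
    (hρ : Function.Injective ρ)
    (htrans : ∀ v w : V, v ≠ 0 → w ≠ 0 → ∃ g : G, ρ g v = w) (hns : ¬ Semi ρ) (hq : q = 2)
    (hn : finrank (ZMod q) V = 6) : False := by
  classical
  obtain ⟨p, P, Z, E, hp, hpq, hPn, hPp, hZ, hZn, hZ1, hEn, hZE, hEP, hEE⟩ :=
    setup hsol ρ hρ htrans hns
  have hFp : Fact p.Prime := ⟨hp⟩
  -- normal abelian subgroups
  have hnab : ∀ N : Subgroup G, N.Normal → (∀ a ∈ N, ∀ b ∈ N, a * b = b * a) →
      ∃ (l : ℕ) (φ : GaloisField q l →+* Module.End (ZMod q) V), l ≠ 0 ∧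
      Set.range φ = (adj ρ N : Set (Module.End (ZMod q) V)) ∧ (l = 1 ∨ l = 2 ∨ l = 3) ∧
      (∃ d, 6 = l * d) ∧ Nat.card N ∣ q ^ l - 1 := by
    intro N hN hNc
    obtain ⟨l, φ, hl, hφ, hsemi, d, hd⟩ := normal_field ρ htrans N hN hNc
    rw [hn] at hd hsemi
    have hl6 : l ≠ 6 := fun h => hns (hsemi h)
    have hdvd : l ∣ 6 := Dvd.intro d hd.symm
    have hle : l ≤ 6 := Nat.le_of_dvd (by norm_num) hdvd
    refine ⟨l, φ, hl, hφ, ?_, ⟨d, hd⟩, scal_card ρ hρ hl φ N (mem_range_of_mem ρ hφ)⟩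
    interval_cases l <;> omega
  have hZc : ∀ a ∈ Z, ∀ b ∈ Z, a * b = b * a := by
    intro a ha b hb
    rw [hZ] at ha hb
    exact Subgroup.mem_centralizer_iff.mp hb.2 a ha.1
  obtain ⟨l, φ, hl, hφ, hl123, ⟨d0, hd0⟩, hZcard⟩ := hnab Z hZn hZc
  have hZ1' : Nat.card Z ≠ 1 := fun h => hZ1 (Subgroup.card_eq_one.mp h)
  have hZE' : Z ≤ E := hZE.le
  -- ZE
  have hZEn : (E ⊓ Subgroup.centralizer (E : Set G)).Normal := inferInstance
  have hZEc : ∀ a ∈ E ⊓ Subgroup.centralizer (E : Set G), ∀ b ∈ E ⊓ Subgroup.centralizer (E : Set G),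
      a * b = b * a := by
    intro a ha b hb
    exact Subgroup.mem_centralizer_iff.mp hb.2 a ha.1
  have hZle : Z ≤ E ⊓ Subgroup.centralizer (E : Set G) := by
    refine le_inf hZE' ?_
    intro z hz
    rw [hZ] at hz
    rw [Subgroup.mem_centralizer_iff]
    intro e he
    exact Subgroup.mem_centralizer_iff.mp hz.2 e (hEP he)
  obtain ⟨l', φ', hl', hφ', hl123', -, hZEcard⟩ := hnab _ hZEn hZEc
  have hZdvd : Nat.card Z ∣ Nat.card ↥(E ⊓ Subgroup.centralizer (E : Set G)) :=
    Subgroup.card_dvd_of_le hZle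
  have h7p : Nat.Prime 7 := by norm_num
  -- orders
  have hc1 : (l = 2 ∧ Nat.card Z = 3) ∨ (l = 3 ∧ Nat.card Z = 7) := by
    subst hq
    rcases hl123 with rfl | rfl | rfl
    · norm_num at hZcard
      exact absurd hZcard hZ1
    · norm_num at hZcard
      rcases (Nat.dvd_prime Nat.prime_three).mp hZcard with h | h
      · exact absurd h hZ1'
      · exact Or.inl ⟨rfl, h⟩
    · norm_num at hZcard
      rcases (Nat.dvd_prime h7p).mp hZcard with h | h
      · exact absurd h hZ1'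
      · exact Or.inr ⟨rfl, h⟩
  have hZZE : Z = E ⊓ Subgroup.centralizer (E : Set G) := by
    apply Subgroup.eq_of_le_of_card_ge hZle
    subst hq
    generalize Nat.card ↥(E ⊓ Subgroup.centralizer (E : Set G)) = c at *
    rcases hl123' with rfl | rfl | rfl
    · norm_num at hZEcard
      rw [hZEcard]
      omega
    · norm_num at hZEcard
      rcases (Nat.dvd_prime Nat.prime_three).mp hZEcard with h | h <;> rcases hc1 with ⟨_, h1⟩ | ⟨_, h1⟩ <;>
        omega
    · norm_num at hZEcard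
      rcases (Nat.dvd_prime h7p).mp hZEcard with h | h
      · omega
      · rcases hc1 with ⟨_, h1⟩ | ⟨_, h1⟩
        · rw [h1, h] at hZdvd; omega
        · omega
  have hφm : ∀ k, φ k ∈ adj ρ Z := by
    intro k
    have : φ k ∈ (adj ρ Z : Set (Module.End (ZMod q) V)) := by rw [← hφ]; exact ⟨k, rfl⟩
    exact this
  have hcmφ : ∀ g : G, (∀ z ∈ Z, g * z = z * g) → ∀ k v, ρ g (φ k v) = φ k (ρ g v) := by
    intro g hg k v
    have h1 := adj_commutes ρ Z (ρ g : V →ₗ[ZMod q] V) (fun z hz w => hcommρ' ρ g z (hg z hz) w)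
      (φ k) (hφm k)
    exact LinearMap.congr_fun h1 v
  obtain ⟨m, d, hnd, hm, hmd, hfull⟩ := ext2 ρ hρ E hl φ (by
    intro k r hr v
    apply hcmφ
    intro z hz
    rw [hZ] at hz
    exact Subgroup.mem_centralizer_iff.mp hz.2 r (hEP hr)) (by
    intro a ha b hb
    exact mem_range_of_mem ρ hφ _ (hEE (Subgroup.commutator_mem_commutator ha hb)))
  rw [← hZZE] at hm
  rw [hn] at hnd
  have hcardE : Nat.card E = Nat.card Z * m ^ 2 := by
    rw [← hm]
    have h1 := Subgroup.relIndex_mul_relIndex (⊥ : Subgroup G) Z E bot_le hZE'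
    rw [Subgroup.relIndex_bot_left, Subgroup.relIndex_bot_left] at h1
    exact h1.symm
  have hEpos : 0 < Nat.card E := Nat.card_pos
  have hm0 : m ≠ 0 := by
    rintro rfl
    rw [hcardE] at hEpos
    simp at hEpos
  have hm1 : m ≠ 1 := by
    rintro rfl
    rw [one_pow, Subgroup.relIndex_eq_one] at hm
    exact hZE.not_ge hm
  obtain ⟨je, hje⟩ := IsPGroup.iff_card.mp (hPp.to_le hEP)
  obtain ⟨k, hk⟩ : ∃ k, m = p ^ k := by
    have hd : m ∣ p ^ je := by
      rw [← hje, hcardE, sq]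
      exact Dvd.intro_left (Nat.card Z * m) (by ring)
    obtain ⟨k, _, hk⟩ := (Nat.dvd_prime_pow hp).mp hd
    exact ⟨k, hk⟩
  have hk0 : k ≠ 0 := by
    rintro rfl
    exact hm1 (by rw [hk, pow_zero])
  have hpm : p ≤ m := by
    rw [hk]
    exact Nat.le_self_pow hk0 p
  have hpZ : Nat.card Z ∣ p ^ je := by
    rw [← hje]
    exact Subgroup.card_dvd_of_le hZE'
  have hmain : l = 2 ∧ Nat.card Z = 3 ∧ m = 3 ∧ m = d := by
    rcases hc1 with ⟨rfl, h1⟩ | ⟨rfl, h1⟩
    · rw [h1] at hpZ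
      have hp3 : p = 3 := ((Nat.prime_dvd_prime_iff_eq Nat.prime_three hp).mp
        (Nat.prime_three.dvd_of_dvd_pow hpZ)).symm
      subst hp3
      exact ⟨rfl, h1, by omega, by omega⟩
    · rw [h1] at hpZ
      have hp7 : p = 7 := ((Nat.prime_dvd_prime_iff_eq h7p hp).mp
        (h7p.dvd_of_dvd_pow hpZ)).symm
      omega
  obtain ⟨hl2, hZ3, hm3, hmd'⟩ := hmain
  have hE27 : Nat.card E = 27 := by rw [hcardE, hZ3, hm3]; norm_num
  -- an element of order 7
  have hdG := dvd_card ρ htrans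
  rw [hn] at hdG
  have h7G : 7 ∣ Nat.card G := by
    refine Dvd.dvd.trans ?_ hdG
    rw [hq]; norm_num
  have hF7 : Fact (Nat.Prime 7) := ⟨h7p⟩
  obtain ⟨x, hx⟩ := exists_prime_orderOf_dvd_card' 7 h7G
  have hx7 : x ^ 7 = 1 := orderOf_dvd_iff_pow_eq_one.mp hx.dvd
  have hfix := fix_card h7p x hx7 E hEn
  have hEx : E ≤ Subgroup.centralizer ({x} : Set G) := by
    have hd : Nat.card ↥(E ⊓ Subgroup.centralizer ({x} : Set G)) ∣ 3 ^ 3 := by
      have : Nat.card ↥(E ⊓ Subgroup.centralizer ({x} : Set G)) ∣ Nat.card E :=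
        Subgroup.card_dvd_of_le inf_le_left
      rw [hE27] at this
      exact this
    obtain ⟨i, hi, hi2⟩ := (Nat.dvd_prime_pow Nat.prime_three).mp hd
    rw [hE27, hi2] at hfix
    have hi3 : i = 3 := by
      interval_cases i
      · exact absurd hfix (by decide)
      · exact absurd hfix (by decide)
      · exact absurd hfix (by decide)
      · rfl
    have : E ⊓ Subgroup.centralizer ({x} : Set G) = E := by
      apply Subgroup.eq_of_le_of_card_ge inf_le_left
      rw [hi2, hi3, hE27]; norm_num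
    exact inf_eq_left.mp this
  have hxE : ∀ e ∈ E, x * e = e * x := fun e he =>
    Subgroup.mem_centralizer_iff.mp (hEx he) x rfl
  obtain ⟨kx, hkx⟩ := hfull hmd' (ρ x : V →ₗ[ZMod q] V)
    (fun k v => hcmφ x (fun z hz => hxE z (hZE' hz)) k v)
    (fun r hr v => hcommρ' ρ x r (hxE r hr) v)
  have hxz : Nat.card (Subgroup.zpowers x) ∣ q ^ l - 1 := by
    apply scal_card ρ hρ hl φ
    intro y hy
    have hfin : IsOfFinOrder x := isOfFinOrder_of_finite x
    rw [hfin.mem_zpowers_iff_mem_range_orderOf] at hy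
    simp only [Finset.mem_image, Finset.mem_range] at hy
    obtain ⟨i, _, rfl⟩ := hy
    clear * - hkx
    induction i with
    | zero => exact ⟨1, fun v => by rw [pow_zero, map_one, map_one]; rfl⟩
    | succ i ih =>
      obtain ⟨k, hk⟩ := ih
      refine ⟨k * kx, fun v => ?_⟩
      rw [pow_succ, map_mul, map_mul]
      change ρ (x ^ i) (ρ x v) = φ k (φ kx v)
      rw [← hkx, hk]; rfl
  rw [Nat.card_zpowers, hx, hl2, hq] at hxz
  norm_num at hxz

theorem scal_field : ∃ φ : GaloisField q 1 →+* Module.End (ZMod q) V,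
    (∀ k, ∃ c : ZMod q, ∀ v, φ k v = c • v) ∧ ∀ c : ZMod q, ∃ k, ∀ v, φ k v = c • v := by
  classical
  obtain ⟨l, φ, hl, hφ⟩ := exists_gf (⊥ : Subalgebra (ZMod q) (Module.End (ZMod q) V)) (by
    intro a ha b hb
    rw [Algebra.mem_bot] at ha
    obtain ⟨c, rfl⟩ := ha
    exact Algebra.commutes c b) (by
    intro a ha ha0 v hv
    rw [Algebra.mem_bot] at ha
    obtain ⟨c, rfl⟩ := ha
    rw [Module.algebraMap_end_apply] at hv
    rcases smul_eq_zero.mp hv with h | h
    · exfalso; apply ha0; rw [h, map_zero]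
    · exact h)
  have h1 : ∀ k, ∃ c : ZMod q, ∀ v, φ k v = c • v := by
    intro k
    have : φ k ∈ ((⊥ : Subalgebra (ZMod q) (Module.End (ZMod q) V)) : Set (Module.End (ZMod q) V)) := by
      rw [← hφ]; exact ⟨k, rfl⟩
    obtain ⟨c, hc⟩ := Algebra.mem_bot.mp this
    exact ⟨c, fun v => by rw [← hc, Module.algebraMap_end_apply]⟩
  have h2 : ∀ c : ZMod q, ∃ k, ∀ v, φ k v = c • v := by
    intro c
    have : algebraMap (ZMod q) (Module.End (ZMod q) V) c ∈ Set.range φ := by
      rw [hφ]; exact Subalgebra.algebraMap_mem _ c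
    obtain ⟨k, hk⟩ := this
    exact ⟨k, fun v => by rw [hk, Module.algebraMap_end_apply]⟩
  have hl1 : l = 1 := by
    choose c hc using h1
    have hinj : Function.Injective c := by
      intro a b hab
      apply φ.injective
      ext v
      rw [hc, hc, hab]
    have := Nat.card_le_card_of_injective c hinj
    rw [GaloisField.card q l hl, Nat.card_zmod] at this
    have h3 : q ^ l ≤ q ^ 1 := by rwa [pow_one]
    have := (Nat.pow_le_pow_iff_right (Fact.out : q.Prime).one_lt).mp h3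
    omega
  subst hl1
  exact ⟨φ, h1, h2⟩

theorem scal_of_one (ρ : G →* (V ≃ₗ[ZMod q] V)) {N : Subgroup G}
    {φ : GaloisField q 1 →+* Module.End (ZMod q) V}
    (hφ : Set.range φ = (adj ρ N : Set (Module.End (ZMod q) V))) :
    ∀ n ∈ N, ∃ c : ZMod q, ∀ v, ρ n v = c • v := by
  classical
  intro n hn
  have hfE : Finite (Module.End (ZMod q) V) := by
    have : Module.Finite (ZMod q) V := Module.Finite.of_finite
    exact Module.finite_of_finite (ZMod q)
  have hinj : Function.Injective (algebraMap (ZMod q) (Module.End (ZMod q) V)) :=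
    FaithfulSMul.algebraMap_injective _ _
  have h1 : Set.range (algebraMap (ZMod q) (Module.End (ZMod q) V)) = Set.range φ := by
    apply Set.eq_of_subset_of_ncard_le
    · rw [hφ]
      rintro _ ⟨c, rfl⟩
      exact Subalgebra.algebraMap_mem _ c
    · rw [← Set.image_univ, ← Set.image_univ, Set.ncard_image_of_injective _ hinj,
        Set.ncard_image_of_injective _ φ.injective, Set.ncard_univ, Set.ncard_univ, Nat.card_zmod,
        GaloisField.card q 1 one_ne_zero, pow_one]
    · exact Set.toFinite _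
  obtain ⟨k, hk⟩ := mem_range_of_mem ρ hφ n hn
  have : φ k ∈ Set.range (algebraMap (ZMod q) (Module.End (ZMod q) V)) := by rw [h1]; exact ⟨k, rfl⟩
  obtain ⟨c, hc⟩ := this
  exact ⟨c, fun v => by rw [hk, ← hc, Module.algebraMap_end_apply]⟩

end Small

end Cfsg.Agent.H11.Hup
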