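import Mathlib
import Cfsg.Agent.H11.Hup9

set_option autoImplicit false

namespace Cfsg.Agent.H11.Hup

open Module Cfsg
open scoped commutatorElement

section Small
variable {q : ℕ} [Fact q.Prime] {V : Type*} [AddCommGroup V] [Module (ZMod q) V] [Finite V]
  [Nontrivial V] {G : Type*} [Group G] [Finite G]

theorem case2 (hsol : Group.IsSolvable G) (ρ : G →* (V ≃ₗ[ZMod q] V))
    (hρ : Function.Injective ρ)
    (htrans : ∀ v w : V, v ≠ 0 → w ≠ 0 → ∃ g : G, ρ g v = w) (hns : ¬ Semi ρ)
    (hn : finrank (ZMod q) V = 2) : q = 3 ∨ q = 5 ∨ q = 7 ∨ q = 11 ∨ q = 23 := by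
  classical
  obtain ⟨p, P, Z, E, hp, hpq, hPn, hPp, hZ, hZn, hZ1, hEn, hZE, hEP, hEE⟩ :=
    setup hsol ρ hρ htrans hns
  have hFp : Fact p.Prime := ⟨hp⟩
  obtain ⟨v0, hv0⟩ := exists_ne (0 : V)
  have hscal : ∀ N : Subgroup G, N.Normal → (∀ a ∈ N, ∀ b ∈ N, a * b = b * a) →
      ∀ n ∈ N, ∃ c : ZMod q, ∀ v, ρ n v = c • v := by
    intro N hN hNc
    obtain ⟨l, φ, hl, hφ, hsemi, d, hd⟩ := normal_field ρ htrans N hN hNc
    rw [hn] at hd hsemi
    have hl2 : l ≠ 2 := fun h => hns (hsemi h)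
    have hdvd : l ∣ 2 := Dvd.intro d hd.symm
    have hle : l ≤ 2 := Nat.le_of_dvd (by norm_num) hdvd
    have hl1 : l = 1 := by omega
    subst hl1
    exact scal_of_one ρ hφ
  have hcentral : ∀ z : G, (∃ c : ZMod q, ∀ v, ρ z v = c • v) → ∀ g : G, z * g = g * z := by
    rintro z ⟨c, hc⟩ g
    apply hρ
    ext v
    rw [map_mul, map_mul]
    change ρ z (ρ g v) = ρ g (ρ z v)
    rw [hc, hc, map_smul]
  have hZc : ∀ a ∈ Z, ∀ b ∈ Z, a * b = b * a := by
    intro a ha b hb
    rw [hZ] at ha hb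
    exact Subgroup.mem_centralizer_iff.mp hb.2 a ha.1
  have hZs := hscal Z hZn hZc
  have hZcen : ∀ z ∈ Z, ∀ g : G, z * g = g * z := fun z hz => hcentral z (hZs z hz)
  have hZE' : Z ≤ E := hZE.le
  have hZEn : (E ⊓ Subgroup.centralizer (E : Set G)).Normal := inferInstance
  have hZEc : ∀ a ∈ E ⊓ Subgroup.centralizer (E : Set G), ∀ b ∈ E ⊓ Subgroup.centralizer (E : Set G),
      a * b = b * a := by
    intro a ha b hb
    exact Subgroup.mem_centralizer_iff.mp hb.2 a ha.1
  have hZZE : Z = E ⊓ Subgroup.centralizer (E : Set G) := by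
    apply le_antisymm
    · refine le_inf hZE' ?_
      intro z hz
      rw [Subgroup.mem_centralizer_iff]
      intro e _
      exact (hZcen z hz e).symm
    · intro z hz
      have h1 := hcentral z (hscal _ hZEn hZEc z hz)
      rw [hZ]
      refine ⟨hEP hz.1, Subgroup.mem_centralizer_iff.mpr ?_⟩
      intro e _
      exact (h1 e).symm
  obtain ⟨φ, hφ1, hφ2⟩ := scal_field (q := q) (V := V)
  have hφc : ∀ k (α : Module.End (ZMod q) V) v, α (φ k v) = φ k (α v) := by
    intro k α v
    obtain ⟨c, hc⟩ := hφ1 k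
    rw [hc, hc, map_smul]
  obtain ⟨m, d, hnd, hm, hmd, hfull⟩ := ext2 ρ hρ E one_ne_zero φ
    (fun k r _ v => hφc k (ρ r : V →ₗ[ZMod q] V) v) (by
    intro a ha b hb
    obtain ⟨c, hc⟩ := hZs _ (hEE (Subgroup.commutator_mem_commutator ha hb))
    obtain ⟨k, hk⟩ := hφ2 c
    exact ⟨k, fun v => by rw [hc, hk]⟩)
  rw [← hZZE] at hm
  rw [hn] at hnd
  have hcardE : Nat.card E = Nat.card Z * m ^ 2 := by
    rw [← hm]
    have h1 := Subgroup.relIndex_mul_relIndex (⊥ : Subgroup G) Z E bot_le hZE'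
    rw [Subgroup.relIndex_bot_left, Subgroup.relIndex_bot_left] at h1
    exact h1.symm
  have hEpos : 0 < Nat.card E := Nat.card_pos
  have hm0 : m ≠ 0 := by
    rintro rfl
    rw [hcardE] at hEpos
    simp at hEpos
  have hm1 : m ≠ 1 := by
    rintro rfl
    rw [one_pow, Subgroup.relIndex_eq_one] at hm
    exact hZE.not_ge hm
  have hm2 : m = 2 := by omega
  have hd2 : d = 2 := by omega
  subst hm2
  -- p = 2
  have hp2 : p = 2 := by
    obtain ⟨je, hje⟩ := IsPGroup.iff_card.mp (hPp.to_le hEP)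
    have h2 : 2 ∣ p ^ je := by
      rw [← hje, hcardE]
      exact Dvd.dvd.mul_left (by norm_num) _
    exact ((Nat.prime_dvd_prime_iff_eq Nat.prime_two hp).mp (Nat.prime_two.dvd_of_dvd_pow h2)).symm
  have hq2 : q ≠ 2 := by rw [← hp2]; exact hpq.symm
  -- a, b
  obtain ⟨a, haE, haZ⟩ := SetLike.exists_of_lt hZE
  obtain ⟨b, hbE, hab⟩ : ∃ b ∈ E, a * b ≠ b * a := by
    by_contra hcon
    push Not at hcon
    apply haZ
    rw [hZZE]
    refine ⟨haE, Subgroup.mem_centralizer_iff.mpr ?_⟩
    intro e he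
    exact (hcon e he).symm
  let C := E ⊓ Subgroup.centralizer ({a} : Set G)
  have hCmem : ∀ c, c ∈ C ↔ c ∈ E ∧ a * c = c * a := by
    intro c
    constructor
    · rintro ⟨h1, h2⟩
      exact ⟨h1, Subgroup.mem_centralizer_iff.mp h2 a rfl⟩
    · rintro ⟨h1, h2⟩
      refine ⟨h1, Subgroup.mem_centralizer_iff.mpr ?_⟩
      rintro _ rfl
      exact h2
  have haC : a ∈ C := (hCmem a).mpr ⟨haE, rfl⟩
  have hbC : b ∉ C := fun h => hab ((hCmem b).mp h).2
  have hZC : Z ≤ C := fun z hz => (hCmem z).mpr ⟨hZE' hz, (hZcen z hz a).symm⟩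
  have hbZ : b ∉ Z := fun h => hbC (hZC h)
  have hCE : C ≤ E := inf_le_left
  have hmulidx := Subgroup.relIndex_mul_relIndex Z C E hZC hCE
  rw [hm] at hmulidx
  have hne1 : Z.relIndex C ≠ 1 := by
    intro h
    rw [Subgroup.relIndex_eq_one] at h
    exact haZ (h haC)
  have hne2 : C.relIndex E ≠ 1 := by
    intro h
    rw [Subgroup.relIndex_eq_one] at h
    exact hbC (h hbE)
  have h22 : Z.relIndex C = 2 ∧ C.relIndex E = 2 := by
    have hd1 : Z.relIndex C ∣ 4 := Dvd.intro _ hmulidx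
    have hle1 := Nat.le_of_dvd (by norm_num) hd1
    generalize Z.relIndex C = u at *
    generalize C.relIndex E = w at *
    interval_cases u <;> omega
  -- the four cosets
  have hCco : ∀ c ∈ C, c ∈ Z ∨ a⁻¹ * c ∈ Z := by
    intro c hc
    by_cases hcZ : c ∈ Z
    · exact Or.inl hcZ
    · right
      have h1 := Subgroup.mul_mem_iff_of_index_two (H := Z.subgroupOf C) h22.1
        (a := (⟨a, haC⟩ : C)⁻¹) (b := ⟨c, hc⟩)
      have h2 : ((⟨a, haC⟩ : C)⁻¹ ∈ Z.subgroupOf C ↔ (⟨c, hc⟩ : C) ∈ Z.subgroupOf C) := by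
        rw [inv_mem_iff, Subgroup.mem_subgroupOf, Subgroup.mem_subgroupOf]
        exact ⟨fun h => absurd h haZ, fun h => absurd h hcZ⟩
      exact h1.mpr h2
  have hEco : ∀ e ∈ E, e ∈ C ∨ b⁻¹ * e ∈ C := by
    intro c hc
    by_cases hcZ : c ∈ C
    · exact Or.inl hcZ
    · right
      have h1 := Subgroup.mul_mem_iff_of_index_two (H := C.subgroupOf E) h22.2
        (a := (⟨b, hbE⟩ : E)⁻¹) (b := ⟨c, hc⟩)
      have h2 : ((⟨b, hbE⟩ : E)⁻¹ ∈ C.subgroupOf E ↔ (⟨c, hc⟩ : E) ∈ C.subgroupOf E) := by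
        rw [inv_mem_iff, Subgroup.mem_subgroupOf, Subgroup.mem_subgroupOf]
        exact ⟨fun h => absurd h hbC, fun h => absurd h hcZ⟩
      exact h1.mpr h2
  have h4co : ∀ e ∈ E, e ∈ Z ∨ a⁻¹ * e ∈ Z ∨ b⁻¹ * e ∈ Z ∨ a⁻¹ * (b⁻¹ * e) ∈ Z := by
    intro e he
    rcases hEco e he with h | h
    · rcases hCco e h with h' | h'
      · exact Or.inl h'
      · exact Or.inr (Or.inl h')
    · rcases hCco _ h with h' | h'
      · exact Or.inr (Or.inr (Or.inl h'))
      · exact Or.inr (Or.inr (Or.inr h'))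
  have haa : a * a ∈ Z := by
    rcases hCco (a * a) (mul_mem haC haC) with h | h
    · exact h
    · rw [inv_mul_cancel_left] at h; exact absurd h haZ
  have hbb : b * b ∈ Z := by
    rcases h4co (b * b) (mul_mem hbE hbE) with h | h | h | h
    · exact h
    · exfalso
      -- a = b b z⁻¹
      apply hab
      have h1 := hZcen _ h b
      -- (a⁻¹ b b) b = b (a⁻¹ b b)
      have h2 : a⁻¹ * b = b * a⁻¹ := by
        have h3 : a⁻¹ * b * (b * b) = b * a⁻¹ * (b * b) := by
          calc a⁻¹ * b * (b * b) = (a⁻¹ * (b * b)) * b := by group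
            _ = b * (a⁻¹ * (b * b)) := h1
            _ = b * a⁻¹ * (b * b) := by group
        exact mul_right_cancel h3
      calc a * b = a * (b * a⁻¹) * a := by group
        _ = a * (a⁻¹ * b) * a := by rw [h2]
        _ = b * a := by group
    · rw [inv_mul_cancel_left] at h; exact absurd h hbZ
    · rw [inv_mul_cancel_left] at h
      exfalso
      apply hbC
      have h1 := mul_mem haC (hZC h)
      rwa [mul_inv_cancel_left] at h1
  -- the quotient map
  let π := QuotientGroup.mk' Z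
  have hπ : ∀ g h : G, π g = π h ↔ g⁻¹ * h ∈ Z := fun g h => QuotientGroup.eq
  have hπ1 : ∀ g : G, π g = 1 ↔ g ∈ Z := fun g => QuotientGroup.eq_one_iff g
  have hconjE : ∀ g : G, ∀ e ∈ E, g * e * g⁻¹ ∈ E := fun g e he => hEn.conj_mem e he g
  have hconjZ : ∀ g e : G, g * e * g⁻¹ ∈ Z → e ∈ Z := by
    intro g e h
    have := hZn.conj_mem _ h g⁻¹
    have h2 : g⁻¹ * (g * e * g⁻¹) * g⁻¹⁻¹ = e := by group
    rwa [h2] at this
  let H1 : Subgroup G := (Subgroup.centralizer ({π a} : Set (G ⧸ Z))).comap π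
  let H2 : Subgroup G := (Subgroup.centralizer ({π a, π b} : Set (G ⧸ Z))).comap π
  let H3 : Subgroup G := H2 ⊓ Subgroup.centralizer ({a} : Set G)
  let H4 : Subgroup G := H3 ⊓ Subgroup.centralizer ({b} : Set G)
  have hH1 : ∀ g, g ∈ H1 ↔ π a * π g = π g * π a := by
    intro g
    rw [Subgroup.mem_comap, Subgroup.mem_centralizer_iff]
    constructor
    · intro h; exact h _ rfl
    · rintro h _ rfl; exact h
  have hH2 : ∀ g, g ∈ H2 ↔ (π a * π g = π g * π a ∧ π b * π g = π g * π b) := by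
    intro g
    rw [Subgroup.mem_comap, Subgroup.mem_centralizer_iff]
    constructor
    · intro h; exact ⟨h _ (Or.inl rfl), h _ (Or.inr rfl)⟩
    · rintro ⟨h1, h2⟩ y hy
      rcases hy with rfl | hy
      · exact h1
      · rw [Set.mem_singleton_iff] at hy; subst hy; exact h2
  have h21 : H2 ≤ H1 := fun g hg => (hH1 g).mpr ((hH2 g).mp hg).1
  have h32 : H3 ≤ H2 := inf_le_left
  have h43 : H4 ≤ H3 := inf_le_left
  have hcj : ∀ g g' c : G, π (g * c * g⁻¹) = π (g' * c * g'⁻¹) →
      π c * π (g⁻¹ * g') = π (g⁻¹ * g') * π c := by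
    intro g g' c h
    simp only [map_mul, map_inv] at h ⊢
    calc π c * ((π g)⁻¹ * π g') = (π g)⁻¹ * (π g * π c * (π g)⁻¹) * π g' := by group
      _ = (π g)⁻¹ * (π g' * π c * (π g')⁻¹) * π g' := by rw [h]
      _ = (π g)⁻¹ * π g' * π c := by group
  have hcj' : ∀ g g' c : G, g * c * g⁻¹ = g' * c * g'⁻¹ → c * (g⁻¹ * g') = (g⁻¹ * g') * c := by
    intro g g' c h
    calc c * (g⁻¹ * g') = g⁻¹ * (g * c * g⁻¹) * g' := by group
      _ = g⁻¹ * (g' * c * g'⁻¹) * g' := by rw [h]
      _ = g⁻¹ * g' * c := by group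
  have i1 : H1.relIndex ⊤ ≤ 3 := by
    refine le_trans (relIndex_le (fun g : G => π (g * a * g⁻¹)) {π a, π b, π b * π a} ?_ ?_)
      Finset.card_le_three
    · intro g _
      simp only [Finset.mem_insert, Finset.mem_singleton]
      rcases h4co _ (hconjE g a haE) with h | h | h | h
      · exact absurd (hconjZ _ _ h) haZ
      · left; exact ((hπ _ _).mpr h).symm
      · right; left; exact ((hπ _ _).mpr h).symm
      · right; right
        rw [← map_mul]
        symm
        rw [hπ, mul_inv_rev, mul_assoc]; exact h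
    · intro g _ g' _ h
      rw [hH1]
      exact hcj g g' a h
  have i2 : H2.relIndex H1 ≤ 2 := by
    refine le_trans (relIndex_le (fun g : G => π (g * b * g⁻¹)) {π b, π b * π a} ?_ ?_)
      Finset.card_le_two
    · intro g hg
      simp only [Finset.mem_insert, Finset.mem_singleton]
      rcases h4co _ (hconjE g b hbE) with h | h | h | h
      · exact absurd (hconjZ _ _ h) hbZ
      · exfalso
        have h1 := (hπ _ _).mpr h
        have h2 := (hH1 g).mp hg
        rw [map_mul, map_mul, map_inv] at h1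
        have h3 : π b = π a := by
          calc π b = (π g)⁻¹ * (π g * π b * (π g)⁻¹) * π g := by group
            _ = (π g)⁻¹ * π a * π g := by rw [← h1]
            _ = (π g)⁻¹ * (π a * π g) := by group
            _ = (π g)⁻¹ * (π g * π a) := by rw [h2]
            _ = π a := by group
        have h4 := (hπ _ _).mp h3.symm
        apply hbC
        have h5 := mul_mem haC (hZC h4)
        rwa [mul_inv_cancel_left] at h5
      · left; exact ((hπ _ _).mpr h).symm
      · right
        rw [← map_mul]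
        symm
        rw [hπ, mul_inv_rev, mul_assoc]; exact h
    · intro g hg g' hg' h
      rw [hH2]
      refine ⟨(hH1 _).mp (mul_mem (inv_mem hg) hg'), hcj g g' b h⟩
  -- involutions of Z
  let zs : Finset G := (Set.toFinite {z : G | z ∈ Z ∧ z * z = 1}).toFinset
  have hzs : ∀ z, z ∈ zs ↔ z ∈ Z ∧ z * z = 1 := fun z => by
    rw [Set.Finite.mem_toFinset]; rfl
  have hneg : ∀ z ∈ zs, z ≠ 1 → ∀ v, ρ z v = -v := by
    intro z hz hz1 v
    obtain ⟨hzZ, hzz⟩ := (hzs z).mp hz
    obtain ⟨c, hc⟩ := hZs z hzZ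
    have h1 : c * c = 1 := by
      have h2 : ρ (z * z) v0 = v0 := by rw [hzz, map_one]; rfl
      rw [map_mul] at h2
      change ρ z (ρ z v0) = v0 at h2
      rw [hc, hc, smul_smul] at h2
      have h3 : (c * c - 1) • v0 = 0 := by rw [sub_smul, h2, one_smul, sub_self]
      rcases smul_eq_zero.mp h3 with h4 | h4
      · exact sub_eq_zero.mp h4
      · exact absurd h4 hv0
    rcases mul_self_eq_one_iff.mp h1 with h2 | h2
    · exfalso
      apply hz1
      apply hρ
      ext w
      rw [hc, h2, one_smul, map_one]; rfl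
    · rw [hc, h2, neg_smul, one_smul]
  have hzs2 : zs.card ≤ 2 := by
    by_cases h : ∃ z1 ∈ zs, z1 ≠ 1
    · obtain ⟨z1, hz1, hz11⟩ := h
      have hsub : zs ⊆ {1, z1} := by
        intro z hz
        rw [Finset.mem_insert, Finset.mem_singleton]
        by_cases hz0 : z = 1
        · exact Or.inl hz0
        · right
          apply hρ
          ext v
          rw [hneg z hz hz0, hneg z1 hz1 hz11]
      exact (Finset.card_le_card hsub).trans Finset.card_le_two
    · push Not at h
      have hsub : zs ⊆ {1} := fun z hz => Finset.mem_singleton.mpr (h z hz)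
      exact (Finset.card_le_card hsub).trans (by simp)
  have hconjsq : ∀ c : G, c * c ∈ Z → ∀ g : G, π (g * c * g⁻¹) = π c →
      g * c * g⁻¹ ∈ zs.image (fun z => c * z) := by
    intro c hcc g hg
    rw [Finset.mem_image]
    refine ⟨c⁻¹ * (g * c * g⁻¹), ?_, by group⟩
    have hz : c⁻¹ * (g * c * g⁻¹) ∈ Z := (hπ _ _).mp hg.symm
    rw [hzs]
    refine ⟨hz, ?_⟩
    have h1 : (g * c * g⁻¹) * (g * c * g⁻¹) = c * c := by
      calc (g * c * g⁻¹) * (g * c * g⁻¹) = g * (c * c) * g⁻¹ := by group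
        _ = (c * c) * g * g⁻¹ := by rw [hZcen _ hcc g]
        _ = c * c := by group
    set z := c⁻¹ * (g * c * g⁻¹) with hzdef
    have h2 : g * c * g⁻¹ = c * z := by rw [hzdef]; group
    rw [h2] at h1
    have h3 : c * z * (c * z) = c * c * (z * z) := by
      calc c * z * (c * z) = c * (z * c) * z := by group
        _ = c * (c * z) * z := by rw [hZcen z hz c]
        _ = c * c * (z * z) := by group
    rw [h3] at h1
    exact mul_eq_left.mp h1
  have i3 : H3.relIndex H2 ≤ 2 := by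
    refine le_trans (relIndex_le (fun g : G => g * a * g⁻¹) (zs.image (fun z => a * z)) ?_ ?_)
      (Finset.card_image_le.trans hzs2)
    · intro g hg
      apply hconjsq a haa g
      have h1 := ((hH2 g).mp hg).1
      rw [map_mul, map_mul, map_inv, ← h1, mul_inv_cancel_right]
    · intro g hg g' hg' h
      refine ⟨H2.mul_mem (H2.inv_mem hg) hg', Subgroup.mem_centralizer_iff.mpr ?_⟩
      rintro _ rfl
      exact hcj' g g' _ h
  have i4 : H4.relIndex H3 ≤ 2 := by
    refine le_trans (relIndex_le (fun g : G => g * b * g⁻¹) (zs.image (fun z => b * z)) ?_ ?_)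
      (Finset.card_image_le.trans hzs2)
    · intro g hg
      apply hconjsq b hbb g
      have h1 := ((hH2 g).mp (h32 hg)).2
      rw [map_mul, map_mul, map_inv, ← h1, mul_inv_cancel_right]
    · intro g hg g' hg' h
      refine ⟨H3.mul_mem (H3.inv_mem hg) hg', Subgroup.mem_centralizer_iff.mpr ?_⟩
      rintro _ rfl
      exact hcj' g g' _ h
  -- order of H4
  have hH4card : Nat.card H4 ∣ q ^ 1 - 1 := by
    apply scal_card ρ hρ one_ne_zero φ
    intro g hg
    have hga : a * g = g * a := Subgroup.mem_centralizer_iff.mp hg.1.2 a rfl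
    have hgb : b * g = g * b := Subgroup.mem_centralizer_iff.mp hg.2 b rfl
    have hge : ∀ e ∈ E, g * e = e * g := by
      intro e he
      have key : ∀ t : G, g * t = t * g → t⁻¹ * e ∈ Z → g * e = e * g := by
        intro t ht hz
        have h1 := hZcen _ hz g
        have h2 : Commute g (t⁻¹ * e) := h1.symm
        have h3 : Commute g t := ht
        have h4 := h3.mul_right h2
        rw [mul_inv_cancel_left] at h4
        exact h4.eq
      rcases h4co e he with h | h | h | h
      · exact (hZcen e h g).symm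
      · exact key a hga.symm h
      · exact key b hgb.symm h
      · apply key (b * a)
        · have h3 : Commute g b := hgb.symm
          have h4 : Commute g a := hga.symm
          exact (h3.mul_right h4).eq
        · rw [mul_inv_rev, mul_assoc]; exact h
    obtain ⟨k, hk⟩ := hfull hd2.symm (ρ g : V →ₗ[ZMod q] V)
      (fun k v => hφc k (ρ g : V →ₗ[ZMod q] V) v)
      (fun r hr v => hcommρ' ρ g r (hge r hr) v)
    exact ⟨k, hk⟩
  -- final count
  have hidx : H4.index = H4.relIndex H3 * (H3.relIndex H2 * (H2.relIndex H1 * H1.relIndex ⊤)) := by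
    rw [Subgroup.relIndex_mul_relIndex H2 H1 ⊤ h21 le_top,
      Subgroup.relIndex_mul_relIndex H3 H2 ⊤ h32 le_top,
      Subgroup.relIndex_mul_relIndex H4 H3 ⊤ h43 le_top, Subgroup.relIndex_top_right]
  have hne0 : H4.index ≠ 0 := Subgroup.index_ne_zero_of_finite
  have hdG := dvd_card ρ htrans
  rw [hn, ← Subgroup.card_mul_index H4] at hdG
  have hq3 : 3 ≤ q := by
    have := (Fact.out : q.Prime).two_le
    omega
  have hdvd1 : (q - 1) * (q + 1) ∣ (q - 1) * H4.index := by
    have h1 : (q - 1) * (q + 1) = q ^ 2 - 1 := by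
      obtain ⟨u, rfl⟩ : ∃ u, q = u + 1 := ⟨q - 1, by omega⟩
      rw [Nat.add_sub_cancel, show (u + 1) ^ 2 = u * (u + 1 + 1) + 1 by ring, Nat.add_sub_cancel]
    rw [h1]
    rw [pow_one] at hH4card
    exact hdG.trans (mul_dvd_mul_right hH4card _)
  have hdvd2 : q + 1 ∣ H4.index := Nat.dvd_of_mul_dvd_mul_left (by omega) hdvd1
  rw [hidx] at hdvd2 hne0
  have hqp : q.Prime := Fact.out
  clear hH4card hdG hdvd1 hidx
  generalize H4.relIndex H3 = j4 at *
  generalize H3.relIndex H2 = j3 at *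
  generalize H2.relIndex H1 = j2 at *
  generalize H1.relIndex ⊤ = j1 at *
  have hor : j4 * (j3 * (j2 * j1)) ∣ 24 ∨ j4 * (j3 * (j2 * j1)) ∣ 16 := by
    interval_cases j1 <;> interval_cases j2 <;> interval_cases j3 <;> interval_cases j4 <;>
      simp at hne0 ⊢
  have hfin : q + 1 ∣ 24 ∨ q + 1 ∣ 16 := by
    rcases hor with h | h
    · exact Or.inl (hdvd2.trans h)
    · exact Or.inr (hdvd2.trans h)
  have hq24 : q ≤ 23 := by
    rcases hfin with h | h
    · have := Nat.le_of_dvd (by norm_num) h; omega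
    · have := Nat.le_of_dvd (by norm_num) h; omega
  clear * - hfin hq24 hqp hq3
  interval_cases q <;> revert hfin hqp <;> decide

theorem huppert (hsol : Group.IsSolvable G) (ρ : G →* (V ≃ₗ[ZMod q] V))
    (hρ : Function.Injective ρ)
    (htrans : ∀ v w : V, v ≠ 0 → w ≠ 0 → ∃ g : G, ρ g v = w) :
    Semi ρ ∨ Nat.card V ∈ ({9, 25, 49, 121, 529, 81} : Set ℕ) := by
  by_cases hns : Semi ρ
  · exact Or.inl hns
  · right
    have : Module.Finite (ZMod q) V := Module.Finite.of_finite
    have hpos : 0 < finrank (ZMod q) V := Module.finrank_pos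
    by_cases h1 : finrank (ZMod q) V = 1
    · exfalso
      obtain ⟨l, φ, hl, hφ, hsemi, d, hd⟩ := normal_field ρ htrans ⊥ inferInstance (by
        intro a ha b hb
        rw [Subgroup.mem_bot] at ha hb
        rw [ha, hb])
      apply hns
      apply hsemi
      rw [h1] at hd ⊢
      exact Nat.eq_one_of_mul_eq_one_right hd.symm
    by_cases h2 : finrank (ZMod q) V = 2
    · rw [card_V (q := q), h2]
      rcases case2 hsol ρ hρ htrans hns h2 with h | h | h | h | h <;> rw [h] <;> simp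
    by_cases h6 : q = 2 ∧ finrank (ZMod q) V = 6
    · exact absurd (case6 hsol ρ hρ htrans hns h6.1 h6.2) id
    · rw [caseA hsol ρ hρ htrans hns (by omega) h6]
      simp

end Small

end Cfsg.Agent.H11.Hup
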