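import Mathlib

set_option autoImplicit false

/-!
Finite groups of unitary operators: elements with eigenvalues in a small arc commute.
-/

namespace Cfsg.Agent.H11

open ComplexConjugate

section Op

variable {E : Type*} [NormedAddCommGroup E] [InnerProductSpace ℂ E] [FiniteDimensional ℂ E]

/-- A normal operator attains its norm at an eigenvalue. -/
lemma exists_eigen_norm [Nontrivial E] (a : E →L[ℂ] E) (ha : haveI := FiniteDimensional.complete ℂ E
    IsStarNormal a) :
    ∃ (k : ℂ) (v : E), v ≠ 0 ∧ a v = k • v ∧ ‖k‖ = ‖a‖ := by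
  haveI := FiniteDimensional.complete ℂ E
  haveI : IsStarNormal a := ha
  obtain ⟨k, hk, hk'⟩ := spectrum.exists_nnnorm_eq_spectralRadius a
  rw [IsStarNormal.spectralRadius_eq_nnnorm] at hk'
  have hk2 : ‖k‖₊ = ‖a‖₊ := by exact_mod_cast hk'
  have hk3 : ‖k‖ = ‖a‖ := congrArg NNReal.toReal hk2
  by_contra hcon
  push Not at hcon
  apply hk
  change IsUnit (algebraMap ℂ (E →L[ℂ] E) k - a)
  rw [ContinuousLinearMap.isUnit_iff_bijective]
  have hinj : Function.Injective (algebraMap ℂ (E →L[ℂ] E) k - a) := by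
    rw [injective_iff_map_eq_zero]
    intro v hv
    by_contra hv0
    have h1 : k • v - a v = 0 := by
      have : (algebraMap ℂ (E →L[ℂ] E) k - a) v = k • v - a v := by
        rw [ContinuousLinearMap.sub_apply, Algebra.algebraMap_eq_smul_one]
        rfl
      rw [← this]; exact hv
    exact hcon k v hv0 (sub_eq_zero.mp h1).symm hk3
  refine ⟨hinj, ?_⟩
  exact LinearMap.surjective_of_injective (f := ((algebraMap ℂ (E →L[ℂ] E) k - a : E →L[ℂ] E) :
    E →ₗ[ℂ] E)) hinj

variable {G : Type*} [Group G] (T : G →* (E →L[ℂ] E))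

lemma star_T (hT : ∀ g v w, inner ℂ (T g v) (T g w) = inner ℂ v w) (g : G) :
    haveI := FiniteDimensional.complete ℂ E
    star (T g) = T g⁻¹ := by
  haveI := FiniteDimensional.complete ℂ E
  symm
  change T g⁻¹ = ContinuousLinearMap.adjoint (T g)
  rw [ContinuousLinearMap.eq_adjoint_iff]
  intro v w
  rw [← hT g (T g⁻¹ v) w]
  congr 1
  change (T g * T g⁻¹) v = v
  rw [← map_mul, mul_inv_cancel, map_one]; rfl

lemma T_inv_apply (g : G) (v : E) : T g⁻¹ (T g v) = v := by
  change (T g⁻¹ * T g) v = v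
  rw [← map_mul, inv_mul_cancel, map_one]; rfl

lemma norm_T_apply (hT : ∀ g v w, inner ℂ (T g v) (T g w) = inner ℂ v w) (g : G) (v : E) :
    ‖T g v‖ = ‖v‖ := by
  rw [← sq_eq_sq₀ (norm_nonneg _) (norm_nonneg _), ← @inner_self_eq_norm_sq ℂ, hT,
    @inner_self_eq_norm_sq ℂ]

lemma norm_T_le (hT : ∀ g v w, inner ℂ (T g v) (T g w) = inner ℂ v w) (g : G) : ‖T g‖ ≤ 1 := by
  apply ContinuousLinearMap.opNorm_le_bound _ zero_le_one
  intro v
  rw [norm_T_apply T hT, one_mul]

lemma norm_eigen (hT : ∀ g v w, inner ℂ (T g v) (T g w) = inner ℂ v w) {g : G} {v : E}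
    (hv : v ≠ 0) {ε : ℂ} (h : T g v = ε • v) : ‖ε‖ = 1 := by
  have h1 := norm_T_apply T hT g v
  rw [h, norm_smul] at h1
  have h2 : ‖v‖ ≠ 0 := norm_ne_zero_iff.mpr hv
  exact mul_right_cancel₀ h2 (by rw [h1, one_mul])

/-- the real parts of the eigenvalues bound the distance to a scalar -/
lemma norm_sub_scalar_sq (hT : ∀ g v w, inner ℂ (T g v) (T g w) = inner ℂ v w) [Nontrivial E]
    (g : G) (b c : ℝ) (hb : 0 ≤ b)
    (h : ∀ (ε : ℂ) (v : E), v ≠ 0 → T g v = ε • v → c ≤ ε.re) :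
    ‖T g - (b : ℂ) • (1 : E →L[ℂ] E)‖ ^ 2 ≤ 1 - 2 * b * c + b ^ 2 := by
  haveI := FiniteDimensional.complete ℂ E
  have hn : IsStarNormal (T g - (b : ℂ) • (1 : E →L[ℂ] E)) := by
    constructor
    rw [star_sub, star_smul, star_one, star_T T hT]
    change (T g⁻¹ - star (b : ℂ) • (1 : E →L[ℂ] E)) * (T g - (b : ℂ) • 1) =
      (T g - (b : ℂ) • 1) * (T g⁻¹ - star (b : ℂ) • (1 : E →L[ℂ] E))
    rw [sub_mul, mul_sub, mul_sub, sub_mul, mul_sub, mul_sub, ← map_mul, ← map_mul,
      inv_mul_cancel, mul_inv_cancel]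
    simp only [smul_mul_assoc, one_mul, mul_smul_comm, mul_one]
    rw [smul_comm]
    abel
  obtain ⟨k, v, hv, hk, hkn⟩ := exists_eigen_norm _ hn
  have h1 : T g v = (k + b) • v := by
    have h2 : (T g - (b : ℂ) • (1 : E →L[ℂ] E)) v = T g v - (b : ℂ) • v := rfl
    rw [h2] at hk
    rw [add_smul, ← hk, sub_add_cancel]
  have h3 := h _ v hv h1
  have h4 := norm_eigen T hT hv h1
  rw [← hkn]
  have h5 : ‖k‖ ^ 2 = k.re ^ 2 + k.im ^ 2 := by
    rw [← Complex.normSq_eq_norm_sq, Complex.normSq_apply]; ring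
  have h6 : (k.re + b) ^ 2 + k.im ^ 2 = 1 := by
    have h7 : ‖k + b‖ ^ 2 = (k.re + b) ^ 2 + k.im ^ 2 := by
      rw [← Complex.normSq_eq_norm_sq, Complex.normSq_apply]; simp; ring
    rw [← h7, h4, one_pow]
  rw [Complex.add_re, Complex.ofReal_re] at h3
  rw [h5]
  nlinarith

/-- The commutator estimate. -/
lemma norm_comm_le (hT : ∀ g v w, inner ℂ (T g v) (T g w) = inner ℂ v w) (x y : G) (b : ℂ) :
    ‖T (x⁻¹ * y⁻¹ * x * y) - 1‖ ≤ 2 * ‖T y - b • (1 : E →L[ℂ] E)‖ * ‖T x - 1‖ := by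
  have e1 : T (x⁻¹ * y⁻¹ * x * y) - 1 = T (x⁻¹ * y⁻¹) *
      ((T x - 1) * (T y - b • 1) - (T y - b • 1) * (T x - 1)) := by
    have e2 : (T x - 1) * (T y - b • 1) - (T y - b • 1) * (T x - 1) = T x * T y - T y * T x := by
      simp only [sub_mul, mul_sub, smul_mul_assoc, one_mul, mul_smul_comm, mul_one, smul_sub]
      abel
    rw [e2, mul_sub, ← map_mul, ← map_mul, ← map_mul, ← map_mul]
    have e3 : x⁻¹ * y⁻¹ * (y * x) = 1 := by group
    rw [e3, map_one, ← mul_assoc]
  rw [e1]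
  calc _ ≤ ‖T (x⁻¹ * y⁻¹)‖ * ‖(T x - 1) * (T y - b • 1) - (T y - b • 1) * (T x - 1)‖ :=
        norm_mul_le _ _
    _ ≤ 1 * ‖(T x - 1) * (T y - b • 1) - (T y - b • 1) * (T x - 1)‖ :=
        mul_le_mul_of_nonneg_right (norm_T_le T hT _) (norm_nonneg _)
    _ = ‖(T x - 1) * (T y - b • 1) - (T y - b • 1) * (T x - 1)‖ := one_mul _
    _ ≤ ‖(T x - 1) * (T y - b • 1)‖ + ‖(T y - b • 1) * (T x - 1)‖ := norm_sub_le _ _
    _ ≤ ‖T x - 1‖ * ‖T y - b • (1 : E →L[ℂ] E)‖ + ‖T y - b • (1 : E →L[ℂ] E)‖ * ‖T x - 1‖ :=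
        add_le_add (norm_mul_le _ _) (norm_mul_le _ _)
    _ = _ := by ring

/-- The commutation lemma. -/
lemma comm_lemma [Finite G] (hT : ∀ g v w, inner ℂ (T g v) (T g w) = inner ℂ v w)
    (hinj : Function.Injective T) {w y : G} (hw : ‖T w - 1‖ < 1)
    (hc : Commute (w⁻¹ * y⁻¹ * w * y) y) : w⁻¹ * y⁻¹ * w * y = 1 := by
  classical
  by_contra hne
  set c := w⁻¹ * y⁻¹ * w * y with hcdef
  -- an eigenvalue of `c` different from one
  have hex : ∃ v : E, T c v ≠ v := by
    by_contra hcon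
    push Not at hcon
    apply hne
    apply hinj
    rw [map_one]
    ext v
    exact hcon v
  obtain ⟨v₀, hv₀⟩ := hex
  let f : Module.End ℂ E := (T c : E →ₗ[ℂ] E)
  let fy : Module.End ℂ E := (T y : E →ₗ[ℂ] E)
  -- the range of `T c - 1`
  let R : Submodule ℂ E := LinearMap.range (f - 1)
  have hRne : R ≠ ⊥ := by
    intro h
    have h1 : (f - 1) v₀ ∈ R := LinearMap.mem_range_self _ _
    rw [h, Submodule.mem_bot, LinearMap.sub_apply, Module.End.one_apply] at h1
    exact hv₀ (sub_eq_zero.mp h1)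
  have hcy : ∀ v, T c (T y v) = T y (T c v) := by
    intro v
    change (T c * T y) v = (T y * T c) v
    rw [← map_mul, ← map_mul, hc.eq]
  -- a common eigenvector of `c` and `y` in `R`
  have hRc : ∀ v ∈ R, f v ∈ R := by
    rintro _ ⟨u, rfl⟩
    refine ⟨f u, ?_⟩
    rw [LinearMap.sub_apply, Module.End.one_apply, LinearMap.sub_apply, Module.End.one_apply,
      map_sub]
  have hRy : ∀ v ∈ R, fy v ∈ R := by
    rintro _ ⟨u, rfl⟩
    refine ⟨fy u, ?_⟩
    rw [LinearMap.sub_apply, Module.End.one_apply, LinearMap.sub_apply, Module.End.one_apply,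
      map_sub]
    congr 1
    exact hcy u
  have : Nontrivial R := (Submodule.nontrivial_iff_ne_bot).mpr hRne
  obtain ⟨γ, hγ⟩ := Module.End.exists_eigenvalue (f.restrict hRc)
  let W : Submodule ℂ E := R ⊓ Module.End.eigenspace f γ
  have hWne : W ≠ ⊥ := by
    obtain ⟨u, hu⟩ := hγ.exists_hasEigenvector
    intro h
    have h1 : (u : E) ∈ W := by
      refine ⟨u.2, ?_⟩
      rw [SetLike.mem_coe, Module.End.mem_eigenspace_iff]
      have h4 := congrArg (fun z : R => (z : E)) hu.apply_eq_smul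
      simpa using h4
    rw [h, Submodule.mem_bot] at h1
    exact hu.2 (Subtype.ext h1)
  have hWy : ∀ v ∈ W, fy v ∈ W := by
    intro v hv
    refine ⟨hRy v hv.1, ?_⟩
    have h1 := hv.2
    rw [SetLike.mem_coe, Module.End.mem_eigenspace_iff] at h1 ⊢
    have h2 : f (fy v) = fy (f v) := hcy v
    rw [h2, h1, map_smul]
  have : Nontrivial W := (Submodule.nontrivial_iff_ne_bot).mpr hWne
  obtain ⟨μ, hμ⟩ := Module.End.exists_eigenvalue (fy.restrict hWy)
  obtain ⟨u, hu⟩ := hμ.exists_hasEigenvector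
  set e : E := (u : E) with he
  have he0 : e ≠ 0 := fun h => hu.2 (Subtype.ext h)
  have hye : T y e = μ • e := by
    have h4 : fy e = μ • e := by
      have h5 := congrArg (fun z : W => (z : E)) hu.apply_eq_smul
      simpa using h5
    exact h4
  have heW : e ∈ W := u.2
  have hce : T c e = γ • e := by
    have h1 := heW.2
    rw [SetLike.mem_coe, Module.End.mem_eigenspace_iff] at h1
    exact h1
  -- `γ ≠ 1`
  have hγ1 : γ ≠ 1 := by
    intro h
    rw [h, one_smul] at hce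
    obtain ⟨w', hw'⟩ := heW.1
    rw [LinearMap.sub_apply, Module.End.one_apply] at hw'
    have hw'' : T c w' - w' = e := hw'
    -- `w' ` satisfies `(c - 1)^2 w' = 0`
    have h5 : ∀ i : ℕ, T (c ^ i) w' = w' + (i : ℂ) • e := by
      intro i
      induction i with
      | zero => simp
      | succ i ih =>
        rw [pow_succ', map_mul]
        change T c (T (c ^ i) w') = _
        rw [ih, map_add, map_smul, hce, Nat.cast_succ, add_smul, one_smul, ← hw'']
        abel
    have h6 := h5 (orderOf c)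
    rw [pow_orderOf_eq_one, map_one] at h6
    have h7 : ((orderOf c : ℕ) : ℂ) • e = 0 := by
      have h8 : w' = w' + ((orderOf c : ℕ) : ℂ) • e := h6
      exact (left_eq_add.mp h8)
    rcases smul_eq_zero.mp h7 with h8 | h8
    · have : orderOf c = 0 := by exact_mod_cast h8
      exact (orderOf_pos c).ne' this
    · exact he0 h8
  -- `y (w e) = (μ / γ) w e`
  have hγn : ‖γ‖ = 1 := norm_eigen T hT he0 hce
  have hμn : ‖μ‖ = 1 := norm_eigen T hT he0 hye
  have hγ0 : γ ≠ 0 := by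
    intro h; rw [h, norm_zero] at hγn; norm_num at hγn
  have hywe : T y (T w e) = (μ / γ) • T w e := by
    have h1 : y * w * c = w * y := by rw [hcdef]; group
    have h2 : T y (T w (T c e)) = T w (T y e) := by
      change (T y * T w * T c) e = (T w * T y) e
      rw [← map_mul, ← map_mul, ← map_mul, h1]
    rw [hce, hye, map_smul, map_smul, map_smul] at h2
    have h3 : γ⁻¹ • (γ • T y (T w e)) = γ⁻¹ • (μ • T w e) := by rw [h2]
    rw [smul_smul, inv_mul_cancel₀ hγ0, one_smul, smul_smul] at h3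
    rw [h3]
    congr 1
    rw [div_eq_inv_mul]
  have hinner : inner ℂ e (T w e) = 0 := by
    have h1 := hT y e (T w e)
    rw [hye, hywe, inner_smul_left, inner_smul_right, ← mul_assoc] at h1
    have h2 : conj μ * (μ / γ) = γ⁻¹ := by
      have h3 : conj μ * μ = 1 := by
        rw [mul_comm, Complex.mul_conj, Complex.normSq_eq_norm_sq, hμn]; norm_num
      rw [div_eq_mul_inv, ← mul_assoc, h3, one_mul]
    rw [h2] at h1
    have h3 : (γ⁻¹ - 1) * inner ℂ e (T w e) = 0 := by rw [sub_mul, one_mul, h1, sub_self]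
    rcases mul_eq_zero.mp h3 with h4 | h4
    · exfalso
      apply hγ1
      rw [sub_eq_zero] at h4
      rw [← inv_inv γ, h4, inv_one]
    · exact h4
  -- contradiction
  have h1 : inner ℂ e ((T w - 1) e) = - inner ℂ e e := by
    have : (T w - 1) e = T w e - e := rfl
    rw [this, inner_sub_right, hinner, zero_sub]
  have h2 : ‖inner ℂ e ((T w - 1) e)‖ ≤ ‖e‖ * (‖T w - 1‖ * ‖e‖) :=
    (norm_inner_le_norm _ _).trans (mul_le_mul_of_nonneg_left
      (ContinuousLinearMap.le_opNorm _ _) (norm_nonneg _))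
  rw [h1, norm_neg, inner_self_eq_norm_sq_to_K, norm_pow, RCLike.norm_ofReal, abs_norm] at h2
  have h4 : 0 < ‖e‖ := norm_pos_iff.mpr he0
  nlinarith [mul_pos h4 h4]

end Op

end Cfsg.Agent.H11
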