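import Cfsg.Agent.H11.Jord1
import Cfsg.Agent.H3.Core1

set_option autoImplicit false

/-!
Finite groups of unitary operators: the abelian normal subgroup generated by the elements with
eigenvalues in an arc of sixty degrees.
-/

namespace Cfsg.Agent.H11

open ComplexConjugate

section Arc

variable {E : Type*} [NormedAddCommGroup E] [InnerProductSpace ℂ E] [FiniteDimensional ℂ E]
variable {G : Type*} [Group G] (T : G →* (E →L[ℂ] E))

/-- elements all of whose eigenvalues are within thirty degrees of one -/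
def arcSet : Set G :=
  {g | ∀ (ε : ℂ) (v : E), v ≠ 0 → T g v = ε • v → √3 / 2 < ε.re}

lemma arcSet_conj {g : G} (hg : g ∈ arcSet T) (x : G) : x * g * x⁻¹ ∈ arcSet T := by
  intro ε v hv h
  apply hg ε (T x⁻¹ v)
  · intro h0
    apply hv
    have h1 : T x (T x⁻¹ v) = v := by
      change (T x * T x⁻¹) v = v
      rw [← map_mul, mul_inv_cancel, map_one]; rfl
    rw [← h1, h0, map_zero]
  · have h1 : T g (T x⁻¹ v) = T x⁻¹ (T (x * g * x⁻¹) v) := by
      change (T g * T x⁻¹) v = (T x⁻¹ * T (x * g * x⁻¹)) v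
      rw [← map_mul, ← map_mul]
      congr 2
      group
    rw [h1, h, map_smul]

lemma sqrt3 : (√3 / 2 : ℝ) ^ 2 = 3 / 4 := by
  rw [div_pow, Real.sq_sqrt (by norm_num)]; norm_num

lemma sqrt3_pos : (0 : ℝ) < √3 / 2 := by positivity

lemma half_lt_sqrt3 : (1 / 2 : ℝ) < √3 / 2 := by
  have h1 := sqrt3
  have h2 := sqrt3_pos
  nlinarith

lemma exists_min_re [Finite G] [Nontrivial E] {g : G} (hg : g ∈ arcSet T) :
    ∃ c : ℝ, √3 / 2 < c ∧ ∀ (ε : ℂ) (v : E), v ≠ 0 → T g v = ε • v → c ≤ ε.re := by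
  let f : Module.End ℂ E := (T g : E →ₗ[ℂ] E)
  have hfin : {ε : ℂ | f.HasEigenvalue ε}.Finite := Module.End.finite_hasEigenvalue f
  have hne : {ε : ℂ | f.HasEigenvalue ε}.Nonempty := Module.End.exists_eigenvalue f
  obtain ⟨ε₀, hε₀, hmin⟩ := Set.exists_min_image _ (fun ε : ℂ => ε.re) hfin hne
  obtain ⟨v₀, hv₀⟩ := hε₀.exists_hasEigenvector
  refine ⟨ε₀.re, hg ε₀ v₀ hv₀.2 hv₀.apply_eq_smul, ?_⟩
  intro ε v hv h
  apply hmin
  exact Module.End.hasEigenvalue_of_hasEigenvector
    (x := v) ⟨Module.End.mem_eigenspace_iff.mpr h, hv⟩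

/-- Elements of the arc set commute. -/
theorem arc_comm [Finite G] [Nontrivial E]
    (hT : ∀ g v w, inner ℂ (T g v) (T g w) = inner ℂ v w) (hinj : Function.Injective T)
    {x y : G} (hx : x ∈ arcSet T) (hy : y ∈ arcSet T) : x * y = y * x := by
  obtain ⟨c, hc, hcy⟩ := exists_min_re T hy
  obtain ⟨d, hd, hdx⟩ := exists_min_re T hx
  have hs := sqrt3
  have hsp := sqrt3_pos
  have h1 := norm_sub_scalar_sq T hT y c c (by linarith) hcy
  have h2 := norm_sub_scalar_sq T hT x 1 d zero_le_one hdx
  have h3 : ‖T y - (c : ℂ) • (1 : E →L[ℂ] E)‖ < 1 / 2 := by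
    by_contra hcon
    push Not at hcon
    nlinarith
  have h4 : ‖T x - 1‖ < 1 := by
    rw [Complex.ofReal_one, one_smul] at h2
    have h5 := half_lt_sqrt3
    by_contra hcon
    push Not at hcon
    nlinarith
  have key : ∀ w : G, ‖T w - 1‖ < 1 → w⁻¹ * y⁻¹ * w * y = 1 := by
    by_contra hcon
    push Not at hcon
    have hne : {w : G | ‖T w - 1‖ < 1 ∧ w⁻¹ * y⁻¹ * w * y ≠ 1}.Nonempty := hcon
    obtain ⟨w, ⟨hw1, hw2⟩, hmin⟩ := Set.exists_min_image _ (fun w : G => ‖T w - 1‖)
      (Set.toFinite _) hne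
    have hw0 : 0 < ‖T w - 1‖ := by
      rw [norm_pos_iff, sub_ne_zero]
      intro h
      rw [← map_one T] at h
      have := hinj h
      apply hw2
      rw [this]; group
    have hlt : ‖T (w⁻¹ * y⁻¹ * w * y) - 1‖ < ‖T w - 1‖ := by
      have h5 := norm_comm_le T hT w y (c : ℂ)
      have h6 := norm_nonneg (T y - (c : ℂ) • (1 : E →L[ℂ] E))
      calc _ ≤ _ := h5
        _ < 1 * ‖T w - 1‖ := mul_lt_mul_of_pos_right (by linarith) hw0
        _ = ‖T w - 1‖ := one_mul _
    have h7 : (w⁻¹ * y⁻¹ * w * y)⁻¹ * y⁻¹ * (w⁻¹ * y⁻¹ * w * y) * y = 1 := by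
      by_contra h8
      have := hmin (w⁻¹ * y⁻¹ * w * y) ⟨hlt.trans hw1, h8⟩
      exact absurd hlt (not_lt.mpr this)
    apply hw2
    apply comm_lemma T hT hinj hw1
    generalize w⁻¹ * y⁻¹ * w * y = c' at h7
    have h9 : c' * y = y * c' := by
      have h10 : c'⁻¹ * y⁻¹ * (c' * y) = 1 := by rw [← h7]; group
      have h11 := eq_inv_of_mul_eq_one_right h10
      rw [h11]; group
    exact h9
  have h10 : x⁻¹ * y⁻¹ * (x * y) = 1 := by rw [← key x h4]; group
  have h11 := eq_inv_of_mul_eq_one_right h10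
  rw [h11]; group

/-- the subgroup generated by the arc set -/
def arcSub : Subgroup G := Subgroup.closure (arcSet T)

lemma arcSub_normal : (arcSub T).Normal := by
  constructor
  intro n hn g
  unfold arcSub at hn ⊢
  induction hn using Subgroup.closure_induction with
  | mem x hx => exact Subgroup.subset_closure (arcSet_conj T hx g)
  | one => rw [mul_one, mul_inv_cancel]; exact one_mem _
  | mul x y _ _ h1 h2 =>
    have : g * (x * y) * g⁻¹ = (g * x * g⁻¹) * (g * y * g⁻¹) := by group
    rw [this]; exact mul_mem h1 h2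
  | inv x _ h1 =>
    have : g * x⁻¹ * g⁻¹ = (g * x * g⁻¹)⁻¹ := by group
    rw [this]; exact inv_mem h1

lemma arcSub_comm [Finite G] [Nontrivial E]
    (hT : ∀ g v w, inner ℂ (T g v) (T g w) = inner ℂ v w) (hinj : Function.Injective T) :
    ∀ x ∈ arcSub T, ∀ y ∈ arcSub T, x * y = y * x := by
  have h1 : arcSub T ≤ Subgroup.centralizer (arcSet T) := by
    unfold arcSub
    rw [Subgroup.closure_le]
    intro x hx
    rw [SetLike.mem_coe, Subgroup.mem_centralizer_iff]
    intro y hy
    exact arc_comm T hT hinj hy hx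
  have h2 : arcSub T ≤ Subgroup.centralizer (arcSub T : Set G) := by
    conv_lhs => unfold arcSub
    rw [Subgroup.closure_le]
    intro x hx
    rw [SetLike.mem_coe, Subgroup.mem_centralizer_iff]
    intro y hy
    exact ((Subgroup.mem_centralizer_iff.mp (h1 hy)) x hx).symm
  intro x hx y hy
  exact (Subgroup.mem_centralizer_iff.mp (h2 hy)) x hx

/-- the box of a complex number -/
noncomputable def boxOf (z : ℂ) : Fin 12 :=
  if h : ((⌈6 * z.arg / Real.pi⌉ + 5).toNat < 12) then ⟨(⌈6 * z.arg / Real.pi⌉ + 5).toNat, h⟩ else 0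

lemma ceil_bounds (z : ℂ) : -5 ≤ ⌈6 * z.arg / Real.pi⌉ ∧ ⌈6 * z.arg / Real.pi⌉ ≤ 6 := by
  have h1 := Complex.neg_pi_lt_arg z
  have h2 := Complex.arg_le_pi z
  have hp := Real.pi_pos
  constructor
  · rw [Int.le_ceil_iff]
    push_cast
    rw [lt_div_iff₀ hp]
    linarith
  · rw [Int.ceil_le]
    push_cast
    rw [div_le_iff₀ hp]
    linarith

lemma boxOf_eq {z w : ℂ} (h : boxOf z = boxOf w) :
    ⌈6 * z.arg / Real.pi⌉ = ⌈6 * w.arg / Real.pi⌉ := by
  have hz := ceil_bounds z
  have hw := ceil_bounds w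
  unfold boxOf at h
  rw [dif_pos (by omega), dif_pos (by omega)] at h
  have h1 := congrArg Fin.val h
  simp only at h1
  omega

lemma re_of_box {z w : ℂ} (hz : ‖z‖ = 1) (hw : ‖w‖ = 1) (h : boxOf z = boxOf w) :
    √3 / 2 < (z⁻¹ * w).re := by
  have h1 := boxOf_eq h
  have hp := Real.pi_pos
  have a1 := Int.le_ceil (6 * z.arg / Real.pi)
  have a2 := Int.ceil_lt_add_one (6 * z.arg / Real.pi)
  have b1 := Int.le_ceil (6 * w.arg / Real.pi)
  have b2 := Int.ceil_lt_add_one (6 * w.arg / Real.pi)
  rw [h1] at a1 a2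
  have hd1 : 6 * z.arg / Real.pi - 6 * w.arg / Real.pi < 1 := by linarith
  have hd2 : 6 * w.arg / Real.pi - 6 * z.arg / Real.pi < 1 := by linarith
  have hd1' : z.arg - w.arg < Real.pi / 6 := by
    rw [← sub_div, div_lt_iff₀ hp] at hd1
    linarith
  have hd2' : w.arg - z.arg < Real.pi / 6 := by
    rw [← sub_div, div_lt_iff₀ hp] at hd2
    linarith
  have hz' : z = Complex.exp (z.arg * Complex.I) := by
    have := Complex.norm_mul_exp_arg_mul_I z
    rw [hz, Complex.ofReal_one, one_mul] at this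
    exact this.symm
  have hw' : w = Complex.exp (w.arg * Complex.I) := by
    have := Complex.norm_mul_exp_arg_mul_I w
    rw [hw, Complex.ofReal_one, one_mul] at this
    exact this.symm
  have h2 : z⁻¹ * w = Complex.exp (((w.arg - z.arg : ℝ) : ℂ) * Complex.I) := by
    conv_lhs => rw [hz', hw']
    rw [← Complex.exp_neg, ← Complex.exp_add]
    congr 1
    push_cast
    ring
  rw [h2, Complex.exp_ofReal_mul_I_re, ← Real.cos_pi_div_six, ← Real.cos_abs (w.arg - z.arg)]
  apply Real.cos_lt_cos_of_nonneg_of_le_pi_div_two (abs_nonneg _) (by linarith)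
  rw [abs_lt]
  constructor <;> linarith

/-- The pigeonhole argument. -/
theorem arc_index [Finite G] (hT : ∀ g v w, inner ℂ (T g v) (T g w) = inner ℂ v w)
    (H : Subgroup G) (hH : ∀ x ∈ H, ∀ y ∈ H, x * y = y * x) :
    ((arcSub T).subgroupOf H).index ≤ 12 ^ Module.finrank ℂ E := by
  classical
  have hcomm : IsMulCommutative H := ⟨⟨fun a b => Subtype.ext (hH a a.2 b b.2)⟩⟩
  let ρ : Representation ℂ H E :=
    { toFun := fun h => ((T (h : G) : E →L[ℂ] E) : E →ₗ[ℂ] E)
      map_one' := by rw [Subgroup.coe_one, map_one]; rfl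
      map_mul' := fun a b => by rw [Subgroup.coe_mul, map_mul]; rfl }
  have hρ : ∀ (h : H) v, ρ h v = T (h : G) v := fun _ _ => rfl
  obtain ⟨ι, _, b, μ, hμ⟩ := Cfsg.Agent.H3.exists_simul_eigenbasis (k := ℂ) ρ
  have hμn : ∀ h i, ‖((μ i h : ℂˣ) : ℂ)‖ = 1 := by
    intro h i
    exact norm_eigen T hT (b.ne_zero i) (hμ h i)
  let box : H → (ι → Fin 12) := fun h i => boxOf (μ i h : ℂ)
  have hbox : ∀ h h' : H, box h = box h' → h⁻¹ * h' ∈ (arcSub T).subgroupOf H := by
    intro h h' heq
    rw [Subgroup.mem_subgroupOf]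
    apply Subgroup.subset_closure
    intro ε v hv hε
    -- coordinates
    obtain ⟨i, hi⟩ : ∃ i, b.repr v i ≠ 0 := by
      by_contra hcon
      push Not at hcon
      apply hv
      apply b.repr.map_eq_zero_iff.mp
      ext i
      exact hcon i
    have h1 : T ((h⁻¹ * h' : H) : G) v = ∑ j, (b.repr v j * (μ j (h⁻¹ * h') : ℂ)) • b j := by
      conv_lhs => rw [← b.sum_repr v]
      rw [map_sum]
      apply Finset.sum_congr rfl
      intro j _
      rw [map_smul, ← hρ, hμ, smul_smul]
    have h2 := congrArg (fun z => b.repr z i) (h1.symm.trans hε)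
    simp only [map_sum, map_smul, Finsupp.coe_finset_sum, Finset.sum_apply, Finsupp.smul_apply,
      b.repr_self, smul_eq_mul, Finsupp.single_apply, mul_ite, mul_one, mul_zero,
      Finset.sum_ite_eq', Finset.mem_univ, if_true] at h2
    have h3 : ε = (μ i (h⁻¹ * h') : ℂ) := by
      have h4 : b.repr v i * (μ i (h⁻¹ * h') : ℂ) = b.repr v i * ε := by rw [h2]; ring
      exact (mul_left_cancel₀ hi h4).symm
    rw [h3, map_mul, map_inv, Units.val_mul, Units.val_inv_eq_inv_val]
    exact re_of_box (hμn h i) (hμn h' i) (congrFun heq i)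
  have hinj : Function.Injective
      (fun q : H ⧸ ((arcSub T).subgroupOf H) => box (Quotient.out q)) := by
    intro q q' hqq
    have h1 := hbox _ _ hqq
    rw [← QuotientGroup.eq] at h1
    rw [QuotientGroup.out_eq', QuotientGroup.out_eq'] at h1
    exact h1
  have h1 := Nat.card_le_card_of_injective _ hinj
  have h2 : Nat.card (ι → Fin 12) = 12 ^ Module.finrank ℂ E := by
    rw [Nat.card_eq_fintype_card, Fintype.card_fun, Fintype.card_fin, Module.finrank_eq_card_basis b]
  rw [← h2]
  exact h1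

end Arc

section Unit

variable {G : Type*} [Group G] [Fintype G] {V : Type*} [AddCommGroup V] [Module ℂ V]
  [FiniteDimensional ℂ V]

/-- the averaged inner product -/
noncomputable def avgCore (ρ : Representation ℂ G V) : InnerProductSpace.Core ℂ V where
  inner v w := ∑ g : G, ∑ i, conj ((Module.finBasis ℂ V).repr (ρ g v) i) *
    (Module.finBasis ℂ V).repr (ρ g w) i
  conj_inner_symm v w := by
    rw [map_sum]
    apply Finset.sum_congr rfl
    intro g _
    rw [map_sum]
    apply Finset.sum_congr rfl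
    intro i _
    rw [map_mul, Complex.conj_conj, mul_comm]
  re_inner_nonneg v := by
    rw [map_sum]
    apply Finset.sum_nonneg
    intro g _
    rw [map_sum]
    apply Finset.sum_nonneg
    intro i _
    rw [mul_comm, Complex.mul_conj]
    simp [Complex.normSq_nonneg]
  add_left u v w := by
    rw [← Finset.sum_add_distrib]
    apply Finset.sum_congr rfl
    intro g _
    rw [← Finset.sum_add_distrib]
    apply Finset.sum_congr rfl
    intro i _
    rw [map_add, map_add, Finsupp.add_apply, map_add, add_mul]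
  smul_left v w r := by
    rw [Finset.mul_sum]
    apply Finset.sum_congr rfl
    intro g _
    rw [Finset.mul_sum]
    apply Finset.sum_congr rfl
    intro i _
    rw [map_smul, map_smul, Finsupp.smul_apply, smul_eq_mul, map_mul, mul_assoc]
  definite v hv := by
    have h0 : ∀ g : G, ∀ i, conj ((Module.finBasis ℂ V).repr (ρ g v) i) *
        (Module.finBasis ℂ V).repr (ρ g v) i =
        ((Complex.normSq ((Module.finBasis ℂ V).repr (ρ g v) i) : ℝ) : ℂ) := by
      intro g i
      rw [mul_comm, Complex.mul_conj]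
    simp only [h0] at hv
    rw [← Complex.ofReal_zero] at hv
    have h1 : ∑ g : G, ∑ i, Complex.normSq ((Module.finBasis ℂ V).repr (ρ g v) i) = 0 := by
      apply Complex.ofReal_injective
      push_cast
      rw [← Complex.ofReal_zero, ← hv]
    have h2 := (Finset.sum_eq_zero_iff_of_nonneg (fun g _ =>
      Finset.sum_nonneg fun i _ => Complex.normSq_nonneg _)).mp h1 1 (Finset.mem_univ _)
    have h3 : ∀ i, (Module.finBasis ℂ V).repr v i = 0 := by
      intro i
      have h4 := (Finset.sum_eq_zero_iff_of_nonneg (fun i _ =>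
        Complex.normSq_nonneg _)).mp h2 i (Finset.mem_univ _)
      rw [map_one, Module.End.one_apply] at h4
      exact Complex.normSq_eq_zero.mp h4
    apply (Module.finBasis ℂ V).repr.map_eq_zero_iff.mp
    ext i
    exact h3 i

theorem jordan_core (ρ : Representation ℂ G V) (hinj : Function.Injective ρ) :
    ∃ A : Subgroup G, A.Normal ∧ (∀ x ∈ A, ∀ y ∈ A, x * y = y * x) ∧
      ∀ H : Subgroup G, (∀ x ∈ H, ∀ y ∈ H, x * y = y * x) →
        (A.subgroupOf H).index ≤ 12 ^ Module.finrank ℂ V := by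
  classical
  rcases subsingleton_or_nontrivial V with hs | hn
  · have hG : Subsingleton G := by
      constructor
      intro a b
      apply hinj
      ext v
      exact Subsingleton.elim _ _
    refine ⟨⊤, inferInstance, fun x _ y _ => Subsingleton.elim _ _, fun H _ => ?_⟩
    have h1 : ((⊤ : Subgroup G).subgroupOf H).index = 1 := by
      rw [Subgroup.index_eq_one]
      ext x
      simp
    rw [h1]
    exact Nat.one_le_pow _ _ (by norm_num)
  · letI : NormedAddCommGroup V :=
      @InnerProductSpace.Core.toNormedAddCommGroup ℂ V _ _ _ (avgCore ρ)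
    letI : InnerProductSpace ℂ V := InnerProductSpace.ofCore (avgCore ρ).toCore
    let T : G →* (V →L[ℂ] V) :=
      { toFun := fun g => LinearMap.toContinuousLinearMap (ρ g)
        map_one' := by rw [map_one]; rfl
        map_mul' := fun a b => by rw [map_mul]; rfl }
    have hTρ : ∀ g v, T g v = ρ g v := fun _ _ => rfl
    have hT : ∀ g v w, inner ℂ (T g v) (T g w) = inner ℂ v w := by
      intro g v w
      change ∑ g' : G, ∑ i, conj ((Module.finBasis ℂ V).repr (ρ g' (ρ g v)) i) *
        (Module.finBasis ℂ V).repr (ρ g' (ρ g w)) i = ∑ g' : G, ∑ i,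
        conj ((Module.finBasis ℂ V).repr (ρ g' v) i) * (Module.finBasis ℂ V).repr (ρ g' w) i
      apply Fintype.sum_equiv (Equiv.mulRight g)
      intro g'
      rw [Equiv.coe_mulRight, map_mul]
      rfl
    have hTinj : Function.Injective T := by
      intro a b hab
      apply hinj
      ext v
      rw [← hTρ, ← hTρ, hab]
    exact ⟨arcSub T, arcSub_normal T, arcSub_comm T hT hTinj, fun H hH => arc_index T hT H hH⟩

end Unit

end Cfsg.Agent.H11
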