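import Cfsg.Agent.H11.Jord2
import Cfsg.Agent.H3.Core2
import Cfsg.Prelude.Def_Blocks

set_option autoImplicit false

/-!
Faithful characters: representations.
-/

namespace Cfsg.Agent.H11

open Cfsg

lemma exists_faithful_rep {G : Type*} [Group G] [Finite G] {χ : G → ℂ} (hχ : IsCharacter G χ)
    (hfaith : ∀ g : G, χ g = χ 1 → g = 1) {n : ℕ} (hn : charDegree χ = n) :
    ∃ ρ : Representation ℂ G (Fin n → ℂ), ρ.character = χ ∧ Function.Injective ρ := by
  obtain ⟨k, ρ, rfl⟩ := hχ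
  have hk : k = n := by
    rw [← hn]
    unfold charDegree
    have h1 : ρ.character 1 = (k : ℂ) := by
      rw [Representation.char_one]
      simp
    rw [h1]
    simp
  subst hk
  refine ⟨ρ, rfl, ?_⟩
  intro a b hab
  have h1 : ρ (a⁻¹ * b) = 1 := by
    rw [map_mul, ← hab, ← map_mul, inv_mul_cancel, map_one]
  have h2 : a⁻¹ * b = 1 := by
    apply hfaith
    unfold Representation.character
    rw [h1, map_one ρ]
  exact (inv_mul_eq_one.mp h2)

theorem st4470 {G : Type*} [Group G] [Finite G] (χ : G → ℂ) (hχ : IsCharacter G χ)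
    (hfaith : ∀ g : G, χ g = χ 1 → g = 1) (n : ℕ) (hn : charDegree χ = n) :
    ∃ A : Subgroup G, A.Normal ∧ (∀ x ∈ A, ∀ y ∈ A, x * y = y * x) ∧
      ∀ H : Subgroup G, (∀ x ∈ H, ∀ y ∈ H, x * y = y * x) → (A.subgroupOf H).index ≤ 12 ^ n := by
  have := Fintype.ofFinite G
  obtain ⟨ρ, -, hinj⟩ := exists_faithful_rep hχ hfaith hn
  obtain ⟨A, h1, h2, h3⟩ := jordan_core ρ hinj
  refine ⟨A, h1, h2, fun H hH => ?_⟩
  have := h3 H hH
  rwa [Module.finrank_fintype_fun_eq_card, Fintype.card_fin] at this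

end Cfsg.Agent.H11
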