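import Cfsg.Agent.H11.Jord3
import Cfsg.Agent.H11.PPart
import Cfsg.Agent.H3.Power
import Cfsg.Agent.H3.Integral
import Cfsg.Agent.H3.PFaithful
import Cfsg.Agent.H27.EigBasis

set_option autoImplicit false

/-!
Representations of degree less than `p - 1`: the character theoretic part of Blichfeldt's theorem
on Hall subgroups.
-/

namespace Cfsg.Agent.H11

open Cfsg Cfsg.Agent.H3 Finset
open scoped ComplexConjugate

universe u v

section Small

variable {G : Type u} [Group G] [Finite G]

/-- If all prime divisors of the order of a group exceed the degree, the image is abelian. -/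
theorem comm_of_small {n : ℕ} (hG : ∀ q : ℕ, q.Prime → q ∣ Nat.card G → n < q)
    {V : Type v} [AddCommGroup V] [Module ℂ V] [FiniteDimensional ℂ V]
    (ρ : Representation ℂ G V) (hV : Module.finrank ℂ V ≤ n) (a b : G) :
    ρ a * ρ b = ρ b * ρ a := by
  have key := rep_induction (k := ℂ) (G := G) (motive := fun V _ _ _ ρ =>
    Module.finrank ℂ V ≤ n → ρ a * ρ b = ρ b * ρ a) ?_ ?_ ?_ V ρ
  · exact key hV
  · intro V _ _ _ ρ hs _
    ext v
    exact Subsingleton.elim _ _
  · intro V _ _ _ ρ hirr hV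
    have h1 := finrank_dvd_card ρ
    have h2 : Module.finrank ℂ V = 1 := by
      by_contra hne
      obtain ⟨q, hq, hqd⟩ := Nat.exists_prime_and_dvd hne
      have h3 := hG q hq (hqd.trans h1)
      have h4 : 0 < Module.finrank ℂ V := by
        rcases Nat.eq_zero_or_pos (Module.finrank ℂ V) with h0 | h0
        · rw [h0] at h1
          exact absurd (Nat.eq_zero_of_zero_dvd h1) Nat.card_pos.ne'
        · exact h0
      have h5 := Nat.le_of_dvd h4 hqd
      omega
    obtain ⟨μ, hμ⟩ := exists_hom_of_finrank_eq_one ρ h2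
    ext v
    change ρ a (ρ b v) = ρ b (ρ a v)
    rw [hμ, hμ, hμ, hμ, smul_smul, smul_smul, mul_comm]
  · intro V _ _ _ ρ U W hc hU hW hV
    have hUV : Module.finrank ℂ U.toSubmodule ≤ n := (Submodule.finrank_le _).trans hV
    have hWV : Module.finrank ℂ W.toSubmodule ≤ n := (Submodule.finrank_le _).trans hV
    have h1 := hU hUV
    have h2 := hW hWV
    ext v
    obtain ⟨u, hu, w, hw, rfl⟩ := Submodule.mem_sup.mp (hc.codisjoint.eq_top.symm ▸
      Submodule.mem_top (x := v) : v ∈ U.toSubmodule ⊔ W.toSubmodule)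
    change ρ a (ρ b (u + w)) = ρ b (ρ a (u + w))
    rw [map_add, map_add, map_add, map_add]
    congr 1
    · exact congrArg (fun z : U.toSubmodule => (z : V))
        (LinearMap.congr_fun h1 (⟨u, hu⟩ : U.toSubmodule))
    · exact congrArg (fun z : W.toSubmodule => (z : V))
        (LinearMap.congr_fun h2 (⟨w, hw⟩ : W.toSubmodule))

end Small

section Rat

variable {G : Type u} [Group G] [Finite G]
variable {V : Type v} [AddCommGroup V] [Module ℂ V] [FiniteDimensional ℂ V]

/-- sum of powers of a `p`-th root of unity -/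
lemma sum_pow_root {p : ℕ} (hp : p.Prime) {ω : ℂ} (h : ω ^ p = 1) :
    ∑ t ∈ range p, ω ^ t = if ω = 1 then (p : ℂ) else 0 := by
  split_ifs with h1
  · rw [h1]; simp
  · have h3 := mul_geom_sum ω p
    rw [h, sub_self] at h3
    exact (mul_eq_zero.mp h3).resolve_left (sub_ne_zero.mpr h1)

/-- A representation of degree less than `p - 1` whose character is `p`-rational is trivial on
`p`-elements. -/
theorem trivial_of_pRational {p : ℕ} (hp : p.Prime) (ρ : Representation ℂ G V)
    (hd : Module.finrank ℂ V + 1 < p)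
    (hrat : ∀ k : ℕ, k.Coprime (Nat.card G) → (∀ v : G, ¬ p ∣ orderOf v → v ^ k = v) →
      ∀ g, ρ.character (g ^ k) = ρ.character g)
    {x : G} (hx : ∃ e, orderOf x = p ^ e) : ρ x = 1 := by
  classical
  by_contra hne
  obtain ⟨e, he⟩ := hx
  have hex : ∃ j, ρ (x ^ p ^ j) = 1 := ⟨e, by rw [← he, pow_orderOf_eq_one, map_one]⟩
  have hj := Nat.find_spec hex
  set j := Nat.find hex with hjdef
  have hj0 : j ≠ 0 := by
    intro h0
    rw [h0, pow_zero, pow_one] at hj
    exact hne hj
  obtain ⟨i, hi⟩ := Nat.exists_eq_succ_of_ne_zero hj0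
  set y := x ^ p ^ i with hy
  have hy1 : ρ y ≠ 1 := fun h0 => by
    have := Nat.find_min' hex h0
    omega
  have hyp : ρ y ^ p = 1 := by
    rw [← map_pow, hy, ← pow_mul, ← pow_succ, ← Nat.succ_eq_add_one, ← hi]
    exact hj
  -- `p` divides the group order
  have hpG : p ∣ Nat.card G := by
    have h1 : e ≠ 0 := by
      rintro rfl
      rw [pow_zero] at he
      rw [orderOf_eq_one_iff.mp he, map_one] at hne
      exact hne rfl
    exact ((dvd_pow_self p h1).trans (he ▸ dvd_rfl)).trans (orderOf_dvd_natCard x)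
  -- the character is constant on the nontrivial powers of `y`
  have hconst : ∀ t, 0 < t → t < p → LinearMap.trace ℂ V (ρ y ^ t) = ρ.character y := by
    intro t ht0 htp
    have hN : Nat.card G ≠ 0 := Nat.card_pos.ne'
    have hcop : Nat.Coprime (ordProj[p] (Nat.card G)) (ordCompl[p] (Nat.card G)) :=
      Nat.Coprime.pow_left _ (Nat.coprime_ordCompl hp hN)
    obtain ⟨k, hk1, hk2⟩ := Nat.chineseRemainder hcop t 1
    have hpt : ¬ p ∣ t := Nat.not_dvd_of_pos_of_lt ht0 htp
    have hkG : k.Coprime (Nat.card G) := by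
      rw [← Nat.ordProj_mul_ordCompl_eq_self (Nat.card G) p]
      apply Nat.Coprime.mul_right
      · have h1 : Nat.gcd k (ordProj[p] (Nat.card G)) = Nat.gcd t (ordProj[p] (Nat.card G)) :=
          hk1.gcd_eq
        rw [Nat.Coprime, h1]
        exact Nat.Coprime.pow_right _ (((Nat.Prime.coprime_iff_not_dvd hp).mpr hpt).symm)
      · have h1 : Nat.gcd k (ordCompl[p] (Nat.card G)) = Nat.gcd 1 (ordCompl[p] (Nat.card G)) :=
          hk2.gcd_eq
        rw [Nat.Coprime, h1, Nat.gcd_one_left]
    have h1 := hrat k hkG (by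
      intro v hv
      have h2 : orderOf v ∣ ordCompl[p] (Nat.card G) := by
        have h3 : orderOf v ∣ ordProj[p] (Nat.card G) * ordCompl[p] (Nat.card G) := by
          rw [Nat.ordProj_mul_ordCompl_eq_self]; exact orderOf_dvd_natCard v
        exact (Nat.Coprime.pow_right _ (((Nat.Prime.coprime_iff_not_dvd hp).mpr hv).symm)).dvd_of_dvd_mul_left h3
      conv_rhs => rw [← pow_one v]
      exact pow_eq_pow_iff_modEq.mpr (hk2.of_dvd h2)) y
    rw [← h1]
    change _ = LinearMap.trace ℂ V (ρ (y ^ k))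
    rw [map_pow ρ y k]
    congr 1
    have hpk : p ∣ ordProj[p] (Nat.card G) := Nat.dvd_ordProj_of_dvd hN hp hpG
    have h3 : k ≡ t [MOD p] := hk1.of_dvd hpk
    have h4 : ∀ m : ℕ, ρ y ^ m = ρ y ^ (m % p) := by
      intro m
      conv_lhs => rw [← Nat.div_add_mod m p, pow_add, pow_mul, hyp, one_pow, one_mul]
    rw [h4 t, h4 k, h3]
  -- eigenbasis
  obtain ⟨ι, _, b, ω, -, hω⟩ := exists_eigenbasis ρ y
  have hω1 : ∀ i, ρ y (b i) = ω i • b i := fun i => by
    have := hω 1 i
    rwa [zpow_one, zpow_one] at this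
  have hωt : ∀ (t : ℕ) i, (ρ y ^ t) (b i) = ω i ^ t • b i := by
    intro t i
    have := hω t i
    rw [zpow_natCast, zpow_natCast, map_pow] at this
    exact this
  have hωp : ∀ i, ω i ^ p = 1 := by
    intro i
    have h1 := hωt p i
    rw [hyp, Module.End.one_apply] at h1
    have h2 : (ω i ^ p - 1) • b i = 0 := by rw [sub_smul, one_smul, ← h1, sub_self]
    rcases smul_eq_zero.mp h2 with h3 | h3
    · exact sub_eq_zero.mp h3
    · exact absurd h3 (b.ne_zero i)
  have htr : ∀ t : ℕ, LinearMap.trace ℂ V (ρ y ^ t) = ∑ i, ω i ^ t := fun t =>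
    Cfsg.Agent.H27.trace_eq_sum_of_eigBasis b _ _ (hωt t)
  have hd' : Module.finrank ℂ V = Fintype.card ι := Module.finrank_eq_card_basis b
  -- the sum over all powers
  have hsum1 : ∑ t ∈ range p, LinearMap.trace ℂ V (ρ y ^ t) =
      (p : ℂ) * (univ.filter (fun i => ω i = 1)).card := by
    simp only [htr]
    rw [Finset.sum_comm, Finset.sum_congr rfl fun i _ => sum_pow_root hp (hωp i)]
    rw [Finset.sum_ite, Finset.sum_const_zero, add_zero, Finset.sum_const, nsmul_eq_mul, mul_comm]
  have hsum2 : ∑ t ∈ range p, LinearMap.trace ℂ V (ρ y ^ t) =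
      (Module.finrank ℂ V : ℂ) + ((p : ℂ) - 1) * ρ.character y := by
    obtain ⟨P, hP⟩ : ∃ P, p = P + 1 := ⟨p - 1, by have := hp.one_lt; omega⟩
    rw [hP, Finset.sum_range_succ', pow_zero]
    have h1 : LinearMap.trace ℂ V (1 : Module.End ℂ V) = Module.finrank ℂ V :=
      LinearMap.trace_one ℂ V
    rw [h1, Finset.sum_congr rfl fun t ht => hconst (t + 1) (by omega) (by
      rw [Finset.mem_range] at ht; omega)]
    rw [Finset.sum_const, Finset.card_range, nsmul_eq_mul]
    push_cast
    ring
  set m₀ := (univ.filter (fun i => ω i = 1)).card with hm₀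
  have hm0le : m₀ ≤ Module.finrank ℂ V := by
    rw [hd', hm₀, ← Finset.card_univ]
    exact Finset.card_le_card (Finset.filter_subset _ _)
  have hp1 : ((p : ℂ) - 1) ≠ 0 := by
    have := hp.one_lt
    rw [sub_ne_zero]
    exact_mod_cast this.ne'
  have hval : ρ.character y = (((p : ℚ) * m₀ - Module.finrank ℂ V) / ((p : ℚ) - 1) : ℚ) := by
    push_cast
    rw [eq_div_iff hp1]
    linear_combination hsum1 - hsum2
  have hint : IsIntegral ℤ (ρ.character y) := char_isIntegral (isCharacter_of_rep ρ) y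
  rw [hval] at hint
  obtain ⟨z, hz⟩ := exists_int_of_isIntegral_rat hint
  have hp1q : ((p : ℚ) - 1) ≠ 0 := by
    have := hp.one_lt
    rw [sub_ne_zero]
    exact_mod_cast this.ne'
  rw [div_eq_iff hp1q] at hz
  have hz' : (p : ℤ) * m₀ - Module.finrank ℂ V = z * ((p : ℤ) - 1) := by exact_mod_cast hz
  -- conclude `m₀ = d`
  have hdvd : ((p : ℤ) - 1) ∣ (Module.finrank ℂ V : ℤ) - m₀ := ⟨m₀ - z, by linear_combination -hz'⟩
  have hm0 : (Module.finrank ℂ V : ℤ) - m₀ = 0 := by
    apply Int.eq_zero_of_dvd_of_nonneg_of_lt _ _ hdvd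
    · omega
    · omega
  have hall : ∀ i, ω i = 1 := by
    have h1 : m₀ = Fintype.card ι := by omega
    have h2 : univ.filter (fun i => ω i = 1) = univ := by
      rw [← Finset.card_eq_iff_eq_univ]; exact h1
    intro i
    have : i ∈ univ.filter (fun i => ω i = 1) := by rw [h2]; exact Finset.mem_univ i
    exact (Finset.mem_filter.mp this).2
  apply hy1
  apply b.ext
  intro i
  rw [hω1, hall, one_smul]; rfl

end Rat

end Cfsg.Agent.H11
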