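import Cfsg.Agent.H11.Jord4

set_option autoImplicit false

/-!
Blichfeldt's theorem on abelian Hall subgroups.
-/

namespace Cfsg.Agent.H11

open Cfsg Cfsg.Agent.H3 Finset
open scoped ComplexConjugate

universe u v

section Twist

variable {G : Type u} [Group G] [Finite G]
variable {V : Type v} [AddCommGroup V] [Module ℂ V] [FiniteDimensional ℂ V]

/-- the determinant as a linear character -/
noncomputable def detHom (ρ : Representation ℂ G V) : G →* ℂˣ :=
  MonoidHom.toHomUnits ((LinearMap.det : (V →ₗ[ℂ] V) →* ℂ).comp ρ)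

lemma detHom_val (ρ : Representation ℂ G V) (g : G) :
    ((detHom ρ g : ℂˣ) : ℂ) = LinearMap.det (ρ g) := rfl

/-- the twist by a linear character -/
noncomputable def twist (ν : G →* ℂˣ) (ρ : Representation ℂ G V) : Representation ℂ G V where
  toFun g := ((ν g : ℂˣ) : ℂ) • ρ g
  map_one' := by rw [map_one, map_one, Units.val_one, one_smul]
  map_mul' a b := by rw [map_mul, map_mul, Units.val_mul, smul_mul_smul_comm]

lemma twist_apply (ν : G →* ℂˣ) (ρ : Representation ℂ G V) (g : G) :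
    twist ν ρ g = ((ν g : ℂˣ) : ℂ) • ρ g := rfl

lemma twist_char (ν : G →* ℂˣ) (ρ : Representation ℂ G V) :
    (twist ν ρ).character = fun g => ((ν g : ℂˣ) : ℂ) * ρ.character g := by
  funext g
  change LinearMap.trace ℂ V (twist ν ρ g) = _
  rw [twist_apply, map_smul]
  rfl

/-- In the irreducible case the `p`-elements or the `q`-elements act as scalars. -/
theorem irr_scalar_or {p q : ℕ} (hp : p.Prime) (hq : q.Prime) (ρ : Representation ℂ G V)
    [hirr : ρ.IsIrreducible] (hdp : Module.finrank ℂ V + 1 < p) (hdq : Module.finrank ℂ V + 1 < q)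
    (hX : ∀ x y : G, (∃ k, orderOf x = p ^ k) → (∃ k, orderOf y = q ^ k) → Commute x y →
      x ∈ Subgroup.center G ∨ y ∈ Subgroup.center G) :
    (∀ x : G, (∃ k, orderOf x = p ^ k) → ∃ c : ℂ, ρ x = c • (1 : V →ₗ[ℂ] V)) ∨
    (∀ y : G, (∃ k, orderOf y = q ^ k) → ∃ c : ℂ, ρ y = c • (1 : V →ₗ[ℂ] V)) := by
  classical
  have := Fintype.ofFinite G
  set d := Module.finrank ℂ V with hd
  have hN : Nat.card G ≠ 0 := Nat.card_pos.ne'
  have hd0 : 0 < d := by
    rcases Nat.eq_zero_or_pos d with h0 | h0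
    · have h1 := finrank_dvd_card ρ
      rw [← hd, h0] at h1
      exact absurd (Nat.eq_zero_of_zero_dvd h1) hN
    · exact h0
  -- the twist
  have hcp : Nat.Coprime d (ordProj[p] (Nat.card G)) :=
    Nat.Coprime.pow_right _ (((Nat.Prime.coprime_iff_not_dvd hp).mpr
      (Nat.not_dvd_of_pos_of_lt hd0 (by omega))).symm)
  have hcq : Nat.Coprime d (ordProj[q] (Nat.card G)) :=
    Nat.Coprime.pow_right _ (((Nat.Prime.coprime_iff_not_dvd hq).mpr
      (Nat.not_dvd_of_pos_of_lt hd0 (by omega))).symm)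
  set m := ordProj[p] (Nat.card G) * ordProj[q] (Nat.card G) with hm
  have hcm : IsCoprime (d : ℤ) (m : ℤ) := Nat.isCoprime_iff_coprime.mpr (Nat.Coprime.mul_right hcp hcq)
  obtain ⟨a, b, hab⟩ := hcm
  let ν : G →* ℂˣ := (detHom ρ) ^ (-a)
  let ρ' := twist ν ρ
  have hψ' : IsIrrCharacter G ρ'.character := by
    have h1 := isIrr_mul_hom (isIrrCharacter_of_rep ρ) ν
    rw [show ρ'.character = fun g => ((ν g : ℂˣ) : ℂ) * ρ.character g from twist_char ν ρ]
    exact h1
  -- central elements of order dividing `m` are in the kernel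
  have hcent : ∀ z ∈ Subgroup.center G, z ^ m = 1 → ρ' z = 1 := by
    intro z hz hzm
    obtain ⟨c, hc⟩ := central_scalar ρ hz
    have hnt : Nontrivial V := Module.nontrivial_of_finrank_pos (R := ℂ) (by rw [← hd]; exact hd0)
    have hc0 : c ≠ 0 := by
      rintro rfl
      rw [zero_smul] at hc
      have h1 : ρ (z * z⁻¹) = 0 := by rw [map_mul, hc, zero_mul]
      rw [mul_inv_cancel, map_one] at h1
      obtain ⟨v, hv⟩ := exists_ne (0 : V)
      exact hv (LinearMap.congr_fun h1 v)
    have hcm : c ^ m = 1 := by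
      have h1 : ρ (z ^ m) = c ^ m • (LinearMap.id : V →ₗ[ℂ] V) := by
        rw [map_pow, hc, smul_pow]
        congr 1
        exact one_pow m
      rw [hzm, map_one] at h1
      obtain ⟨v, hv⟩ := exists_ne (0 : V)
      have h2 := LinearMap.congr_fun h1 v
      have h3 : (c ^ m - 1) • v = 0 := by
        have h4 : v = c ^ m • v := h2
        rw [sub_smul, one_smul, ← h4, sub_self]
      rcases smul_eq_zero.mp h3 with h4 | h4
      · exact sub_eq_zero.mp h4
      · exact absurd h4 hv
    change ((ν z : ℂˣ) : ℂ) • ρ z = 1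
    have hν : ((ν z : ℂˣ) : ℂ) = (c ^ d) ^ (-a) := by
      change (((detHom ρ ^ (-a)) z : ℂˣ) : ℂ) = _
      rw [MonoidHom.zpow_apply, Units.val_zpow_eq_zpow_val, detHom_val, hc, LinearMap.det_smul,
        LinearMap.det_id, mul_one]
    rw [hν, hc, smul_smul]
    have h5 : (c ^ d) ^ (-a) * c = 1 := by
      have h6 : (c ^ d) ^ (-a) * c = c ^ ((d : ℤ) * (-a) + 1) := by
        rw [zpow_add₀ hc0, zpow_one, zpow_mul, zpow_natCast]
      rw [h6, show (d : ℤ) * (-a) + 1 = (m : ℤ) * b by linear_combination -hab, zpow_mul,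
        zpow_natCast, hcm, one_zpow]
    rw [h5, one_smul]; rfl
  -- the support property
  have hsupp : ∀ r : ℕ, r.Prime → ordProj[r] (Nat.card G) ∣ m → ∀ k : ℕ,
      (∀ v : G, ¬ r ∣ orderOf v → v ^ k = v) →
      ∀ u v : G, Commute u v → (∃ e, orderOf u = r ^ e) → ¬ r ∣ orderOf v →
      u ∈ Subgroup.center G → ρ'.character ((u * v) ^ k) = ρ'.character (u * v) := by
    intro r hr hrm k hk u v huv hu hv huc
    obtain ⟨e, he⟩ := hu
    have hum : u ^ m = 1 := by
      apply orderOf_dvd_iff_pow_eq_one.mp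
      refine dvd_trans ?_ hrm
      have h1 : r ^ e ∣ Nat.card G := he ▸ orderOf_dvd_natCard u
      rw [he]
      exact (Nat.pow_dvd_pow_iff_le_right hr.one_lt).mpr ((hr.pow_dvd_iff_le_factorization hN).mp h1)
    have h1 := hcent u huc hum
    have h2 : (u * v) ^ k = u ^ k * v := by rw [huv.mul_pow, hk v hv]
    change LinearMap.trace ℂ V (ρ' ((u * v) ^ k)) = LinearMap.trace ℂ V (ρ' (u * v))
    rw [h2, map_mul ρ', map_mul ρ', map_pow, h1, one_pow]
  -- the orthogonality argument
  have key : ∀ k l : ℕ, k.Coprime (Nat.card G) → (∀ v : G, ¬ p ∣ orderOf v → v ^ k = v) →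
      l.Coprime (Nat.card G) → (∀ v : G, ¬ q ∣ orderOf v → v ^ l = v) →
      pw k ρ'.character = ρ'.character ∨ pw l ρ'.character = ρ'.character := by
    intro k l hk hkp hl hlq
    by_contra hcon
    push Not at hcon
    have h1 : classInner (pw k ρ'.character - ρ'.character) (pw l ρ'.character - ρ'.character) = 0 := by
      unfold classInner
      rw [Finset.sum_eq_zero, mul_zero]
      intro g _
      obtain ⟨u, v, huv, hc, hu, hv, ⟨s, hs⟩, -⟩ := exists_isPPart_full hp g
      obtain ⟨u', v', huv', hc', hu', hv', ⟨s', hs'⟩, -⟩ := exists_isPPart_full hq g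
      have hcom : Commute u u' := by
        rw [hs, hs']
        exact (Commute.refl g).pow_pow s s'
      rcases hX u u' hu hu' hcom with h2 | h2
      · have h3 := hsupp p hp (dvd_mul_right _ _) k hkp u v hc hu hv h2
        rw [huv] at h3
        rw [Pi.sub_apply, pw_apply, h3, sub_self, zero_mul]
      · have h3 := hsupp q hq (dvd_mul_left _ _) l hlq u' v' hc' hu' hv' h2
        rw [huv'] at h3
        rw [Pi.sub_apply (pw l _), pw_apply l, h3, sub_self, map_zero, mul_zero]
    have hk' := pw_irr hk hψ'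
    have hl' := pw_irr hl hψ'
    rw [classInner_sub_left, classInner_sub_right, classInner_sub_right,
      classInner_of_irr_ne hk' hψ' hcon.1, classInner_of_irr_ne hψ' hl' (Ne.symm hcon.2),
      classInner_self_of_irr hψ', classInner_irr hk' hl'] at h1
    split_ifs at h1 <;> norm_num at h1
  by_cases hpr : ∀ k : ℕ, k.Coprime (Nat.card G) → (∀ v : G, ¬ p ∣ orderOf v → v ^ k = v) →
      pw k ρ'.character = ρ'.character
  · left
    intro x hx
    have h1 := trivial_of_pRational hp ρ' hdp (fun k hk hkp g => by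
      exact congrFun (hpr k hk hkp) g) hx
    refine ⟨(((ν x)⁻¹ : ℂˣ) : ℂ), ?_⟩
    rw [← h1]
    change _ = (((ν x)⁻¹ : ℂˣ) : ℂ) • (((ν x : ℂˣ) : ℂ) • ρ x)
    rw [smul_smul, Units.inv_mul, one_smul]
  · right
    push Not at hpr
    obtain ⟨k, hk, hkp, hkne⟩ := hpr
    intro x hx
    have h1 := trivial_of_pRational hq ρ' hdq (fun l hl hlq g => by
      exact congrFun ((key k l hk hkp hl hlq).resolve_left hkne) g) hx
    refine ⟨(((ν x)⁻¹ : ℂˣ) : ℂ), ?_⟩
    rw [← h1]
    change _ = (((ν x)⁻¹ : ℂˣ) : ℂ) • (((ν x : ℂˣ) : ℂ) • ρ x)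
    rw [smul_smul, Units.inv_mul, one_smul]

/-- The commuting theorem. -/
theorem comm_of_disjoint {n p q : ℕ} (hp : p.Prime) (hq : q.Prime) (hnp : n + 1 < p)
    (hnq : n + 1 < q)
    (hX : ∀ x y : G, (∃ k, orderOf x = p ^ k) → (∃ k, orderOf y = q ^ k) → Commute x y →
      x ∈ Subgroup.center G ∨ y ∈ Subgroup.center G)
    (ρ : Representation ℂ G V) (hV : Module.finrank ℂ V ≤ n) (x y : G)
    (hx : ∃ k, orderOf x = p ^ k) (hy : ∃ k, orderOf y = q ^ k) :
    ρ x * ρ y = ρ y * ρ x := by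
  have key := rep_induction (k := ℂ) (G := G) (motive := fun V _ _ _ ρ =>
    Module.finrank ℂ V ≤ n → ρ x * ρ y = ρ y * ρ x) ?_ ?_ ?_ V ρ
  · exact key hV
  · intro V _ _ _ ρ hs _
    ext v
    exact Subsingleton.elim _ _
  · intro V _ _ _ ρ hirr hV
    rcases irr_scalar_or hp hq ρ (by omega) (by omega) hX with h | h
    · obtain ⟨c, hc⟩ := h x hx
      rw [hc, smul_mul_assoc, mul_smul_comm, one_mul, mul_one]
    · obtain ⟨c, hc⟩ := h y hy
      rw [hc, smul_mul_assoc, mul_smul_comm, one_mul, mul_one]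
  · intro V _ _ _ ρ U W hc hU hW hV
    have hUV : Module.finrank ℂ U.toSubmodule ≤ n := (Submodule.finrank_le _).trans hV
    have hWV : Module.finrank ℂ W.toSubmodule ≤ n := (Submodule.finrank_le _).trans hV
    have h1 := hU hUV
    have h2 := hW hWV
    ext v
    obtain ⟨u, hu, w, hw, rfl⟩ := Submodule.mem_sup.mp (hc.codisjoint.eq_top.symm ▸
      Submodule.mem_top (x := v) : v ∈ U.toSubmodule ⊔ W.toSubmodule)
    change ρ x (ρ y (u + w)) = ρ y (ρ x (u + w))
    rw [map_add, map_add, map_add, map_add]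
    congr 1
    · exact congrArg (fun z : U.toSubmodule => (z : V))
        (LinearMap.congr_fun h1 (⟨u, hu⟩ : U.toSubmodule))
    · exact congrArg (fun z : W.toSubmodule => (z : V))
        (LinearMap.congr_fun h2 (⟨w, hw⟩ : W.toSubmodule))

end Twist

end Cfsg.Agent.H11
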