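import Cfsg.Agent.H11.Jord5

set_option autoImplicit false

/-!
Blichfeldt's theorem on abelian Hall subgroups: the group theoretic part.
-/

namespace Cfsg.Agent.H11

open Cfsg Cfsg.Agent.H3 Finset

universe u

section Hall

variable {G : Type u} [Group G] [Finite G]

/-- product of two commuting subgroups -/
lemma card_sup_dvd (A B : Subgroup G) (h : ∀ a ∈ A, ∀ b ∈ B, a * b = b * a) :
    Nat.card (A ⊔ B : Subgroup G) ∣ Nat.card A * Nat.card B := by
  let f : A × B →* G := MonoidHom.noncommCoprod A.subtype B.subtype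
    (fun a b => h a a.2 b b.2)
  have h1 : f.range = A ⊔ B := by
    have h2 := MonoidHom.noncommCoprod_range A.subtype B.subtype (fun a b => h a a.2 b b.2)
    rwa [Subgroup.range_subtype, Subgroup.range_subtype] at h2
  rw [← h1, ← Nat.card_prod]
  exact Subgroup.card_range_dvd f

lemma comm_sup (A B : Subgroup G) (hA : ∀ x ∈ A, ∀ y ∈ A, x * y = y * x)
    (hB : ∀ x ∈ B, ∀ y ∈ B, x * y = y * x) (h : ∀ a ∈ A, ∀ b ∈ B, a * b = b * a) :
    ∀ x ∈ A ⊔ B, ∀ y ∈ A ⊔ B, x * y = y * x := by
  let f : A × B →* G := MonoidHom.noncommCoprod A.subtype B.subtype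
    (fun a b => h a a.2 b b.2)
  have h1 : f.range = A ⊔ B := by
    have h2 := MonoidHom.noncommCoprod_range A.subtype B.subtype (fun a b => h a a.2 b b.2)
    rwa [Subgroup.range_subtype, Subgroup.range_subtype] at h2
  intro x hx y hy
  rw [← h1] at hx hy
  obtain ⟨⟨a, b⟩, rfl⟩ := hx
  obtain ⟨⟨a', b'⟩, rfl⟩ := hy
  rw [← map_mul, ← map_mul]
  congr 1
  exact Prod.ext (Subtype.ext (hA a a.2 a' a'.2)) (Subtype.ext (hB b b.2 b' b'.2))

theorem blichfeldt_hall {n : ℕ} (N : ℕ) : ∀ (G : Type u) [Group G] [Finite G]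
    (ρ : Representation ℂ G (Fin n → ℂ)), Nat.card G = N → Function.Injective ρ →
    ∃ A : Subgroup G, (∀ x ∈ A, ∀ y ∈ A, x * y = y * x) ∧
      (∀ q : ℕ, q.Prime → q ∣ Nat.card A → n + 1 < q) ∧
      ∀ q : ℕ, q.Prime → q ∣ A.index → q ≤ n + 1 := by
  induction N using Nat.strong_induction_on with
  | _ N ih =>
    intro G _ _ ρ hN hinj
    classical
    subst hN
    have hρcomm : ∀ x y : G, ρ x * ρ y = ρ y * ρ x → x * y = y * x := by
      intro x y hxy
      apply hinj
      rw [map_mul, map_mul, hxy]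
    have hfr : Module.finrank ℂ (Fin n → ℂ) = n := by simp
    -- Sylow subgroups are abelian
    have hsyl : ∀ (r : ℕ), r.Prime → n + 1 < r → ∀ R : Subgroup G, IsPGroup r R →
        ∀ x ∈ R, ∀ y ∈ R, x * y = y * x := by
      intro r hr hnr R hR x hx y hy
      have : Fact r.Prime := ⟨hr⟩
      apply hρcomm
      obtain ⟨k, hk⟩ := IsPGroup.iff_card.mp hR
      exact comm_of_small (G := R) (n := n) (by
        intro q hq hqd
        rw [hk] at hqd
        have := (Nat.prime_dvd_prime_iff_eq hq hr).mp (hq.dvd_of_dvd_pow hqd)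
        omega) (ρ.comp R.subtype) hfr.le ⟨x, hx⟩ ⟨y, hy⟩
    -- a maximal abelian `π`-subgroup
    obtain ⟨A, ⟨hAc, hAπ⟩, hmax⟩ := Set.exists_max_image
      {A : Subgroup G | (∀ x ∈ A, ∀ y ∈ A, x * y = y * x) ∧
        (∀ q : ℕ, q.Prime → q ∣ Nat.card A → n + 1 < q)} (fun A => Nat.card A)
      (Set.toFinite _) ⟨⊥, by
        constructor
        · intro x hx y hy
          rw [Subgroup.mem_bot] at hx hy
          rw [hx, hy]
        · intro q hq hqd
          rw [Subgroup.card_bot] at hqd
          exact absurd (Nat.dvd_one.mp hqd) hq.ne_one⟩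
    refine ⟨A, hAc, hAπ, ?_⟩
    intro q hq hqi
    by_contra hnq
    push Not at hnq
    have hqf : Fact q.Prime := ⟨hq⟩
    -- no Sylow `q`-subgroup has order dividing that of `A`
    have noQ : ∀ Q : Sylow q G, ¬ Nat.card Q ∣ Nat.card A := by
      intro Q hQ
      have h1 : ¬ q ∣ (Q : Subgroup G).index := Q.not_dvd_index
      apply h1
      have h2 := Subgroup.card_mul_index A
      have h3 := Subgroup.card_mul_index (Q : Subgroup G)
      obtain ⟨c, hc⟩ := hQ
      rw [hc, ← h3, mul_assoc] at h2
      have h4 : c * A.index = (Q : Subgroup G).index := Nat.eq_of_mul_eq_mul_left Nat.card_pos h2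
      rw [← h4]
      exact dvd_mul_of_dvd_right hqi c
    -- coprimality
    have hcop : ∀ (a b : ℕ), (∀ r : ℕ, r.Prime → r ∣ a → n + 1 < r) →
        (∀ r : ℕ, r.Prime → r ∣ b → r ≤ n + 1) → Nat.Coprime a b := by
      intro a b ha hb
      rw [Nat.coprime_iff_gcd_eq_one]
      by_contra hne
      obtain ⟨r, hr, hrd⟩ := Nat.exists_prime_and_dvd hne
      have h1 := ha r hr (hrd.trans (Nat.gcd_dvd_left _ _))
      have h2 := hb r hr (hrd.trans (Nat.gcd_dvd_right _ _))
      omega
    have hppow : ∀ (r k : ℕ), r.Prime → n + 1 < r → ∀ s : ℕ, s.Prime → s ∣ r ^ k → n + 1 < s := by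
      intro r k hr hnr s hs hsd
      rw [(Nat.prime_dvd_prime_iff_eq hs hr).mp (hs.dvd_of_dvd_pow hsd)]
      exact hnr
    -- `A` is not central
    have hnc : ∃ a ∈ A, a ∉ Subgroup.center G := by
      by_contra hcon
      push Not at hcon
      let Q : Sylow q G := default
      have hQc := hsyl q hq hnq Q Q.2
      obtain ⟨k, hk⟩ := IsPGroup.iff_card.mp Q.2
      have hAQ : ∀ a ∈ A, ∀ b ∈ (Q : Subgroup G), a * b = b * a := fun a ha b _ =>
        (Subgroup.mem_center_iff.mp (hcon a ha) b).symm
      have h1 := hmax (A ⊔ (Q : Subgroup G)) ⟨comm_sup A Q hAc hQc hAQ, by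
        intro s hs hsd
        have h2 := hsd.trans (card_sup_dvd A Q hAQ)
        rcases (Nat.Prime.dvd_mul hs).mp h2 with h3 | h3
        · exact hAπ s hs h3
        · rw [hk] at h3
          exact hppow q k hq hnq s hs h3⟩
      have h2 : A = A ⊔ (Q : Subgroup G) := Subgroup.eq_of_le_of_card_ge le_sup_left h1
      have h3 : (Q : Subgroup G) ≤ A := by rw [h2]; exact le_sup_right
      exact noQ Q (Subgroup.card_dvd_of_le h3)
    -- centralizers of noncentral elements of `A`
    have hcent : ∀ b ∈ A, b ∉ Subgroup.center G →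
        ∃ idx, Nat.card (Subgroup.centralizer ({b} : Set G)) = Nat.card A * idx ∧
          ∀ r : ℕ, r.Prime → r ∣ idx → r ≤ n + 1 := by
      intro b hb hbc
      have hlt : Nat.card (Subgroup.centralizer ({b} : Set G)) < Nat.card G := by
        apply lt_of_le_of_ne (Subgroup.card_le_card_group _)
        intro h0
        apply hbc
        have h1 : Subgroup.centralizer ({b} : Set G) = ⊤ := (Subgroup.card_eq_iff_eq_top _).mp h0
        rw [Subgroup.mem_center_iff]
        intro g
        have h2 : g ∈ Subgroup.centralizer ({b} : Set G) := by rw [h1]; trivial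
        exact Subgroup.mem_centralizer_singleton_iff.mp h2
      obtain ⟨A', hA'c, hA'π, hA'i⟩ := ih _ hlt (Subgroup.centralizer ({b} : Set G))
        (ρ.comp (Subgroup.centralizer ({b} : Set G)).subtype) rfl
        (hinj.comp Subtype.val_injective)
      have hAC : A ≤ Subgroup.centralizer ({b} : Set G) := by
        intro x hx
        rw [Subgroup.mem_centralizer_singleton_iff]
        exact hAc x hx b hb
      have h1 : Nat.card A ∣ Nat.card A' * A'.index := by
        rw [Subgroup.card_mul_index]; exact Subgroup.card_dvd_of_le hAC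
      have h2 : Nat.card A ∣ Nat.card A' := (hcop _ _ hAπ hA'i).dvd_of_dvd_mul_right h1
      have hcm : Nat.card (A'.map (Subgroup.centralizer ({b} : Set G)).subtype) = Nat.card A' :=
        Subgroup.card_map_of_injective (Subgroup.subtype_injective _)
      have h3 := hmax (A'.map (Subgroup.centralizer ({b} : Set G)).subtype) ⟨by
        rintro _ ⟨x, hx, rfl⟩ _ ⟨y, hy, rfl⟩
        exact congrArg Subtype.val (hA'c x hx y hy), by
        intro s hs hsd
        rw [hcm] at hsd
        exact hA'π s hs hsd⟩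
      simp only [hcm] at h3
      have h4 : Nat.card A = Nat.card A' := le_antisymm (Nat.le_of_dvd Nat.card_pos h2) h3
      refine ⟨A'.index, ?_, hA'i⟩
      rw [h4, Subgroup.card_mul_index]
    -- a noncentral element of prime power order
    obtain ⟨a, ⟨haA, hac⟩, hamin⟩ := Set.exists_min_image {a : G | a ∈ A ∧ a ∉ Subgroup.center G}
      (fun a => orderOf a) (Set.toFinite _) (by obtain ⟨a, h1, h2⟩ := hnc; exact ⟨a, h1, h2⟩)
    have ha1 : orderOf a ≠ 1 := by
      intro h0
      apply hac
      rw [orderOf_eq_one_iff.mp h0]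
      exact one_mem _
    obtain ⟨p, hp, hpa⟩ := Nat.exists_prime_and_dvd ha1
    have hpf : Fact p.Prime := ⟨hp⟩
    have hap : ∃ k, orderOf a = p ^ k := by
      obtain ⟨u, v, huv, hc, ⟨k, hk⟩, hv, ⟨s, hs⟩, ⟨t, ht⟩⟩ := exists_isPPart_full hp a
      by_cases huc : u ∈ Subgroup.center G
      · exfalso
        have hvc : v ∉ Subgroup.center G := by
          intro h0
          apply hac
          rw [← huv]
          exact mul_mem huc h0
        have hvA : v ∈ A := by rw [ht]; exact pow_mem haA t
        have h1 := hamin v ⟨hvA, hvc⟩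
        have h2 : orderOf v ∣ orderOf a := by rw [ht]; exact orderOf_pow_dvd t
        have h3 : orderOf v = orderOf a := le_antisymm (Nat.le_of_dvd (orderOf_pos a) h2) h1
        exact hv (h3 ▸ hpa)
      · have huA : u ∈ A := by rw [hs]; exact pow_mem haA s
        have h1 := hamin u ⟨huA, huc⟩
        have h2 : orderOf u ∣ orderOf a := by rw [hs]; exact orderOf_pow_dvd s
        have h3 : orderOf u = orderOf a := le_antisymm (Nat.le_of_dvd (orderOf_pos a) h2) h1
        exact ⟨k, by rw [← h3, hk]⟩
    have hpA : p ∣ Nat.card A := by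
      have h1 : orderOf (⟨a, haA⟩ : A) ∣ Nat.card A := orderOf_dvd_natCard _
      rw [Subgroup.orderOf_mk] at h1
      exact hpa.trans h1
    have hnp : n + 1 < p := hAπ p hp hpA
    -- the general argument: a Sylow subgroup centralizing a noncentral element of `A`
    have hdvdA : ∀ (r : ℕ), r.Prime → n + 1 < r → ∀ R : Subgroup G, IsPGroup r R → ∀ b ∈ A,
        b ∉ Subgroup.center G → (∀ x ∈ R, x * b = b * x) → Nat.card R ∣ Nat.card A := by
      intro r hr hnr R hR b hb hbc hRb
      have : Fact r.Prime := ⟨hr⟩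
      obtain ⟨idx, h1, h2⟩ := hcent b hb hbc
      obtain ⟨k, hk⟩ := IsPGroup.iff_card.mp hR
      have h3 : R ≤ Subgroup.centralizer ({b} : Set G) := by
        intro x hx
        rw [Subgroup.mem_centralizer_singleton_iff]
        exact hRb x hx
      have h4 := Subgroup.card_dvd_of_le h3
      rw [h1] at h4
      exact (hcop _ _ (fun s hs hsd => by
        rw [hk] at hsd; exact hppow r k hr hnr s hs hsd) h2).dvd_of_dvd_mul_right h4
    -- a Sylow `p`-subgroup of `G` inside `A`
    have haz : IsPGroup p (Subgroup.zpowers a) := by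
      obtain ⟨k, hk⟩ := hap
      exact IsPGroup.of_card (n := k) (by rw [Nat.card_zpowers, hk])
    obtain ⟨P, hP⟩ := haz.exists_le_sylow
    have haP : a ∈ (P : Subgroup G) := hP (Subgroup.mem_zpowers a)
    have hPA : Nat.card P ∣ Nat.card A :=
      hdvdA p hp hnp P P.2 a haA hac (fun x hx => hsyl p hp hnp P P.2 x hx a haP)
    let SA : Sylow p A := default
    let P₁ : Subgroup G := (SA : Subgroup A).map A.subtype
    have hP₁A : P₁ ≤ A := by
      rintro _ ⟨x, -, rfl⟩
      exact x.2
    have hP₁card : Nat.card P₁ = Nat.card P := by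
      have h1 : Nat.card P₁ = Nat.card SA :=
        Subgroup.card_map_of_injective A.subtype_injective
      rw [h1, Sylow.card_eq_multiplicity, Sylow.card_eq_multiplicity]
      congr 1
      apply le_antisymm
      · exact (Nat.factorization_le_iff_dvd Nat.card_pos.ne' Nat.card_pos.ne').mpr
          (Subgroup.card_subgroup_dvd_card A) p
      · have h2 := (Nat.factorization_le_iff_dvd Nat.card_pos.ne' Nat.card_pos.ne').mpr hPA p
        rw [Sylow.card_eq_multiplicity, hp.factorization_pow] at h2
        simpa using h2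
    have hP₁p : IsPGroup p P₁ := (SA.2).map A.subtype
    obtain ⟨P₂, hP₂⟩ := hP₁p.exists_le_sylow
    have hP₁P₂ : P₁ = (P₂ : Subgroup G) := by
      apply Subgroup.eq_of_le_of_card_ge hP₂
      rw [hP₁card, Sylow.card_eq_multiplicity, ← Sylow.card_eq_multiplicity P]
    -- the `q`-part of `A` is central
    let SQ : Sylow q A := default
    let Aq : Subgroup G := (SQ : Subgroup A).map A.subtype
    have hAqA : Aq ≤ A := by
      rintro _ ⟨x, -, rfl⟩
      exact x.2
    have hAqcard : Nat.card Aq = q ^ (Nat.card A).factorization q := by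
      have h1 : Nat.card Aq = Nat.card SQ :=
        Subgroup.card_map_of_injective A.subtype_injective
      rw [h1, Sylow.card_eq_multiplicity]
    have hAqq : IsPGroup q Aq := (SQ.2).map A.subtype
    obtain ⟨Q, hQ⟩ := hAqq.exists_le_sylow
    have hAqZ : Aq ≤ Subgroup.center G := by
      intro b hb
      by_contra hbc
      exact noQ Q (hdvdA q hq hnq Q Q.2 b (hAqA hb) hbc
        (fun x hx => hsyl q hq hnq Q Q.2 x hx b (hQ hb)))
    -- the disjointness
    have hX : ∀ x y : G, (∃ k, orderOf x = p ^ k) → (∃ k, orderOf y = q ^ k) → Commute x y →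
        x ∈ Subgroup.center G ∨ y ∈ Subgroup.center G := by
      intro x y hx hy hxy
      by_contra hcon
      push Not at hcon
      obtain ⟨hxc, hyc⟩ := hcon
      -- conjugate `x` into `P₁`
      obtain ⟨g, hg⟩ : ∃ g : G, g * x * g⁻¹ ∈ P₁ := by
        obtain ⟨k, hk⟩ := hx
        have h1 : IsPGroup p (Subgroup.zpowers x) :=
          IsPGroup.of_card (n := k) (by rw [Nat.card_zpowers, hk])
        obtain ⟨R, hR⟩ := h1.exists_le_sylow
        obtain ⟨g, hg⟩ := MulAction.exists_smul_eq G R P₂
        refine ⟨g, ?_⟩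
        rw [hP₁P₂, ← hg]
        change g * x * g⁻¹ ∈ ((g • R : Sylow p G) : Subgroup G)
        rw [Sylow.coe_subgroup_smul]
        exact Subgroup.smul_mem_pointwise_smul x (MulAut.conj g) _ (hR (Subgroup.mem_zpowers x))
      set b := g * x * g⁻¹ with hb
      have hbA : b ∈ A := hP₁A hg
      have hbc : b ∉ Subgroup.center G := by
        intro h0
        apply hxc
        have h1 : x = g⁻¹ * b * (g⁻¹)⁻¹ := by rw [hb]; group
        rw [h1]
        exact (inferInstance : (Subgroup.center G).Normal).conj_mem b h0 g⁻¹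
      set y' := g * y * g⁻¹ with hy'
      have hyo : orderOf y' = orderOf y := MulEquiv.orderOf_eq (MulAut.conj g) y
      have hby : y' * b = b * y' := by
        rw [hb, hy']
        calc g * y * g⁻¹ * (g * x * g⁻¹) = g * (y * x) * g⁻¹ := by group
          _ = g * (x * y) * g⁻¹ := by rw [hxy.eq]
          _ = _ := by group
      have hcomm' : ∀ z ∈ Aq, ∀ w ∈ Subgroup.zpowers y', z * w = w * z := fun z hz w _ =>
        (Subgroup.mem_center_iff.mp (hAqZ hz) w).symm
      have hyp : IsPGroup q (Aq ⊔ Subgroup.zpowers y' : Subgroup G) := by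
        obtain ⟨k, hk⟩ := hy
        have h1 := card_sup_dvd Aq (Subgroup.zpowers y') hcomm'
        rw [hAqcard, Nat.card_zpowers, hyo, hk, ← pow_add] at h1
        exact IsPGroup.of_card_dvd_pow h1
      have h1 := hdvdA q hq hnq (Aq ⊔ Subgroup.zpowers y') hyp b hbA hbc (by
        have h2 : Aq ⊔ Subgroup.zpowers y' ≤ Subgroup.centralizer ({b} : Set G) := by
          apply sup_le
          · intro z hz
            rw [Subgroup.mem_centralizer_singleton_iff]
            exact (Subgroup.mem_center_iff.mp (hAqZ hz) b).symm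
          · rw [Subgroup.zpowers_le, Subgroup.mem_centralizer_singleton_iff]
            exact hby
        intro z hz
        exact Subgroup.mem_centralizer_singleton_iff.mp (h2 hz))
      have h2 : Nat.card (Aq ⊔ Subgroup.zpowers y' : Subgroup G) ∣ Nat.card Aq := by
        obtain ⟨k, hk⟩ := IsPGroup.iff_card.mp hyp
        rw [hk] at h1 ⊢
        rw [hAqcard]
        exact pow_dvd_pow q ((hq.pow_dvd_iff_le_factorization Nat.card_pos.ne').mp h1)
      have h3 : Aq = Aq ⊔ Subgroup.zpowers y' :=
        Subgroup.eq_of_le_of_card_ge le_sup_left (Nat.le_of_dvd Nat.card_pos h2)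
      have h4 : y' ∈ Aq := by
        rw [h3]
        exact (le_sup_right : Subgroup.zpowers y' ≤ _) (Subgroup.mem_zpowers y')
      apply hyc
      have h5 : y = g⁻¹ * y' * (g⁻¹)⁻¹ := by rw [hy']; group
      rw [h5]
      exact (inferInstance : (Subgroup.center G).Normal).conj_mem y' (hAqZ h4) g⁻¹
    -- `a` commutes with `Q`
    apply noQ Q
    apply hdvdA q hq hnq Q Q.2 a haA hac
    intro x hx
    apply hρcomm
    have hxq : ∃ k, orderOf x = q ^ k := by
      obtain ⟨k, hk⟩ := (IsPGroup.iff_orderOf.mp Q.2) ⟨x, hx⟩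
      exact ⟨k, by rwa [Subgroup.orderOf_mk] at hk⟩
    exact (comm_of_disjoint hp hq hnp hnq hX ρ hfr.le a x hap hxq).symm

end Hall

theorem st4465 {G : Type u} [Group G] [Finite G] (χ : G → ℂ) (hχ : IsCharacter G χ)
    (hfaith : ∀ g : G, χ g = χ 1 → g = 1) (n : ℕ) (hn : charDegree χ = n) :
    ∃ A : Subgroup G, (∀ x ∈ A, ∀ y ∈ A, x * y = y * x) ∧
      (∀ q : ℕ, q.Prime → q ∣ Nat.card A → n + 1 < q) ∧
      ∀ q : ℕ, q.Prime → q ∣ A.index → q ≤ n + 1 := by
  obtain ⟨ρ, -, hinj⟩ := exists_faithful_rep hχ hfaith hn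
  exact blichfeldt_hall (Nat.card G) G ρ rfl hinj

end Cfsg.Agent.H11
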