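import Cfsg.Agent.H11.Jord6
import Cfsg.Agent.H3.Monomial
import Cfsg.Agent.H27.Kernel

set_option autoImplicit false

/-!
Jordan's theorem with the explicit bound of Blichfeldt.
-/

namespace Cfsg.Agent.H11

open Cfsg Cfsg.Agent.H3 Finset

universe u v

section Mono

variable {P : Type u} [Group P] [Finite P]

lemma index_normalCore_dvd (K : Subgroup P) : K.normalCore.index ∣ Nat.factorial K.index := by
  rw [Subgroup.normalCore_eq_ker, Subgroup.index_ker, Subgroup.index_eq_card, ← Nat.card_perm]
  exact Subgroup.card_subgroup_dvd_card (MulAction.toPermHom P (P ⧸ K)).range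

lemma index_inf_dvd (H K : Subgroup P) [H.Normal] : (H ⊓ K).index ∣ H.index * K.index := by
  have h1 := Subgroup.relIndex_inf_mul_relIndex H K ⊤
  rw [Subgroup.relIndex_top_right, Subgroup.relIndex_top_right, inf_top_eq] at h1
  rw [← h1]
  exact Nat.mul_dvd_mul_right (Subgroup.relIndex_dvd_index_of_normal H K) _

/-- A nilpotent linear group of degree `d` has an abelian normal subgroup with index dividing `d!`. -/
theorem exists_abelian_normal [Group.IsNilpotent P] {V : Type v} [AddCommGroup V] [Module ℂ V]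
    [FiniteDimensional ℂ V] (ρ : Representation ℂ P V) :
    ∃ H : Subgroup P, H.Normal ∧ H.index ∣ Nat.factorial (Module.finrank ℂ V) ∧
      ∀ x ∈ H, ∀ y ∈ H, ρ x * ρ y = ρ y * ρ x := by
  classical
  have := Fintype.ofFinite P
  refine rep_induction (k := ℂ) (G := P) (motive := fun V _ _ _ ρ =>
    ∃ H : Subgroup P, H.Normal ∧ H.index ∣ Nat.factorial (Module.finrank ℂ V) ∧
      ∀ x ∈ H, ∀ y ∈ H, ρ x * ρ y = ρ y * ρ x) ?_ ?_ ?_ V ρ
  · intro V _ _ _ ρ hs
    refine ⟨⊤, inferInstance, ?_, fun x _ y _ => ?_⟩
    · rw [Subgroup.index_top]; exact one_dvd _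
    · ext v
      exact Subsingleton.elim _ _
  · intro V _ _ _ ρ hirr
    obtain ⟨K, lam, hK⟩ := monomial_of_nilpotent (isIrrCharacter_of_rep ρ)
    have hKne : (Nat.card K : ℂ) ≠ 0 := by exact_mod_cast Nat.card_pos.ne'
    have hidx : Module.finrank ℂ V = K.index := by
      have h1 := congrFun hK 1
      rw [Representation.char_one, indFun] at h1
      have h2 : ∀ x : P, extendByZero K (fun h => (lam h : ℂ)) (x⁻¹ * 1 * x) = 1 := by
        intro x
        have h3 : x⁻¹ * 1 * x = 1 := by group
        rw [h3, extendByZero_mem _ _ (one_mem K)]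
        have : (⟨1, one_mem K⟩ : K) = 1 := rfl
        rw [this, map_one, Units.val_one]
      rw [Finset.sum_congr rfl fun x _ => h2 x, Finset.sum_const, Finset.card_univ, nsmul_eq_mul,
        mul_one, ← Nat.card_eq_fintype_card, ← Subgroup.card_mul_index K] at h1
      push_cast at h1
      rw [inv_mul_cancel_left₀ hKne] at h1
      exact_mod_cast h1
    refine ⟨K.normalCore, inferInstance, by rw [hidx]; exact index_normalCore_dvd K, ?_⟩
    intro x hx y hy
    have hcomm : ρ (x * y * x⁻¹ * y⁻¹) = 1 := by
      apply Cfsg.Agent.H27.rep_eq_one_of_char_eq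
      have h1 := congrFun hK (x * y * x⁻¹ * y⁻¹)
      rw [h1, indFun, hidx]
      have h2 : ∀ z : P, extendByZero K (fun h => (lam h : ℂ)) (z⁻¹ * (x * y * x⁻¹ * y⁻¹) * z) = 1 := by
        intro z
        have hzx : z⁻¹ * x * z ∈ K := by
          have h3 := K.normalCore_normal.conj_mem x hx z⁻¹
          rw [inv_inv] at h3
          exact K.normalCore_le h3
        have hzy : z⁻¹ * y * z ∈ K := by
          have h3 := K.normalCore_normal.conj_mem y hy z⁻¹
          rw [inv_inv] at h3
          exact K.normalCore_le h3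
        have h4 : z⁻¹ * (x * y * x⁻¹ * y⁻¹) * z =
            ((⟨z⁻¹ * x * z, hzx⟩ * ⟨z⁻¹ * y * z, hzy⟩ * (⟨z⁻¹ * x * z, hzx⟩ : K)⁻¹ *
              (⟨z⁻¹ * y * z, hzy⟩ : K)⁻¹ : K) : P) := by
          simp only [Subgroup.coe_mul, Subgroup.coe_inv]
          group
        rw [h4, extendByZero_mem _ _ (Subtype.property _)]
        have h5 : lam (⟨z⁻¹ * x * z, hzx⟩ * ⟨z⁻¹ * y * z, hzy⟩ * (⟨z⁻¹ * x * z, hzx⟩ : K)⁻¹ *
              (⟨z⁻¹ * y * z, hzy⟩ : K)⁻¹) = 1 := by
          rw [map_mul, map_mul, map_mul, map_inv, map_inv, mul_comm (lam _) (lam _),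
            mul_inv_cancel_right, mul_inv_cancel]
        have h6 : ((lam (⟨z⁻¹ * x * z, hzx⟩ * ⟨z⁻¹ * y * z, hzy⟩ * (⟨z⁻¹ * x * z, hzx⟩ : K)⁻¹ *
              (⟨z⁻¹ * y * z, hzy⟩ : K)⁻¹) : ℂˣ) : ℂ) = 1 := by rw [h5, Units.val_one]
        exact h6
      rw [Finset.sum_congr rfl fun z _ => h2 z, Finset.sum_const, Finset.card_univ, nsmul_eq_mul,
        mul_one, ← Nat.card_eq_fintype_card, ← Subgroup.card_mul_index K]
      push_cast
      rw [inv_mul_cancel_left₀ hKne]
    have h1 : x * y = (x * y * x⁻¹ * y⁻¹) * (y * x) := by group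
    rw [← map_mul, h1, map_mul, hcomm, one_mul, map_mul]
  · intro V _ _ _ ρ U W hc hU hW
    obtain ⟨H₁, hn₁, hi₁, hc₁⟩ := hU
    obtain ⟨H₂, hn₂, hi₂, hc₂⟩ := hW
    refine ⟨H₁ ⊓ H₂, inferInstance, ?_, ?_⟩
    · have h1 := index_inf_dvd H₁ H₂
      refine h1.trans ((Nat.mul_dvd_mul hi₁ hi₂).trans ?_)
      rw [← Submodule.finrank_add_eq_of_isCompl hc]
      exact Nat.factorial_mul_factorial_dvd_factorial_add _ _
    · intro x hx y hy
      have h1 := hc₁ x hx.1 y hy.1
      have h2 := hc₂ x hx.2 y hy.2
      ext v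
      obtain ⟨u, hu, w, hw, rfl⟩ := Submodule.mem_sup.mp (hc.codisjoint.eq_top.symm ▸
        Submodule.mem_top (x := v) : v ∈ U.toSubmodule ⊔ W.toSubmodule)
      change ρ x (ρ y (u + w)) = ρ y (ρ x (u + w))
      rw [map_add, map_add, map_add, map_add]
      congr 1
      · exact congrArg (fun z : U.toSubmodule => (z : V))
          (LinearMap.congr_fun h1 (⟨u, hu⟩ : U.toSubmodule))
      · exact congrArg (fun z : W.toSubmodule => (z : V))
          (LinearMap.congr_fun h2 (⟨w, hw⟩ : W.toSubmodule))

end Mono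

section Jordan

variable {G : Type u} [Group G] [Finite G]

lemma card_inf_mul_relIndex (A B : Subgroup G) :
    A.relIndex B * Nat.card (A ⊓ B : Subgroup G) = Nat.card B := by
  have h1 := Subgroup.card_mul_index (A.subgroupOf B)
  have h2 : Nat.card (A.subgroupOf B) = Nat.card (A ⊓ B : Subgroup G) := by
    rw [← Subgroup.inf_subgroupOf_right]
    exact Nat.card_congr (Subgroup.subgroupOfEquivOfLe inf_le_right).toEquiv
  rw [h2] at h1
  rw [mul_comm]
  exact h1

/-- the `p`-part of the index is at most the relative index in a subgroup of full `p`-part -/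
lemma ordProj_index_dvd (A B : Subgroup G) {p : ℕ} (hp : p.Prime)
    (hB : (Nat.card B).factorization p = (Nat.card G).factorization p) :
    p ^ (A.index).factorization p ∣ A.relIndex B := by
  have h1 := card_inf_mul_relIndex A B
  have h2 := Subgroup.card_mul_index A
  have hr0 : A.relIndex B ≠ 0 := fun h0 => by
    rw [h0, zero_mul] at h1
    exact Nat.card_pos.ne' h1.symm
  have hi0 : A.index ≠ 0 := Subgroup.index_ne_zero_of_finite
  have e1 : (A.relIndex B).factorization p + (Nat.card (A ⊓ B : Subgroup G)).factorization p =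
      (Nat.card B).factorization p := by
    rw [← h1, Nat.factorization_mul hr0 Nat.card_pos.ne', Finsupp.add_apply]
  have e2 : (Nat.card A).factorization p + (A.index).factorization p =
      (Nat.card G).factorization p := by
    rw [← h2, Nat.factorization_mul Nat.card_pos.ne' hi0, Finsupp.add_apply]
  have e3 : (Nat.card (A ⊓ B : Subgroup G)).factorization p ≤ (Nat.card A).factorization p :=
    (Nat.factorization_le_iff_dvd Nat.card_pos.ne' Nat.card_pos.ne').mpr
      (Subgroup.card_dvd_of_le inf_le_left) p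
  rw [hp.pow_dvd_iff_le_factorization hr0]
  omega

theorem jordan_bound {n : ℕ} (ρ : Representation ℂ G (Fin n → ℂ)) (hinj : Function.Injective ρ)
    (A : Subgroup G)
    (hA : ∀ H : Subgroup G, (∀ x ∈ H, ∀ y ∈ H, x * y = y * x) → (A.subgroupOf H).index ≤ 12 ^ n) :
    A.index ≤ Nat.factorial n * 12 ^ (n * (Nat.primeCounting (n + 1) + 1)) := by
  classical
  have hfr : Module.finrank ℂ (Fin n → ℂ) = n := by simp
  have hi0 : A.index ≠ 0 := Subgroup.index_ne_zero_of_finite
  -- small primes
  have hsmall : ∀ p : ℕ, p.Prime → p ^ (A.index).factorization p ≤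
      p ^ (Nat.factorial n).factorization p * 12 ^ n := by
    intro p hp
    have hpf : Fact p.Prime := ⟨hp⟩
    let P : Sylow p G := default
    obtain ⟨k, hk⟩ := IsPGroup.iff_card.mp P.2
    have hnil : Group.IsNilpotent (P : Subgroup G) := IsPGroup.isNilpotent P.2
    obtain ⟨H, hHn, hHi, hHc⟩ := exists_abelian_normal (P := (P : Subgroup G))
      (ρ.comp (P : Subgroup G).subtype)
    rw [hfr] at hHi
    let H' : Subgroup G := H.map (P : Subgroup G).subtype
    have hH'P : H' ≤ (P : Subgroup G) := by
      rintro _ ⟨x, -, rfl⟩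
      exact x.2
    have hH'c : ∀ x ∈ H', ∀ y ∈ H', x * y = y * x := by
      rintro _ ⟨x, hx, rfl⟩ _ ⟨y, hy, rfl⟩
      apply hinj
      rw [map_mul, map_mul]
      exact hHc x hx y hy
    have hrel : H'.relIndex (P : Subgroup G) = H.index := by
      unfold Subgroup.relIndex
      congr 1
      exact Subgroup.comap_map_eq_self_of_injective (Subgroup.subtype_injective _) H
    have h1 : p ^ (A.index).factorization p ∣ A.relIndex (P : Subgroup G) := by
      apply ordProj_index_dvd A _ hp
      rw [Sylow.card_eq_multiplicity, hp.factorization_pow]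
      simp
    have h2 : (A ⊓ H').relIndex (P : Subgroup G) = A.relIndex H' * H'.relIndex (P : Subgroup G) := by
      rw [← Subgroup.relIndex_mul_relIndex (A ⊓ H') H' (P : Subgroup G) inf_le_right hH'P,
        Subgroup.inf_relIndex_right]
    have h3 : (A ⊓ H').relIndex (P : Subgroup G) ≠ 0 := by
      unfold Subgroup.relIndex
      exact Subgroup.index_ne_zero_of_finite
    have h4 : A.relIndex (P : Subgroup G) ≤ A.relIndex H' * H'.relIndex (P : Subgroup G) := by
      rw [← h2]
      exact Subgroup.relIndex_le_of_le_left inf_le_left h3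
    have h5 : A.relIndex H' ≤ 12 ^ n := hA H' hH'c
    have h6 : H'.relIndex (P : Subgroup G) ≤ p ^ (Nat.factorial n).factorization p := by
      rw [hrel]
      have h7 : H.index ∣ p ^ k := by
        rw [← hk]; exact Subgroup.index_dvd_card H
      obtain ⟨j, -, hj⟩ := (Nat.dvd_prime_pow hp).mp h7
      rw [hj] at hHi ⊢
      exact Nat.pow_le_pow_right hp.pos
        ((hp.pow_dvd_iff_le_factorization (Nat.factorial_ne_zero n)).mp hHi)
    have hApos : 0 < A.relIndex (P : Subgroup G) := by
      rcases Nat.eq_zero_or_pos (A.relIndex (P : Subgroup G)) with h0 | h0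
      · exfalso
        have := card_inf_mul_relIndex A (P : Subgroup G)
        rw [h0, zero_mul] at this
        exact Nat.card_pos.ne' this.symm
      · exact h0
    calc p ^ (A.index).factorization p ≤ A.relIndex (P : Subgroup G) := Nat.le_of_dvd hApos h1
      _ ≤ A.relIndex H' * H'.relIndex (P : Subgroup G) := h4
      _ ≤ 12 ^ n * p ^ (Nat.factorial n).factorization p := Nat.mul_le_mul h5 h6
      _ = _ := mul_comm _ _
  -- large primes
  obtain ⟨B, hBc, hBπ, hBi⟩ := blichfeldt_hall (Nat.card G) G ρ rfl hinj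
  have hBA : A.relIndex B ≤ 12 ^ n := hA B hBc
  have hApos : 0 < A.relIndex B := by
    rcases Nat.eq_zero_or_pos (A.relIndex B) with h0 | h0
    · exfalso
      have := card_inf_mul_relIndex A B
      rw [h0, zero_mul] at this
      exact Nat.card_pos.ne' this.symm
    · exact h0
  have hlarge : ∀ p : ℕ, p.Prime → n + 1 < p → p ^ (A.index).factorization p ∣ A.relIndex B := by
    intro p hp hnp
    apply ordProj_index_dvd A B hp
    have h1 := Subgroup.card_mul_index B
    have h2 : (B.index).factorization p = 0 := by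
      apply Nat.factorization_eq_zero_of_not_dvd
      intro h0
      have := hBi p hp h0
      omega
    rw [← h1, Nat.factorization_mul Nat.card_pos.ne' Subgroup.index_ne_zero_of_finite,
      Finsupp.add_apply, h2, add_zero]
  -- assemble
  have hfac : ∏ p ∈ A.index.primeFactors, p ^ (A.index).factorization p = A.index :=
    Nat.factorization_prod_pow_eq_self hi0
  rw [← Finset.prod_filter_mul_prod_filter_not A.index.primeFactors (fun p => n + 1 < p)] at hfac
  have hX : ∏ p ∈ A.index.primeFactors.filter (fun p => n + 1 < p),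
      p ^ (A.index).factorization p ≤ 12 ^ n := by
    refine le_trans (Nat.le_of_dvd hApos ?_) hBA
    apply Finset.prod_dvd_of_isRelPrime
    · intro p hp q hq hpq
      rw [Function.onFun, ← Nat.coprime_iff_isRelPrime]
      apply Nat.Coprime.pow
      rw [Finset.mem_coe, Finset.mem_filter] at hp hq
      exact (Nat.coprime_primes (Nat.prime_of_mem_primeFactors hp.1)
        (Nat.prime_of_mem_primeFactors hq.1)).mpr hpq
    · intro p hp
      rw [Finset.mem_filter] at hp
      exact hlarge p (Nat.prime_of_mem_primeFactors hp.1) hp.2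
  have hY : ∏ p ∈ A.index.primeFactors.filter (fun p => ¬ n + 1 < p),
      p ^ (A.index).factorization p ≤ Nat.factorial n * (12 ^ n) ^ (Nat.primeCounting (n + 1)) := by
    have hsub : A.index.primeFactors.filter (fun p => ¬ n + 1 < p) ⊆ Nat.primesLE (n + 1) := by
      intro p hp
      rw [Finset.mem_filter] at hp
      rw [Nat.primesLE_eq_filter_range, Finset.mem_filter, Finset.mem_range]
      exact ⟨by omega, Nat.prime_of_mem_primeFactors hp.1⟩
    have hfn : ∏ p ∈ Nat.primesLE (n + 1), p ^ (Nat.factorial n).factorization p =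
        Nat.factorial n := by
      have h1 : ∏ p ∈ (Nat.factorial n).primeFactors, p ^ (Nat.factorial n).factorization p =
          Nat.factorial n := Nat.factorization_prod_pow_eq_self (Nat.factorial_ne_zero n)
      conv_rhs => rw [← h1]
      symm
      apply Finset.prod_subset
      · intro p hp
        have hpp := Nat.prime_of_mem_primeFactors hp
        have h2 := (hpp.dvd_factorial).mp (Nat.dvd_of_mem_primeFactors hp)
        rw [Nat.primesLE_eq_filter_range, Finset.mem_filter, Finset.mem_range]
        exact ⟨by omega, hpp⟩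
      · intro p _ hp
        rw [← Nat.support_factorization, Finsupp.notMem_support_iff] at hp
        rw [hp, pow_zero]
    calc ∏ p ∈ A.index.primeFactors.filter (fun p => ¬ n + 1 < p), p ^ (A.index).factorization p
        ≤ ∏ p ∈ A.index.primeFactors.filter (fun p => ¬ n + 1 < p),
          (p ^ (Nat.factorial n).factorization p * 12 ^ n) := by
          apply Finset.prod_le_prod'
          intro p hp
          rw [Finset.mem_filter] at hp
          exact hsmall p (Nat.prime_of_mem_primeFactors hp.1)
      _ ≤ ∏ p ∈ Nat.primesLE (n + 1), (p ^ (Nat.factorial n).factorization p * 12 ^ n) := by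
          apply Finset.prod_le_prod_of_subset_of_one_le' hsub
          intro p hp _
          rw [Nat.primesLE_eq_filter_range, Finset.mem_filter] at hp
          have h1 : 0 < p ^ (Nat.factorial n).factorization p := pow_pos hp.2.pos _
          have h2 : 0 < 12 ^ n := by positivity
          exact Nat.mul_pos h1 h2
      _ = Nat.factorial n * (12 ^ n) ^ (Nat.primeCounting (n + 1)) := by
          rw [Finset.prod_mul_distrib, hfn, Finset.prod_const, Nat.primesLE_card_eq_primeCounting]
  rw [← hfac]
  calc _ ≤ 12 ^ n * (Nat.factorial n * (12 ^ n) ^ (Nat.primeCounting (n + 1))) :=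
        Nat.mul_le_mul hX hY
    _ = _ := by
        rw [pow_mul, pow_succ]
        ring

end Jordan

theorem st4469 {G : Type u} [Group G] [Finite G] (χ : G → ℂ) (hχ : IsCharacter G χ)
    (hfaith : ∀ g : G, χ g = χ 1 → g = 1) (n : ℕ) (hn : charDegree χ = n) :
    ∃ A : Subgroup G, A.Normal ∧ (∀ x ∈ A, ∀ y ∈ A, x * y = y * x) ∧
      A.index ≤ Nat.factorial n * 12 ^ (n * (Nat.primeCounting (n + 1) + 1)) := by
  obtain ⟨A, h1, h2, h3⟩ := st4470 χ hχ hfaith n hn
  obtain ⟨ρ, -, hinj⟩ := exists_faithful_rep hχ hfaith hn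
  exact ⟨A, h1, h2, jordan_bound ρ hinj A h3⟩

end Cfsg.Agent.H11
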