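import Cfsg.Agent.H11.RegUnit
import Cfsg.Agent.H26.ModSum

set_option autoImplicit false
set_option linter.unusedSectionVars false

/-!
Knörr's theorem: a character vanishing on the elements of order `p` has defect zero.
-/

namespace Cfsg.Agent.H11

open Cfsg Finset Cfsg.Agent.H3
open Cfsg.Agent.L (cj nz SylIn)
open scoped ComplexConjugate

section orbit

/-- Orbit sums. -/
lemma li_orbit_sum {M : Ideal AlgInt} [hpr : M.IsPrime] {P : Type*} [Group P] [Finite P]
    {α : Type*} [MulAction P α] [Fintype α] (f : α → ℂ)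
    (hinv : ∀ (u : P) (x : α), f (u • x) = f x)
    (h : ∀ x : α, MemLocalIdeal M (f x / (Nat.card (MulAction.stabilizer P x) : ℂ))) :
    MemLocalIdeal M ((∑ x, f x) / (Nat.card P : ℂ)) := by
  classical
  have : Fintype (Quotient (MulAction.orbitRel P α)) := Fintype.ofFinite _
  have hfo : ∀ x : α, Fintype (MulAction.orbit P x) := fun x => Fintype.ofFinite _
  have h1 : ∑ x, f x = ∑ ω : Quotient (MulAction.orbitRel P α),
      (Nat.card (MulAction.orbit P ω.out) : ℂ) * f ω.out := by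
    rw [← (MulAction.selfEquivSigmaOrbits P α).symm.sum_comp f, Fintype.sum_sigma]
    refine Finset.sum_congr rfl fun ω _ => ?_
    have h2 : ∀ a : MulAction.orbit P ω.out,
        f ((MulAction.selfEquivSigmaOrbits P α).symm ⟨ω, a⟩) = f ω.out := by
      rintro ⟨_, u, rfl⟩
      exact hinv u ω.out
    rw [Finset.sum_congr rfl (fun a _ => h2 a), Finset.sum_const, Finset.card_univ,
      nsmul_eq_mul, Nat.card_eq_fintype_card]
  rw [h1, Finset.sum_div]
  apply li_sum
  intro ω _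
  have h3 : Nat.card (MulAction.orbit P ω.out) * Nat.card (MulAction.stabilizer P ω.out) =
      Nat.card P := by
    rw [← Nat.card_prod]
    exact Nat.card_congr (MulAction.orbitProdStabilizerEquivGroup P ω.out)
  have h4 : (Nat.card (MulAction.orbit P ω.out) : ℂ) ≠ 0 := by
    have : Nonempty (MulAction.orbit P ω.out) := ⟨⟨_, MulAction.mem_orbit_self _⟩⟩
    exact_mod_cast Nat.card_pos.ne'
  have h5 : (Nat.card (MulAction.stabilizer P ω.out) : ℂ) ≠ 0 := by
    exact_mod_cast Nat.card_pos.ne'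
  have h6 : (Nat.card (MulAction.orbit P ω.out) : ℂ) * f ω.out / (Nat.card P : ℂ) =
      f ω.out / (Nat.card (MulAction.stabilizer P ω.out) : ℂ) := by
    rw [← h3]
    push_cast
    field_simp
  rw [h6]
  exact h _

variable {G : Type*} [Group G]

/-- Conjugation action of a subgroup on a stable subtype. -/
@[reducible] def conjAct (X : Subgroup G) (S : G → Prop)
    (hS : ∀ u ∈ X, ∀ g, S g → S (u * g * u⁻¹)) : MulAction X {g : G // S g} where
  smul u g := ⟨(u : G) * g.1 * (u : G)⁻¹, hS u u.2 g.1 g.2⟩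
  one_smul g := by
    apply Subtype.ext
    show ((1 : X) : G) * g.1 * ((1 : X) : G)⁻¹ = g.1
    simp
  mul_smul u v g := by
    apply Subtype.ext
    show ((u * v : X) : G) * g.1 * ((u * v : X) : G)⁻¹ =
      (u : G) * ((v : G) * g.1 * (v : G)⁻¹) * (u : G)⁻¹
    rw [Subgroup.coe_mul]; group

lemma card_stab_conjAct (X : Subgroup G) (S : G → Prop)
    (hS : ∀ u ∈ X, ∀ g, S g → S (u * g * u⁻¹)) (g : {g : G // S g}) :
    Nat.card (@MulAction.stabilizer X _ _ (conjAct X S hS) g) =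
      Nat.card (X ⊓ C1 g.1 : Subgroup G) := by
  let _ := conjAct X S hS
  refine Nat.card_congr
    { toFun := fun u => ⟨((u : X) : G), ?_⟩
      invFun := fun u => ⟨⟨u.1, (Subgroup.mem_inf.mp u.2).1⟩, ?_⟩
      left_inv := fun u => rfl
      right_inv := fun u => rfl }
  · refine Subgroup.mem_inf.mpr ⟨(u : X).2, ?_⟩
    rw [mem_C1]
    have h : ((u : X) : G) * g.1 * ((u : X) : G)⁻¹ = g.1 := congrArg Subtype.val u.2
    exact mul_inv_eq_iff_eq_mul.mp h
  · show (⟨u.1, _⟩ : X) • g = g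
    apply Subtype.ext
    show u.1 * g.1 * u.1⁻¹ = g.1
    have h := mem_C1.mp (Subgroup.mem_inf.mp u.2).2
    rw [h, mul_inv_cancel_right]

end orbit

section knorr

variable {G : Type*} [Group G] [Fintype G] {p : ℕ} {M : Ideal AlgInt}

/-- Sums over sets stable under a subgroup only depend on the block. -/
lemma li_sum_sub (hM : IsPModular p M) {χ θ : IrrCharacter G}
    (hb : SameBlock M (χ : G → ℂ) (θ : G → ℂ)) (X : Subgroup G) (S : G → Prop)
    [Fintype {g : G // S g}]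
    (hS : ∀ u ∈ X, ∀ g, S g → S (u * g * u⁻¹)) :
    MemLocalIdeal M ((∑ z : {g : G // S g}, ((Nat.card G : ℂ) * ((χ : G → ℂ) z / (χ : G → ℂ) 1) -
      (Nat.card G : ℂ) * ((θ : G → ℂ) z / (θ : G → ℂ) 1))) / (Nat.card X : ℂ)) := by
  classical
  have hpr := hM.2.1.isPrime
  let _ := conjAct X S hS
  apply li_orbit_sum
  · intro u x
    have e1 : (((u • x : {g : G // S g}) : G)) = (u : G) * x.1 * (u : G)⁻¹ := rfl
    rw [e1, irr_classFun χ.2, irr_classFun θ.2]
  · intro x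
    rw [card_stab_conjAct]
    obtain ⟨m, hm⟩ : Nat.card (X ⊓ C1 x.1 : Subgroup G) ∣ Nat.card (C1 x.1) :=
      Subgroup.card_dvd_of_le inf_le_right
    have h1 : (Nat.card (X ⊓ C1 x.1 : Subgroup G) : ℂ) ≠ 0 := by exact_mod_cast Nat.card_pos.ne'
    have h2 : (Nat.card G : ℂ) = ((C1 x.1).index : ℂ) * (Nat.card (C1 x.1) : ℂ) := by
      rw [← Nat.cast_mul, Subgroup.index_mul_card]
    have h3 : ((Nat.card G : ℂ) * ((χ : G → ℂ) x / (χ : G → ℂ) 1) -
      (Nat.card G : ℂ) * ((θ : G → ℂ) x / (θ : G → ℂ) 1)) /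
        (Nat.card (X ⊓ C1 x.1 : Subgroup G) : ℂ) =
        (m : ℂ) * (centralChar (χ : G → ℂ) x - centralChar (θ : G → ℂ) x) := by
      rw [h2, hm]
      push_cast
      unfold centralChar
      have hχ1 := irr_one_ne_zero χ.2
      have hθ1 := irr_one_ne_zero θ.2
      show _ = (m : ℂ) * (((C1 x.1).index : ℂ) * (χ : G → ℂ) x.1 / (χ : G → ℂ) 1 -
        ((C1 x.1).index : ℂ) * (θ : G → ℂ) x.1 / (θ : G → ℂ) 1)
      field_simp
    rw [h3]
    exact li_mul_left (lr_natCast M _) (hb x.1)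

/-- The inner vanishing. -/
lemma li_sum_translate (hM : IsPModular p M) {θ : IrrCharacter G} {P X : Subgroup G}
    (hXp : IsPGroup p X) (hXP : X ≤ P) (hX : X ≠ ⊥) {y : G} (hy : X ≤ C1 y)
    [Fintype {g : G // g ∈ P ∧ g ^ p = 1}] :
    MemLocalIdeal M (∑ z : {g : G // g ∈ P ∧ g ^ p = 1}, (θ : G → ℂ) (y * z)) := by
  classical
  have hpr := hM.2.1.isPrime
  have hp := hM.1
  have hfp := Fact.mk hp
  -- restrict to the centralizer of X
  have hS : ∀ u ∈ X, ∀ g : G, (g ∈ P ∧ g ^ p = 1) →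
      (u * g * u⁻¹ ∈ P ∧ (u * g * u⁻¹) ^ p = 1) := by
    rintro u hu g ⟨h1, h2⟩
    refine ⟨mul_mem (mul_mem (hXP hu) h1) (inv_mem (hXP hu)), ?_⟩
    rw [conj_pow, h2, mul_one, mul_inv_cancel]
  have hch : CharP (Cfsg.Agent.H26.KF M) p := Cfsg.Agent.H26.charP_KF hM
  have hA : ∀ a : Cfsg.Agent.H26.KF M, p • a = 0 := by
    intro a
    rw [nsmul_eq_mul, CharP.cast_eq_zero, zero_mul]
  have hlr : ∀ z : {g : G // g ∈ P ∧ g ^ p = 1}, MemLocalRing M ((θ : G → ℂ) (y * z)) :=
    fun z => lr_char θ.2 _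
  rw [← Cfsg.Agent.H26.rd_eq_zero_iff (lr_sum _ _ fun z _ => hlr z),
    Cfsg.Agent.H26.rd_sum _ _ (fun z _ => hlr z)]
  let act1 := conjAct X (fun g => g ∈ P ∧ g ^ p = 1) hS
  rw [Cfsg.Agent.H26.sum_eq_sum_fixedPoints hXp hA
    (fun z : {g : G // g ∈ P ∧ g ^ p = 1} => Cfsg.Agent.H26.rd M ((θ : G → ℂ) (y * z)))
    (fun u z => by
      have e1 : (((u • z : {g : G // g ∈ P ∧ g ^ p = 1}) : G)) = (u : G) * z.1 * (u : G)⁻¹ := rfl
      have hu : (u : G) * y = y * u := mem_C1.mp (hy u.2)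
      have e2 : y * ((u : G) * z.1 * (u : G)⁻¹) = (u : G) * (y * z.1) * (u : G)⁻¹ := by
        rw [← mul_assoc, ← mul_assoc, ← hu]; group
      rw [e1, e2, irr_classFun θ.2])]
  -- an element of order p in the centre
  obtain ⟨x, hxX, hx1, hxc⟩ : ∃ x ∈ X, orderOf x = p ∧ ∀ w ∈ X, x * w = w * x := by
    obtain ⟨x, hxX, hx1, hxc⟩ := exists_centre_ne_one hp hXp hX
    obtain ⟨k, hk⟩ := (IsPGroup.iff_orderOf.mp hXp) ⟨x, hxX⟩
    rw [Subgroup.orderOf_mk] at hk
    have hk0 : k ≠ 0 := by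
      rintro rfl
      rw [pow_zero, orderOf_eq_one_iff] at hk
      exact hx1 hk
    refine ⟨x ^ (p ^ (k - 1)), pow_mem hxX _, ?_, ?_⟩
    · rw [orderOf_pow_of_dvd (pow_ne_zero _ hp.ne_zero), hk, Nat.pow_div (by omega) hp.pos]
      · have : k - (k - 1) = 1 := by omega
        rw [this, pow_one]
      · rw [hk]; exact pow_dvd_pow _ (by omega)
    · intro w hw
      exact (Commute.pow_left (hxc w hw) _).eq
  rw [← Finset.sum_coe_sort]
  -- the group generated by x acts freely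
  let Zt := {z // z ∈ (Finset.univ : Finset {g : G // g ∈ P ∧ g ^ p = 1}).filter
    (· ∈ MulAction.fixedPoints X {g : G // g ∈ P ∧ g ^ p = 1})}
  have hfix : ∀ z : Zt, ∀ u ∈ X, u * (z.1.1 : G) = z.1.1 * u := by
    intro z u hu
    have h1 := (Finset.mem_filter.mp z.2).2 ⟨u, hu⟩
    have h2 : u * z.1.1 * u⁻¹ = z.1.1 := congrArg Subtype.val h1
    exact mul_inv_eq_iff_eq_mul.mp h2
  have hmk : ∀ w : G, w ∈ Subgroup.zpowers x → ∀ z : Zt,
      (w * z.1.1 ∈ P ∧ (w * z.1.1) ^ p = 1) := by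
    rintro w ⟨i, rfl⟩ z
    have hxi : x ^ i ∈ X := zpow_mem hxX i
    refine ⟨mul_mem (hXP hxi) z.1.2.1, ?_⟩
    have hc : Commute (x ^ i) z.1.1 := hfix z _ hxi
    have h1 : (x ^ i) ^ p = 1 := by
      rw [← zpow_natCast, ← zpow_mul, mul_comm, zpow_mul, zpow_natCast, ← hx1,
        pow_orderOf_eq_one, one_zpow]
    show (x ^ i * z.1.1) ^ p = 1
    rw [hc.mul_pow, h1, z.1.2.2, one_mul]
  have hmk2 : ∀ (w : G) (hw : w ∈ Subgroup.zpowers x) (z : Zt),
      (⟨w * z.1.1, hmk w hw z⟩ : {g : G // g ∈ P ∧ g ^ p = 1}) ∈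
        (Finset.univ : Finset {g : G // g ∈ P ∧ g ^ p = 1}).filter
        (· ∈ MulAction.fixedPoints X {g : G // g ∈ P ∧ g ^ p = 1}) := by
    rintro w ⟨i, rfl⟩ z
    rw [Finset.mem_filter]
    refine ⟨Finset.mem_univ _, ?_⟩
    intro u
    apply Subtype.ext
    show (u : G) * (x ^ i * z.1.1) * (u : G)⁻¹ = x ^ i * z.1.1
    have hc : (u : G) * x ^ i = x ^ i * u := by
      have : Commute x (u : G) := hxc u u.2
      exact ((this.zpow_left i).eq).symm
    rw [← mul_assoc, hc, mul_assoc (x ^ i), hfix z u u.2]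
    group
  let act2 : MulAction (Subgroup.zpowers x) Zt :=
    { smul := fun w z => ⟨⟨(w : G) * z.1.1, hmk w w.2 z⟩, hmk2 w w.2 z⟩
      one_smul := fun z => by
        apply Subtype.ext; apply Subtype.ext
        show ((1 : Subgroup.zpowers x) : G) * z.1.1 = z.1.1
        simp
      mul_smul := fun v w z => by
        apply Subtype.ext; apply Subtype.ext
        show ((v * w : Subgroup.zpowers x) : G) * z.1.1 = (v : G) * ((w : G) * z.1.1)
        rw [Subgroup.coe_mul, mul_assoc] }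
  have hzp : IsPGroup p (Subgroup.zpowers x) :=
    IsPGroup.of_card (n := 1) (by rw [Nat.card_zpowers, hx1, pow_one])
  have hval : ∀ z : Zt, y * z.1.1 = y * z.1.1 := fun _ => rfl
  rw [Cfsg.Agent.H26.sum_eq_sum_fixedPoints (α := Zt) hzp hA
    (fun z : Zt => Cfsg.Agent.H26.rd M ((θ : G → ℂ) (y * z.1.1)))
    (fun w z => by
      show Cfsg.Agent.H26.rd M ((θ : G → ℂ) (y * ((w : G) * z.1.1))) =
        Cfsg.Agent.H26.rd M ((θ : G → ℂ) (y * z.1.1))
      obtain ⟨w, i, rfl⟩ := w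
      have hxi : x ^ i ∈ X := zpow_mem hxX i
      have h1 : y * (x ^ i * z.1.1) = x ^ i * (y * z.1.1) := by
        rw [← mul_assoc, ← mem_C1.mp (hy hxi), mul_assoc]
      show Cfsg.Agent.H26.rd M ((θ : G → ℂ) (y * (x ^ i * z.1.1))) = _
      rw [h1, Cfsg.Agent.H26.rd_eq_iff (lr_char θ.2 _) (lr_char θ.2 _)]
      apply li_char_mul_sub hM (irr_isChar θ.2)
      · have c1 : Commute (x ^ i) y := mem_C1.mp (hy hxi)
        have c2 : Commute (x ^ i) z.1.1 := hfix z _ hxi
        exact c1.mul_right c2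
      · obtain ⟨k, hk⟩ := (IsPGroup.iff_orderOf.mp hXp) ⟨x ^ i, hxi⟩
        rw [Subgroup.orderOf_mk] at hk
        exact ⟨k, hk⟩)]
  apply Finset.sum_eq_zero
  intro z hz
  exfalso
  have h1 := (Finset.mem_filter.mp hz).2 ⟨x, Subgroup.mem_zpowers x⟩
  have h2 : x * z.1.1 = z.1.1 := congrArg (fun z : Zt => z.1.1) h1
  have h3 : x = 1 := mul_eq_right.mp h2
  rw [h3, orderOf_one] at hx1
  exact hp.one_lt.ne hx1

lemma height_zero_sum (hM : IsPModular p M) {B : Set (IrrCharacter G)} (hB : IsPBlock M B)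
    {θ : IrrCharacter G} (hθ : θ ∈ B) {D : Subgroup G} (hD : IsDefectGroup p M B D)
    (hne : D ≠ ⊥) {P : Subgroup G} (hP : IsPGroup p P)
    [Fintype {g : G // g ∈ P ∧ g ^ p = 1}] :
    MemLocalIdeal M (((Nat.card D : ℂ) *
      ∑ z : {g : G // g ∈ P ∧ g ^ p = 1}, (θ : G → ℂ) z) / (Nat.card P : ℂ)) := by
  classical
  have hpr := hM.2.1.isPrime
  have hp := hM.1
  have hfp := Fact.mk hp
  obtain ⟨g₀, hg₀, hS₀⟩ := (isDefectGroup_iff hM).mp hD
  have hDp : IsPGroup p D := IsDefectGroup.isPGroup hM hD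
  have hSt : ∀ u ∈ P, ∀ g : G, IsConj g₀ g → IsConj g₀ (u * g * u⁻¹) := fun u _ g hg =>
    hg.trans (isConj_iff.mpr ⟨u, rfl⟩)
  have hlr : ∀ w : G, MemLocalRing M ((θ : G → ℂ) w) := fun w => lr_char θ.2 _
  let _ := conjAct P (fun g => IsConj g₀ g) hSt
  have hDk : ∃ a, Nat.card D = p ^ a := IsPGroup.iff_card.mp hDp
  obtain ⟨a, ha⟩ := hDk
  have h1 : MemLocalIdeal M ((∑ y : {g : G // IsConj g₀ g}, (Nat.card D : ℂ) *
      ∑ z : {g : G // g ∈ P ∧ g ^ p = 1}, (θ : G → ℂ) (y.1 * z.1)) / (Nat.card P : ℂ)) := by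
    apply li_orbit_sum
    · intro u y
      have e1 : (((u • y : {g : G // IsConj g₀ g}) : G)) = (u : G) * y.1 * (u : G)⁻¹ := rfl
      rw [e1]
      congr 1
      let e : {g : G // g ∈ P ∧ g ^ p = 1} ≃ {g : G // g ∈ P ∧ g ^ p = 1} :=
        { toFun := fun z => ⟨(u : G) * z.1 * (u : G)⁻¹,
            mul_mem (mul_mem u.2 z.2.1) (inv_mem u.2), by
              rw [conj_pow, z.2.2, mul_one, mul_inv_cancel]⟩
          invFun := fun z => ⟨(u : G)⁻¹ * z.1 * (u : G),
            mul_mem (mul_mem (inv_mem u.2) z.2.1) u.2, by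
              have := conj_pow (i := p) (a := (u : G)⁻¹) (b := z.1)
              rw [inv_inv] at this
              rw [this, z.2.2, mul_one, inv_mul_cancel]⟩
          left_inv := fun z => by
            apply Subtype.ext
            show (u : G)⁻¹ * ((u : G) * z.1 * (u : G)⁻¹) * (u : G) = z.1
            group
          right_inv := fun z => by
            apply Subtype.ext
            show (u : G) * ((u : G)⁻¹ * z.1 * (u : G)) * (u : G)⁻¹ = z.1
            group }
      rw [← e.sum_comp]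
      refine Finset.sum_congr rfl fun z _ => ?_
      have e2 : (u : G) * y.1 * (u : G)⁻¹ * (e z).1 = (u : G) * (y.1 * z.1) * (u : G)⁻¹ := by
        show (u : G) * y.1 * (u : G)⁻¹ * ((u : G) * z.1 * (u : G)⁻¹) = _
        group
      rw [e2, irr_classFun θ.2]
    · intro y
      rw [card_stab_conjAct]
      set X : Subgroup G := P ⊓ C1 y.1 with hX
      have hXp : IsPGroup p X := hP.to_le inf_le_left
      obtain ⟨j, hj⟩ := IsPGroup.iff_card.mp hXp
      have hle : Nat.card X ≤ Nat.card D := by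
        obtain ⟨c, hc⟩ := isConj_iff.mp y.2
        have h2 := hS₀.cj c
        rw [cj_C1, hc] at h2
        rw [← Cfsg.Agent.L.card_cj c D]
        exact h2.card_le hXp inf_le_right
      rw [hj, ha] at hle
      have hja : j ≤ a := (Nat.pow_le_pow_iff_right hp.one_lt).mp hle
      have hp0 : (p : ℂ) ≠ 0 := by exact_mod_cast hp.ne_zero
      have hsumlr : MemLocalRing M (∑ z : {g : G // g ∈ P ∧ g ^ p = 1},
          (θ : G → ℂ) (y.1 * z.1)) := lr_sum _ _ fun z _ => hlr _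
      have h3 : (Nat.card D : ℂ) * (∑ z : {g : G // g ∈ P ∧ g ^ p = 1},
          (θ : G → ℂ) (y.1 * z.1)) / (Nat.card X : ℂ) =
          ((p : ℂ) ^ (a - j)) * ∑ z : {g : G // g ∈ P ∧ g ^ p = 1}, (θ : G → ℂ) (y.1 * z.1) := by
        rw [ha, hj]
        push_cast
        have : (p : ℂ) ^ a = (p : ℂ) ^ (a - j) * (p : ℂ) ^ j := by
          rw [← pow_add]; congr 1; omega
        rw [this]
        field_simp
      rw [h3]
      rcases hja.eq_or_lt with h4 | h4
      · rw [h4, Nat.sub_self, pow_zero, one_mul]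
        have hXne : X ≠ ⊥ := by
          intro h5
          have h6 : Nat.card X = Nat.card D := by rw [hj, ha, h4]
          rw [h5, Subgroup.card_bot] at h6
          exact hne (Subgroup.card_eq_one.mp h6.symm)
        exact li_sum_translate hM hXp inf_le_left hXne inf_le_right
      · apply li_mul_right _ hsumlr
        have h5 : (p : ℂ) ^ (a - j) = (p : ℂ) * (p : ℂ) ^ (a - j - 1) := by
          rw [← pow_succ']; congr 1; omega
        rw [h5]
        exact li_mul_right (li_p hM) (lr_pow (lr_natCast M p) _)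
  have h2 : (∑ y : {g : G // IsConj g₀ g}, (Nat.card D : ℂ) *
      ∑ z : {g : G // g ∈ P ∧ g ^ p = 1}, (θ : G → ℂ) (y.1 * z.1)) =
      centralChar (θ : G → ℂ) g₀ * ((Nat.card D : ℂ) *
        ∑ z : {g : G // g ∈ P ∧ g ^ p = 1}, (θ : G → ℂ) z) := by
    rw [← Finset.mul_sum, Finset.sum_comm, mul_left_comm]
    congr 1
    rw [Finset.mul_sum]
    refine Finset.sum_congr rfl fun z _ => ?_
    have h3 := lin_mul_of_isCen θ.2 (isCen_csum g₀) (MonoidAlgebra.single z.1 1)
    rw [lin_single, one_mul, omega_csum (irr_classFun θ.2), lin_mul_single'] at h3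
    rw [← h3]
    rw [← Finset.sum_subtype (Finset.univ.filter (fun y : G => IsConj g₀ y))
      (p := fun y => IsConj g₀ y) (fun y => by simp) (fun y : G => (θ : G → ℂ) (y * z.1)),
      Finset.sum_filter]
    refine Finset.sum_congr rfl fun y _ => ?_
    unfold csum
    rw [coeff_toAlg]
    split_ifs <;> simp
  rw [h2, mul_div_assoc] at h1
  have h4 : ¬ MemLocalIdeal M (centralChar (θ : G → ℂ) g₀) := hg₀.2.2 θ hθ
  have h5 := li_div h1 (lr_centralChar θ.2 g₀) h4
  have h6 := ne_zero_of_not_li h4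
  rwa [mul_div_cancel_left₀ _ h6] at h5

/-- **Knörr's theorem.** -/
theorem knorr (hM : IsPModular p M) {χ : IrrCharacter G}
    (hvan : ∀ g : G, orderOf g = p → (χ : G → ℂ) g = 0) :
    (charDegree (χ : G → ℂ)).factorization p = (Nat.card G).factorization p := by
  classical
  have hpr := hM.2.1.isPrime
  have hp := hM.1
  have hfp := Fact.mk hp
  have hle : (charDegree (χ : G → ℂ)).factorization p ≤ (Nat.card G).factorization p :=
    (Nat.factorization_le_iff_dvd (charDegree_spec χ.2).2 Nat.card_pos.ne').mpr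
      (Cfsg.Agent.H27.charDegree_dvd_card χ.2) p
  apply le_antisymm hle
  set B := blockOf M (χ : G → ℂ) with hBdef
  have hB : IsPBlock M B := ⟨χ, rfl⟩
  have hχ : χ ∈ B := mem_blockOf_self χ
  obtain ⟨D, hD⟩ := exists_isDefectGroup hM hB
  by_cases hne : D = ⊥
  · have h1 := le_fact_index hM hB hD hχ
    rw [hne, Subgroup.index_bot] at h1
    exact h1
  exfalso
  obtain ⟨θ, hθ, hθ0⟩ := exists_height_zero hM hB
  let P : Sylow p G := default
  let _ : Fintype {g : G // g ∈ (P : Subgroup G) ∧ g ^ p = 1} := Fintype.ofFinite _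
  have hP0 : (Nat.card P : ℂ) ≠ 0 := by exact_mod_cast Nat.card_pos.ne'
  have h1 := height_zero_sum hM hB hθ hD hne P.isPGroup'
  have h2 := li_sum_sub hM (isPBlock_sameBlock hB hχ hθ) (P : Subgroup G)
    (fun g => g ∈ (P : Subgroup G) ∧ g ^ p = 1) (by
      rintro u hu g ⟨h1, h2⟩
      refine ⟨mul_mem (mul_mem hu h1) (inv_mem hu), ?_⟩
      rw [conj_pow, h2, mul_one, mul_inv_cancel])
  have h3 : ∑ z : {g : G // g ∈ (P : Subgroup G) ∧ g ^ p = 1}, (χ : G → ℂ) z = (χ : G → ℂ) 1 := by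
    rw [Finset.sum_eq_single (⟨1, one_mem _, one_pow p⟩ :
      {g : G // g ∈ (P : Subgroup G) ∧ g ^ p = 1})]
    · intro z _ hz
      apply hvan
      exact orderOf_eq_prime z.2.2 (fun h => hz (Subtype.ext h))
    · intro h; exact absurd (Finset.mem_univ _) h
  have hχ1 := irr_one_ne_zero χ.2
  have hθ1 := irr_one_ne_zero θ.2
  obtain ⟨hd1, hd2⟩ := charDegree_spec θ.2
  have hD0 : Nat.card D ≠ 0 := Nat.card_pos.ne'
  have hDc : (Nat.card D : ℂ) ≠ 0 := by exact_mod_cast hD0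
  have h4 : (∑ z : {g : G // g ∈ (P : Subgroup G) ∧ g ^ p = 1},
      ((Nat.card G : ℂ) * ((χ : G → ℂ) z / (χ : G → ℂ) 1) -
      (Nat.card G : ℂ) * ((θ : G → ℂ) z / (θ : G → ℂ) 1))) / (Nat.card (P : Subgroup G) : ℂ) =
      (Nat.card G : ℂ) / (Nat.card P : ℂ) -
      ((Nat.card G : ℂ) / ((charDegree (θ : G → ℂ) * Nat.card D : ℕ) : ℂ)) *
      (((Nat.card D : ℂ) *
      ∑ z : {g : G // g ∈ (P : Subgroup G) ∧ g ^ p = 1}, (θ : G → ℂ) z) /
        (Nat.card (P : Subgroup G) : ℂ)) := by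
    rw [Finset.sum_sub_distrib, ← Finset.mul_sum, ← Finset.mul_sum, ← Finset.sum_div,
      ← Finset.sum_div, h3, div_self hχ1, hd1]
    push_cast
    have hd3 : (charDegree (θ : G → ℂ) : ℂ) ≠ 0 := by exact_mod_cast hd2
    field_simp
  rw [h4] at h2
  have h5 : MemLocalRing M ((Nat.card G : ℂ) / ((charDegree (θ : G → ℂ) * Nat.card D : ℕ) : ℂ)) := by
    apply lr_natDiv hM Nat.card_pos.ne' (mul_ne_zero hd2 hD0)
    rw [Nat.factorization_mul hd2 hD0, Finsupp.add_apply, fact_height_zero_index hM hB hD hθ hθ0,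
      ← Finsupp.add_apply, ← Nat.factorization_mul Subgroup.index_ne_zero_of_finite hD0,
      Subgroup.index_mul_card]
  have h6 := li_add h2 (li_mul_left h5 h1)
  rw [sub_add_cancel] at h6
  have h7 : (Nat.card G : ℂ) / (Nat.card P : ℂ) = ((P : Subgroup G).index : ℂ) := by
    rw [← Subgroup.index_mul_card (P : Subgroup G)]
    push_cast
    field_simp
  rw [h7, li_natCast_iff hM] at h6
  exact P.not_dvd_index h6

end knorr

end Cfsg.Agent.H11
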