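import Cfsg.Agent.H11.Leon4
import Cfsg.Agent.H3.TI
import Cfsg.Agent.H3.BurnsidePQ

set_option autoImplicit false
set_option linter.unusedSectionVars false
open Cfsg Cfsg.Agent.H3 Finset
open scoped ComplexConjugate commutatorElement Pointwise

namespace Cfsg.Agent.H11
namespace Leon

universe u

variable {G : Type u} [Group G] [Fintype G] {p : ℕ} [hpf : Fact p.Prime] {P : Sylow p G}
variable {M : Ideal AlgInt}

theorem ker_normal_of {ψ : G → ℂ} (hψ : IsIrrCharacter G ψ) (hψ1 : ψ ≠ fun _ => 1)
    (h : ∀ u ∈ (P : Subgroup G), ψ u = ψ 1) :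
    ∃ K : Subgroup G, K.Normal ∧ K ≠ ⊤ ∧ (P : Subgroup G) ≤ K := by
  refine ⟨H27.charKer (irr_isChar hψ), H27.charKer_normal _, ?_, ?_⟩
  · intro h3
    apply hψ1
    apply irr_eq_one_of_ker hψ
    intro g
    rw [← H27.mem_charKer (irr_isChar hψ), h3]
    trivial
  · intro u hu
    rw [H27.mem_charKer]
    exact h u hu

theorem main_noncentral (h : Star P) (hne : (P : Subgroup G) ≠ ⊥) {w : G}
    (hw : w ∈ NP P) (hw' : w ∉ CP P) {χ : G → ℂ} (hχ : IsIrrCharacter G χ)
    (hχ1 : χ ≠ fun _ => 1) {d : ℕ} (hd : χ 1 = d) (hdeg : d ^ 2 + 1 < Nat.card (P : Subgroup G)) :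
    ∃ K : Subgroup G, K.Normal ∧ K ≠ ⊤ ∧ (P : Subgroup G) ≤ K := by
  classical
  obtain ⟨M, hM⟩ := H27.exists_isPModular hpf.out
  have hd1 : d + 1 < Nat.card (P : Subgroup G) := by nlinarith [Nat.zero_le d, sq_nonneg d, Nat.le_self_pow (two_ne_zero) d]
  by_cases hker : ∀ u ∈ (P : Subgroup G), χ u = χ 1
  · exact ker_normal_of hχ hχ1 hker
  · push Not at hker
    obtain ⟨χ', hχ', hne', hdeg', hag⟩ := partner h hne hχ hker hd hd1
    obtain ⟨ψ, hψ1, k, hk0, hk⟩ := exists_good hM h hne hw hw'
    obtain ⟨e, he0, he⟩ := irr_one_eq_nat ψ.2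
    have hle : e ≤ d ^ 2 := by
      rcases theta hχ hχ' hne' hag ψ.2 hk0 hk with h1 | h1
      · refine char_degree_le_of_inner_ne_zero
          (isChar_mul (irr_isChar hχ) (isChar_conj (irr_isChar hχ))) ψ.2 h1 ?_ he
        simp [hd, sq]
      · refine char_degree_le_of_inner_ne_zero
          (isChar_mul (irr_isChar hχ) (isChar_conj (irr_isChar hχ'))) ψ.2 h1 ?_ he
        simp [hd, hdeg', sq]
    refine ker_normal_of ψ.2 hψ1 (ker_of_const h (irr_isChar ψ.2) (k := k) ?_ he (by omega))
    intro u hu hu1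
    refine hk u ⟨le_CP h hu, ?_⟩
    obtain ⟨j, hj⟩ := pow_p_of_mem hu
    rw [hj]
    rcases Nat.eq_zero_or_pos j with h3 | h3
    · exfalso
      apply hu1
      rw [← orderOf_eq_one_iff, hj, h3, pow_zero]
    · exact dvd_pow_self p h3.ne'

/-- retraction onto a Sylow subgroup with `N(P) ≤ C(P)` -/
theorem exists_retract_gen (hS : NP P ≤ CP P) (hne : (P : Subgroup G) ≠ ⊥) :
    (∃ f : G →* (P : Subgroup G),
      (∀ c : G, ∀ hc : c ∈ (P : Subgroup G), f c = ⟨c, hc⟩) ∧
      ∀ c : G, f c = 1 ↔ ¬ p ∣ orderOf c) ∧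
    ∃ N : Subgroup G, N.Normal ∧ N.index = Nat.card (P : Subgroup G) := by
  classical
  let t := MonoidHom.transferSylow P hS
  set k := (P : Subgroup G).index with hk
  have hkp : ¬ p ∣ k := P.not_dvd_index
  obtain ⟨n, hn⟩ := IsPGroup.iff_card.mp P.isPGroup'
  have hcard : 1 < Nat.card (P : Subgroup G) := (Subgroup.one_lt_card_iff_ne_bot _).mpr hne
  have hcop : Nat.Coprime k (Nat.card (P : Subgroup G)) := by
    rw [hn]
    exact Nat.Coprime.pow_right _ (Nat.coprime_comm.mp ((Nat.Prime.coprime_iff_not_dvd hpf.out).mpr hkp))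
  obtain ⟨m, -, hm⟩ := Nat.exists_mul_mod_eq_one_of_coprime hcop hcard
  have hpow : ∀ s : (P : Subgroup G), s ^ (k * m) = s := by
    intro s
    rw [← pow_mod_natCard, hm, pow_one]
  have hScomm : ∀ a b : (P : Subgroup G), a * b = b * a := fun a b => by
    have h1 := hS (Subgroup.le_normalizer b.2)
    exact Subtype.ext (Subgroup.mem_centralizer_iff.mp h1 a a.2)
  let f0 : G →* (P : Subgroup G) :=
    { toFun := fun c => (t c) ^ m
      map_one' := by simp
      map_mul' := fun a b => by
        rw [map_mul]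
        exact (show Commute (t a) (t b) from hScomm _ _).mul_pow m }
  refine ⟨⟨f0, ?_, ?_⟩, t.ker, inferInstance, ?_⟩
  · intro c hc
    have h1 : t c = ⟨c, hc⟩ ^ k := by
      rw [show t c = _ from MonoidHom.transferSylow_eq_pow P hS c hc]
      rfl
    show (t c) ^ m = _
    rw [h1, ← pow_mul, hpow]
  · intro c
    have h1 : f0 c = 1 ↔ t c = 1 := by
      constructor
      · intro h2
        have h3 : (t c) ^ m = 1 := h2
        rw [← hpow (t c), mul_comm, pow_mul, h3, one_pow]
      · intro h2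
        show (t c) ^ m = 1
        rw [h2, one_pow]
    rw [h1]
    constructor
    · intro h2 hd
      have h3 : c ∈ t.ker := h2
      have h4 : orderOf (⟨c, h3⟩ : t.ker) ∣ Nat.card t.ker := orderOf_dvd_natCard _
      rw [Subgroup.orderOf_mk] at h4
      exact MonoidHom.not_dvd_card_ker_transferSylow P hS (hd.trans h4)
    · intro h2
      have h3 : orderOf (t c) ∣ orderOf c := orderOf_map_dvd t c
      have h4 : orderOf (t c) ∣ Nat.card (P : Subgroup G) := orderOf_dvd_natCard _
      rw [hn, Nat.dvd_prime_pow hpf.out] at h4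
      obtain ⟨j, _, hj⟩ := h4
      rw [← orderOf_eq_one_iff, hj]
      rcases Nat.eq_zero_or_pos j with h5 | h5
      · rw [h5, pow_zero]
      · exfalso
        apply h2
        refine dvd_trans ?_ h3
        rw [hj]
        exact dvd_pow_self p h5.ne'
  · exact (MonoidHom.ker_transferSylow_isComplement' P hS).symm.index_eq_card

/-- a `p`-singular element is conjugate into `TS P` -/
theorem exists_conj_TS (h : Star P) {g : G} (hg : p ∣ orderOf g) :
    ∃ x : G, x⁻¹ * g * x ∈ TS P := by
  set u := g ^ (orderOf g / p) with hu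
  have hu1 : orderOf u = p := orderOf_pow_orderOf_div (orderOf_pos g).ne' hg
  have h1 : IsPGroup p (Subgroup.zpowers u) :=
    IsPGroup.of_card (n := 1) (by rw [Nat.card_zpowers, hu1, pow_one])
  obtain ⟨Q, hQ⟩ := h1.exists_le_sylow
  obtain ⟨x, hx⟩ := MulAction.exists_smul_eq G P Q
  refine ⟨x, ?_, ?_⟩
  · have h2 : x⁻¹ * u * x ∈ (P : Subgroup G) := by
      have h3 : u ∈ (Q : Subgroup G) := hQ (Subgroup.mem_zpowers u)
      rw [← hx] at h3
      have h4 : u ∈ (x • P : Sylow p G) := h3
      rw [Sylow.smul_def] at h4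
      have h5 : u ∈ MulAut.conj x • (P : Subgroup G) := h4
      rw [Subgroup.mem_pointwise_smul_iff_inv_smul_mem] at h5
      simpa [MulAut.smul_def] using h5
    have h3 : x⁻¹ * u * x ≠ 1 := by
      intro h4
      have h5 : u = 1 := by
        calc u = x * (x⁻¹ * u * x) * x⁻¹ := by group
          _ = 1 := by rw [h4]; group
      rw [h5, orderOf_one] at hu1
      exact hpf.out.one_lt.ne hu1
    rw [CP, ← h _ h2 h3, Subgroup.mem_centralizer_singleton_iff]
    have h4 : g * u = u * g := by
      rw [hu]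
      exact (Commute.self_pow g _).eq
    calc x⁻¹ * g * x * (x⁻¹ * u * x) = x⁻¹ * (g * u) * x := by group
      _ = x⁻¹ * (u * g) * x := by rw [h4]
      _ = x⁻¹ * u * x * (x⁻¹ * g * x) := by group
  · have h3 : orderOf (x⁻¹ * g * x) = orderOf g := by
      have := orderOf_injective (MulAut.conj x⁻¹).toMonoidHom (MulAut.conj x⁻¹).injective g
      simpa using this
    rwa [h3]

theorem main_central (h : Star P) (hne : (P : Subgroup G) ≠ ⊥) (hS : NP P ≤ CP P)
    {χ : G → ℂ} (hχ : IsIrrCharacter G χ)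
    {d : ℕ} (hd : χ 1 = d) (hdeg : d ^ 2 + 1 < Nat.card (P : Subgroup G)) :
    (∃ K : Subgroup G, K.Normal ∧ K ≠ ⊤ ∧ (P : Subgroup G) ≤ K) ∨
      ((∃ N : Subgroup G, N.Normal ∧ N.index = Nat.card (P : Subgroup G)) ∧ d = 1) := by
  classical
  have := Fintype.ofFinite (CP P)
  have := Fintype.ofFinite (P : Subgroup G)
  obtain ⟨⟨f, hf1, hf2⟩, hN⟩ := exists_retract_gen hS hne
  have hPc : ∀ a b : (P : Subgroup G), a * b = b * a := fun a b =>
    Subtype.ext (comm_of h a.2 (le_CP h b.2))
  have hΘ : IsCharacter G (χ * fun g => conj (χ g)) :=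
    isChar_mul (irr_isChar hχ) (isChar_conj (irr_isChar hχ))
  obtain ⟨lam, hlam1, hlam0⟩ := exists_missing hPc
    (isChar_comp hΘ (P : Subgroup G).subtype)
    (Φ := fun u => (χ * fun g => conj (χ g)) (u : G)) (d := d ^ 2) (by simp [hd, sq]) hdeg
  -- the linear character of `G`
  let L : G →* ℂˣ := lam.comp f
  have hLP : (fun u : (P : Subgroup G) => ((L (u : G) : ℂˣ) : ℂ)) = fun u => (lam u : ℂ) := by
    ext u
    show ((lam (f u) : ℂˣ) : ℂ) = _
    rw [hf1 u u.2]
  have h1 : classInner (χ * fun g => conj (χ g)) (fun g => (L g : ℂ)) = 0 := by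
    by_contra hne0
    have h2 := inner_trans (P : Subgroup G).subtype hΘ (isIrr_of_hom L) hne0
      (irr_isChar (isIrr_of_hom lam)) (by
        have : (fun y : (P : Subgroup G) => ((L ((P : Subgroup G).subtype y) : ℂˣ) : ℂ)) =
          fun u => (lam u : ℂ) := hLP
        rw [this, classInner_self_of_irr (isIrr_of_hom lam)]
        exact one_ne_zero)
    exact h2 hlam0
  have h2 : classInner (fun c : CP P => (χ * fun g => conj (χ g)) (c : G))
      (fun c : CP P => (L (c : G) : ℂ)) = 0 := by
    by_contra hne0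
    let i : (P : Subgroup G) →* CP P := Subgroup.inclusion (le_CP h)
    have h2 := inner_trans i (isChar_restrict (CP P) hΘ)
      (isIrr_of_hom (L.comp (CP P).subtype)) hne0
      (irr_isChar (isIrr_of_hom lam)) (by
        have : (fun y : (P : Subgroup G) => (((L.comp (CP P).subtype) (i y) : ℂˣ) : ℂ)) =
          fun u => (lam u : ℂ) := hLP
        rw [this, classInner_self_of_irr (isIrr_of_hom lam)]
        exact one_ne_zero)
    exact h2 hlam0
  -- induced function
  let φ : CP P → ℂ := fun c => 1 - (L (c : G) : ℂ)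
  have hφcl : IsClassFunction (CP P) φ := by
    intro a b
    simp only [φ]
    congr 2
    simp only [Subgroup.coe_mul, Subgroup.coe_inv, map_mul, map_inv]
    rw [mul_comm, inv_mul_cancel_left]
  have hφT : ∀ x : CP P, (x : G) ∉ TS P → φ x = 0 := by
    intro x hx
    have h3 : ¬ p ∣ orderOf (x : G) := fun h4 => hx ⟨x.2, h4⟩
    have h4 := (hf2 x).mpr h3
    simp only [φ, L, MonoidHom.comp_apply, h4, map_one, Units.val_one, sub_self]
  have hTI : ∀ g : G, g ∉ CP P → ∀ t ∈ TS P, g * t * g⁻¹ ∈ TS P → t = 1 :=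
    fun g hg => ti h g (fun h3 => hg (hS h3))
  have hind : indFun (CP P) φ = (fun _ => 1) - fun g => (L g : ℂ) := by
    ext g
    by_cases hg : p ∣ orderOf g
    · obtain ⟨x, hx⟩ := exists_conj_TS h hg
      have h3 := indFun_eq_of_TI (CP P) (TS P) hTI φ hφcl hφT ⟨x⁻¹ * g * x, hx.1⟩ hx (by
        intro h4
        have h5 : x⁻¹ * g * x = 1 := congrArg Subtype.val h4
        rw [h5] at hx
        exact one_not_TS hx)
      have h4 := indFun_classFun (CP P) φ g x⁻¹
      rw [inv_inv] at h4
      rw [← h4]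
      rw [show indFun (CP P) φ (x⁻¹ * g * x) = φ ⟨x⁻¹ * g * x, hx.1⟩ from h3]
      simp only [φ, Pi.sub_apply]
      congr 2
      simp only [map_mul, map_inv]
      rw [mul_comm, mul_inv_cancel_left]
    · have h3 : indFun (CP P) φ g = 0 := by
        simp only [indFun]
        rw [Finset.sum_eq_zero, mul_zero]
        intro x _
        by_cases hx : x⁻¹ * g * x ∈ CP P
        · rw [extendByZero_mem _ _ hx]
          apply hφT
          rintro ⟨-, h5⟩
          apply hg
          have h3 : orderOf (x⁻¹ * g * x) = orderOf g := by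
            have := orderOf_injective (MulAut.conj x⁻¹).toMonoidHom (MulAut.conj x⁻¹).injective g
            simpa using this
          rwa [← h3]
        · exact extendByZero_not_mem _ _ hx
      rw [h3]
      simp only [Pi.sub_apply, L, MonoidHom.comp_apply, (hf2 g).mpr hg, map_one, Units.val_one,
        sub_self]
  have h3 : classInner (χ * fun g => conj (χ g)) (indFun (CP P) φ) = 1 := by
    rw [hind, classInner_sub_right, h1, sub_zero]
    have h4 : classInner (χ * fun g => conj (χ g)) (fun _ => 1) = classInner χ χ := by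
      unfold classInner
      simp
    rw [h4, classInner_self_of_irr hχ]
  rw [frobenius_reciprocity' (CP P) φ (char_classFun hΘ)] at h3
  have h4 : classInner (fun c : CP P => χ (c : G)) (fun c : CP P => χ (c : G)) = 1 := by
    rw [← h3]
    have h5 : φ = (fun _ => 1) - fun c : CP P => (L (c : G) : ℂ) := rfl
    rw [h5, classInner_sub_right, h2, sub_zero]
    unfold classInner
    simp
  have h5 : IsIrrCharacter (CP P) (fun c : CP P => χ (c : G)) :=
    isIrr_of_char_norm (isChar_restrict _ (irr_isChar hχ)) h4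
  have hnorm : ∀ u ∈ (P : Subgroup G), ‖χ u‖ = ‖χ 1‖ := by
    intro u hu
    have hz : (⟨u, le_CP h hu⟩ : CP P) ∈ Subgroup.center (CP P) := by
      rw [Subgroup.mem_center_iff]
      intro c
      exact Subtype.ext (comm_of h hu c.2).symm
    have h6 := irr_central_mul h5 hz (⟨u, le_CP h hu⟩ : CP P)⁻¹
    rw [mul_inv_cancel] at h6
    have h7 : χ (1 : G) * χ (1 : G) = χ u * χ u⁻¹ := h6
    rw [char_inv (irr_isChar hχ) u, Complex.mul_conj, Complex.normSq_eq_norm_sq] at h7
    have h8 : ‖χ 1‖ ^ 2 = ‖χ u‖ ^ 2 := by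
      have := congrArg (fun z : ℂ => ‖z‖) h7
      simp only [norm_mul, Complex.norm_real, norm_pow, norm_norm] at this
      rw [sq, this]
    exact (sq_eq_sq₀ (norm_nonneg _) (norm_nonneg _)).mp h8.symm
  obtain ⟨n, ρ, hρ, rfl⟩ := id hχ
  have hn : ρ.character 1 = n := by
    rw [Representation.char_one]; simp
  have hnd : n = d := by rw [hn] at hd; exact_mod_cast hd
  have hn0 : 0 < n := by
    rcases Nat.eq_zero_or_pos n with h6 | h6
    · exfalso
      apply irr_one_ne_zero hχ
      rw [hn, h6, Nat.cast_zero]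
    · exact h6
  by_cases hZ : scalarSubgroup ρ = ⊤
  · right
    refine ⟨hN, ?_⟩
    have h6 : ∀ g : G, ρ.character g * conj (ρ.character g) = (n : ℂ) ^ 2 := by
      intro g
      have h7 : g ∈ scalarSubgroup ρ := by rw [hZ]; trivial
      have h8 : g⁻¹ ∈ scalarSubgroup ρ := by rw [hZ]; trivial
      obtain ⟨c, hc⟩ := h7
      obtain ⟨c', hc'⟩ := h8
      have h9 : ρ.character g = c * n := by
        rw [Representation.character, hc, map_smul, LinearMap.trace_id]; simp
      have h10 : ρ.character g⁻¹ = c' * n := by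
        rw [Representation.character, hc', map_smul, LinearMap.trace_id]; simp
      have h11 : ρ g * ρ g⁻¹ = 1 := by rw [← map_mul]; simp
      rw [hc, hc'] at h11
      have h12 : ρ.character 1 = c * c' * n := by
        rw [Representation.character, map_one, ← h11]
        have : (c • (LinearMap.id : (Fin n → ℂ) →ₗ[ℂ] (Fin n → ℂ))) * (c' • LinearMap.id) =
          (c * c') • (LinearMap.id : (Fin n → ℂ) →ₗ[ℂ] (Fin n → ℂ)) := by
          refine LinearMap.ext fun v => ?_
          show c • (c' • v) = (c * c') • v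
          rw [smul_smul]
        rw [this, map_smul, LinearMap.trace_id]; simp
      rw [hn] at h12
      rw [← char_inv (irr_isChar hχ) g, h9, h10]
      have hn0' : (n : ℂ) ≠ 0 := by exact_mod_cast hn0.ne'
      have h13 : c * c' = 1 := by
        have : (1 : ℂ) * n = c * c' * n := by rw [one_mul]; exact h12
        exact (mul_right_cancel₀ hn0' this).symm
      linear_combination (n : ℂ) ^ 2 * h13
    have h7 := classInner_self_of_irr hχ
    unfold classInner at h7
    rw [Finset.sum_congr rfl fun g _ => h6 g, Finset.sum_const, Finset.card_univ, nsmul_eq_mul,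
      ← Nat.card_eq_fintype_card, ← mul_assoc, inv_mul_cancel₀ card_ne_zeroC, one_mul] at h7
    have h8 : n ^ 2 = 1 := by exact_mod_cast h7
    rw [← hnd]
    exact Nat.pow_eq_one.mp h8 |>.resolve_right (by norm_num)
  · left
    refine ⟨scalarSubgroup ρ, scalarSubgroup_normal ρ, hZ, ?_⟩
    intro u hu
    have h6 := hnorm u hu
    rw [hn, Complex.norm_natCast] at h6
    have h7 := H27.rep_scalar_of_norm_char_eq ρ u (by simpa using hn0) (by simpa using h6)
    exact ⟨_, h7⟩

end Leon
end Cfsg.Agent.H11
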