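import Cfsg.Agent.H11.Leon5
import Cfsg.Agent.H11.Defect3

set_option autoImplicit false
set_option linter.unusedSectionVars false
open Cfsg Cfsg.Agent.H3 Finset
open scoped ComplexConjugate commutatorElement Pointwise

namespace Cfsg.Agent.H11
namespace Leon

universe u

theorem main_both {G : Type u} [Group G] [Fintype G] {p : ℕ} [hpf : Fact p.Prime] {P : Sylow p G}
    (h : Star P) (hne : (P : Subgroup G) ≠ ⊥) {χ : G → ℂ} (hχ : IsIrrCharacter G χ)
    (hχ1 : χ ≠ fun _ => 1) {d : ℕ} (hd : χ 1 = d) (hdeg : d ^ 2 + 1 < Nat.card (P : Subgroup G)) :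
    (∃ K : Subgroup G, K.Normal ∧ K ≠ ⊤ ∧ (P : Subgroup G) ≤ K) ∨
      ((∃ N : Subgroup G, N.Normal ∧ N.index = Nat.card (P : Subgroup G)) ∧ d = 1) := by
  by_cases hS : NP P ≤ CP P
  · exact main_central h hne hS hχ hd hdeg
  · left
    obtain ⟨w, hw, hw'⟩ := SetLike.not_le_iff_exists.mp hS
    exact main_noncentral h hne hw hw' hχ hχ1 hd hdeg

theorem main85 {p : ℕ} [hpf : Fact p.Prime] (n : ℕ) : ∀ {G : Type u} [Group G] [Fintype G]
    (P : Sylow p G), Nat.card G = n → Star P → (P : Subgroup G) ≠ ⊥ → ∀ χ : G → ℂ,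
    IsCharacter G χ → (∀ g, χ g = χ 1 → g = 1) → ∀ d : ℕ, χ 1 = d →
    d ^ 2 + 1 < Nat.card (P : Subgroup G) → (P : Subgroup G).Normal := by
  induction n using Nat.strong_induction_on with
  | _ n ih =>
  intro G _ _ P hn h hne χ hχ hfaith d hd hdeg
  classical
  by_cases hK : ∃ K : Subgroup G, K.Normal ∧ K ≠ ⊤ ∧ (P : Subgroup G) ≤ K
  · obtain ⟨K, hKn, hKt, hPK⟩ := hK
    have := Fintype.ofFinite K
    have hlt : Nat.card K < n := by
      rw [← hn]
      exact lt_of_le_of_ne (Subgroup.card_le_card_group K) (fun h1 => hKt (Subgroup.card_eq_iff_eq_top K |>.mp h1))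
    let Q : Sylow p K := P.subtype hPK
    have hQmem : ∀ c : K, c ∈ (Q : Subgroup K) ↔ (c : G) ∈ (P : Subgroup G) := by
      intro c
      show c ∈ ((P.subtype hPK : Sylow p K) : Subgroup K) ↔ _
      rw [Sylow.coe_subtype, Subgroup.mem_subgroupOf]
    have hQ : Star Q := by
      intro x hx hx1
      have h1 := h (x : G) ((hQmem x).mp hx) (fun h2 => hx1 (Subtype.ext h2))
      ext y
      rw [Subgroup.mem_centralizer_singleton_iff]
      constructor
      · intro h2
        have h3 : (y : G) ∈ Subgroup.centralizer ({(x : G)} : Set G) := by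
          rw [Subgroup.mem_centralizer_singleton_iff]
          exact congrArg Subtype.val h2
        rw [h1, Subgroup.mem_centralizer_iff] at h3
        rw [Subgroup.mem_centralizer_iff]
        intro z hz
        exact Subtype.ext (h3 z ((hQmem z).mp hz))
      · intro h2
        exact (Subgroup.mem_centralizer_iff.mp h2 x hx).symm
    have hcard : Nat.card (Q : Subgroup K) = Nat.card (P : Subgroup G) := by
      have h1 : (Q : Subgroup K) = (P : Subgroup G).subgroupOf K := Sylow.coe_subtype P hPK
      rw [h1]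
      exact Nat.card_congr (Subgroup.subgroupOfEquivOfLe hPK).toEquiv
    have hQne : (Q : Subgroup K) ≠ ⊥ := by
      rw [← Subgroup.one_lt_card_iff_ne_bot, hcard, Subgroup.one_lt_card_iff_ne_bot]
      exact hne
    have hQn := ih (Nat.card K) hlt Q rfl hQ hQne (fun k => χ k) (isChar_restrict K hχ)
      (fun g hg => Subtype.ext (hfaith g hg)) d hd (by rw [hcard]; exact hdeg)
    have hchar : (Q : Subgroup K).Characteristic := Q.characteristic_of_normal hQn
    have h2 : ((Q : Subgroup K).map K.subtype).Normal :=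
      ConjAct.normal_of_characteristic_of_normal
    have h3 : (Q : Subgroup K).map K.subtype = (P : Subgroup G) := by
      have h1 : (Q : Subgroup K) = (P : Subgroup G).subgroupOf K := Sylow.coe_subtype P hPK
      rw [h1, Subgroup.map_subgroupOf_eq_of_le hPK]
    rwa [h3] at h2
  · have hlin : ∀ ψ : G → ℂ, IsIrrCharacter G ψ → classInner χ ψ ≠ 0 → ψ 1 = 1 := by
      intro ψ hψ hne0
      by_cases hψ1 : ψ = fun _ => 1
      · rw [hψ1]
      · obtain ⟨e, he0, he⟩ := irr_one_eq_nat hψ
        have hle : e ≤ d := char_degree_le_of_inner_ne_zero hχ hψ hne0 hd he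
        rcases main_both h hne hψ hψ1 he (lt_of_le_of_lt (by nlinarith) hdeg) with h1 | ⟨-, h1⟩
        · exact absurd h1 hK
        · rw [he, h1, Nat.cast_one]
    have hcomm : ∀ g ∈ commutator G, g = 1 := by
      intro g hg
      exact hfaith g (char_commutator_of_all_linear hχ (fun ψ => hlin ψ ψ.2) hg)
    constructor
    intro x hx g
    have h1 : ⁅g, x⁆ ∈ commutator G :=
      Subgroup.commutator_mem_commutator (Subgroup.mem_top _) (Subgroup.mem_top _)
    have h2 := hcomm _ h1
    rw [commutatorElement_def] at h2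
    have h3 : g * x * g⁻¹ = x := by
      calc g * x * g⁻¹ = g * x * g⁻¹ * x⁻¹ * x := by group
        _ = x := by rw [h2, one_mul]
    rw [h3]
    exact hx

end Leon
end Cfsg.Agent.H11
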