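import Mathlib
import Cfsg.Agent.H11.MI3

set_option autoImplicit false
set_option linter.all false

/-! The dichotomy for subgroups of small index of `SL_n(F)`. -/

namespace Cfsg.Agent.H11.MI

open Matrix Cfsg.Agent.H12 Cfsg.Agent.H17 Cfsg.Agent.H16

variable {F : Type*} [Field F] [Finite F] {n : ℕ}
variable {Ω : Type*} [MulAction (SL' n F) Ω] [Finite Ω]

/-- step C3 -/
theorem stepC3 (hn : 3 ≤ n) {φ : Fin n → F} (hφ : φ ≠ 0) (f : ℕ)
    (hf : ∀ (v : Fin n → F) (h : φ ⬝ᵥ v = 0), v ≠ 0 → Nat.card (MulAction.fixedBy Ω (tv v φ h : SL' n F)) = f)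
    (hΩ : Nat.card Ω = f + Nat.card (P φ)) (x : Ω)
    (hsmall : Nat.card F * Nat.card (U (MulAction.stabilizer (SL' n F) x) φ) < Nat.card (P φ)) :
    U (MulAction.stabilizer (SL' n F) x) φ = ⊥ := by
  set W := U (MulAction.stabilizer (SL' n F) x) φ with hW
  have hsup : ∀ w, W ⊔ ln w ≠ P φ := by
    intro w h
    have := card_sup_ln (W := W) (w := w)
    rw [h] at this; omega
  have hst := fun w (hw : φ ⬝ᵥ w = 0) => stepC hφ f hf hΩ x hw (hsup w)
  rw [eq_bot_iff]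
  intro u hu
  rw [AddSubgroup.mem_bot]
  -- `w` outside `W`: then `u` is on the line of `w`
  have hkey : ∀ w, φ ⬝ᵥ w = 0 → w ∉ W → u ∈ ln w := by
    intro w hw hwW
    by_contra hcon
    apply hwW
    have := linear_step hu hcon (hst w hw) 1
    rwa [one_smul] at this
  obtain ⟨w, hw, hwW⟩ : ∃ w, φ ⬝ᵥ w = 0 ∧ w ∉ W := by
    by_contra hcon
    push Not at hcon
    have : P φ ≤ W := fun v hv => hcon v hv
    have h2 := AddSubgroup.card_le_of_le this
    have h3 : 1 ≤ Nat.card F := Nat.card_pos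
    nlinarith
  have hw0 : w ≠ 0 := fun h => hwW (h ▸ W.zero_mem)
  obtain ⟨y, hy0, hy, hyw⟩ := ex_off hn φ hw0
  obtain ⟨w', hw', hw'W, hww'⟩ : ∃ w', φ ⬝ᵥ w' = 0 ∧ w' ∉ W ∧ w' ∉ ln w := by
    by_cases hyW : y ∈ W
    · refine ⟨w + y, by rw [dotProduct_add, hw, hy, add_zero], fun h => hwW ?_, fun h => hyw ?_⟩
      · have := W.sub_mem h hyW
        rwa [add_sub_cancel_right] at this
      · have := (ln w).sub_mem h ⟨1, by rw [one_smul]⟩
        rwa [add_sub_cancel_left] at this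
    · exact ⟨y, hy, hyW, hyw⟩
  obtain ⟨c, hc⟩ := hkey w hw hwW
  obtain ⟨d, hd⟩ := hkey w' hw' hw'W
  by_cases hd0 : d = 0
  · rw [hd, hd0, zero_smul]
  · exfalso
    apply hww'
    refine ⟨d⁻¹ * c, ?_⟩
    rw [mul_smul, ← hc, hd, smul_smul, inv_mul_cancel₀ hd0, one_smul]

/-- step C4 -/
theorem stepC4 (hn : 3 ≤ n) {φ : Fin n → F} (hφ : φ ≠ 0) (f : ℕ)
    (hf : ∀ (v : Fin n → F) (h : φ ⬝ᵥ v = 0), v ≠ 0 → Nat.card (MulAction.fixedBy Ω (tv v φ h : SL' n F)) = f)
    (hΩ : Nat.card Ω = f + Nat.card (P φ)) (x : Ω)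
    (heq : Nat.card F * Nat.card (U (MulAction.stabilizer (SL' n F) x) φ) = Nat.card (P φ)) :
    ∀ w ∈ U (MulAction.stabilizer (SL' n F) x) φ, ∀ c : F, c • w ∈ U (MulAction.stabilizer (SL' n F) x) φ := by
  intro w hw c
  set W := U (MulAction.stabilizer (SL' n F) x) φ with hW
  by_cases hw0 : w = 0
  · rw [hw0, smul_zero]; exact W.zero_mem
  have hsup : W ⊔ ln w ≠ P φ := by
    intro h
    have := card_sup_ln_lt hw hw0
    rw [h] at this; omega
  have hst := stepC hφ f hf hΩ x hw.1 hsup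
  by_cases hex : ∃ u ∈ W, u ∉ ln w
  · obtain ⟨u, hu, huw⟩ := hex
    exact linear_step hu huw hst c
  · push Not at hex
    have hle : W ≤ ln w := hex
    have hq : 1 ≤ Nat.card F := Nat.card_pos
    have hln : Nat.card (ln w) ≤ Nat.card F := by
      apply Nat.card_le_card_of_surjective (fun c : F => (⟨c • w, ⟨c, rfl⟩⟩ : ln w))
      rintro ⟨y, c, rfl⟩
      exact ⟨c, rfl⟩
    have hP := card_P (by omega) hφ
    have h1 : Nat.card F ≤ Nat.card W := by
      have h2 : Nat.card F * Nat.card F ≤ Nat.card F * Nat.card W := by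
        rw [heq, hP, ← pow_two]
        exact Nat.pow_le_pow_right hq (by omega)
      exact Nat.le_of_mul_le_mul_left h2 (by omega)
    have h3 : W = ln w := AddSubgroup.eq_of_le_of_card_ge hle (hln.trans h1)
    rw [h3]; exact ⟨c, rfl⟩

theorem dich_phi (hn : 3 ≤ n) {φ : Fin n → F} (hφ : φ ≠ 0) (f : ℕ)
    (hf : ∀ (v : Fin n → F) (h : φ ⬝ᵥ v = 0), v ≠ 0 → Nat.card (MulAction.fixedBy Ω (tv v φ h : SL' n F)) = f)
    (hΩ : Nat.card Ω = f + Nat.card (P φ)) (hlt : f * (Nat.card F - 1) + 1 < Nat.card F ^ (n - 1)) :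
    ((∃ x : Ω, U (MulAction.stabilizer (SL' n F) x) φ = ⊥) ∧ ∀ x : Ω, U (MulAction.stabilizer (SL' n F) x) φ = ⊥ ∨ U (MulAction.stabilizer (SL' n F) x) φ = P φ) ∨
    (∀ x : Ω, Nat.card F * Nat.card (U (MulAction.stabilizer (SL' n F) x) φ) = Nat.card (P φ)) := by
  classical
  haveI := Fintype.ofFinite Ω
  have hP := card_P (by omega) hφ
  have hq : 2 ≤ Nat.card F := Finite.one_lt_card
  by_cases hex : ∃ x : Ω, U (MulAction.stabilizer (SL' n F) x) φ = ⊥
  · left
    refine ⟨hex, ?_⟩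
    obtain ⟨x, hx⟩ := hex
    intro x'
    by_cases h : x' ∈ MulAction.orbit (grp (P φ) φ) x
    · left; rw [U_orbit hφ h, hx]
    · right
      have := stepP hφ f hf hΩ x x' h
      rwa [hx, bot_sup_eq] at this
  · right
    push Not at hex
    have h1 : ∀ x : Ω, Nat.card (P φ) ≤ Nat.card F * Nat.card (U (MulAction.stabilizer (SL' n F) x) φ) := by
      intro x
      by_contra hcon
      push Not at hcon
      exact hex x (stepC3 hn hφ f hf hΩ x hcon)
    have h2 := sum_stab (Ω := Ω) (grp (P φ) φ) f (by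
      rintro a ⟨u, hu, h, rfl⟩ ha
      apply hf
      rintro rfl
      apply ha
      apply sl_ext; rw [tv_coe, zero_vecMulVec, add_zero]; rfl)
    have h3 : ∀ x : Ω, Nat.card (grp (P φ) φ ⊓ MulAction.stabilizer (SL' n F) x : Subgroup (SL' n F)) = Nat.card (U (MulAction.stabilizer (SL' n F) x) φ) := by
      intro x
      rw [grp_inf, grp_card hφ (U_le _ _)]
    rw [Finset.sum_congr rfl (fun x _ => h3 x), grp_card hφ le_rfl, hΩ] at h2
    -- numbers
    obtain ⟨q1, hq1⟩ : ∃ q1, Nat.card F = q1 + 1 := ⟨Nat.card F - 1, by omega⟩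
    obtain ⟨k, hk⟩ : ∃ k, n - 1 = k + 1 := ⟨n - 2, by omega⟩
    have hfq : f * q1 + Nat.card F = Nat.card F ^ (n - 1) := by
      have h4 : (Fintype.card Ω) * Nat.card (P φ) ≤ Nat.card F * ∑ x : Ω, Nat.card (U (MulAction.stabilizer (SL' n F) x) φ) := by
        rw [Finset.mul_sum]
        calc (Fintype.card Ω) * Nat.card (P φ) = ∑ x : Ω, Nat.card (P φ) := by rw [Finset.sum_const, smul_eq_mul]; rfl
          _ ≤ _ := Finset.sum_le_sum (fun x _ => h1 x)
      rw [h2, ← Nat.card_eq_fintype_card, hΩ] at h4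
      -- (f + A) A ≤ q (f + A + (A-1) f)
      obtain ⟨A, hA⟩ : ∃ A, Nat.card (P φ) = A + 1 := ⟨Nat.card (P φ) - 1, by have : 0 < Nat.card (P φ) := Nat.card_pos; omega⟩
      rw [hA, Nat.add_sub_cancel] at h4
      have h5 : f + (A + 1) ≤ Nat.card F * (f + 1) := by
        have h6 : (f + (A + 1)) * (A + 1) ≤ (Nat.card F * (f + 1)) * (A + 1) := by
          calc _ ≤ Nat.card F * (f + (A + 1) + A * f) := h4
            _ = _ := by ring
        exact Nat.le_of_mul_le_mul_right h6 (by omega)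
      rw [← hP, hA]
      rw [← hP, hA] at hlt
      rw [hq1] at h5 hlt ⊢
      rw [Nat.add_sub_cancel] at hlt
      -- divisibility
      have hdvd : (q1 : ℤ) ∣ (A + 1 : ℤ) - (q1 + 1) := by
        have h7 : ((A : ℤ) + 1) = ((q1 : ℤ) + 1) ^ (n - 1) := by
          have : (A + 1) = (q1 + 1) ^ (n - 1) := by rw [← hA, hP, hq1]
          exact_mod_cast this
        rw [h7]
        have h8 := sub_dvd_pow_sub_pow ((q1 : ℤ) + 1) 1 (n - 1)
        rw [one_pow, add_sub_cancel_right] at h8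
        have h9 : ((q1 : ℤ) + 1) ^ (n - 1) - (q1 + 1) = (((q1 : ℤ) + 1) ^ (n - 1) - 1) - q1 := by ring
        rw [h9]
        exact dvd_sub h8 dvd_rfl
      obtain ⟨e, he⟩ := hdvd
      have h10 : (q1 : ℤ) * e ≤ f * q1 := by
        rw [← he]
        have : ((f : ℤ) + (A + 1)) ≤ (q1 + 1) * (f + 1) := by exact_mod_cast h5
        nlinarith
      have h11 : (f * q1 : ℤ) + 1 < A + 1 := by exact_mod_cast hlt
      have hq1pos : (0 : ℤ) < q1 := by
        have : 1 ≤ q1 := by omega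
        exact_mod_cast this
      have h12 : (q1 : ℤ) * e + q1 = A := by linarith
      have h13 : e ≤ f := by nlinarith
      have h14 : (f : ℤ) < e + 1 := by nlinarith
      have h15 : (f : ℤ) = e := by omega
      have h16 : (f : ℤ) * q1 + (q1 + 1) = A + 1 := by rw [h15]; linarith
      exact_mod_cast h16
    -- equality of sums
    have hsum : ∑ x : Ω, Nat.card F * Nat.card (U (MulAction.stabilizer (SL' n F) x) φ) = ∑ x : Ω, Nat.card (P φ) := by
      rw [← Finset.mul_sum, h2, Finset.sum_const, smul_eq_mul, Finset.card_univ, ← Nat.card_eq_fintype_card, hΩ]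
      obtain ⟨A, hA⟩ : ∃ A, Nat.card (P φ) = A + 1 := ⟨Nat.card (P φ) - 1, by have : 0 < Nat.card (P φ) := Nat.card_pos; omega⟩
      rw [← hP, hA] at hfq
      rw [hA, Nat.add_sub_cancel]
      rw [hq1] at hfq ⊢
      have : (q1 + 1) * (f + 1) = f + (A + 1) := by rw [← hfq]; ring
      calc (q1 + 1) * (f + (A + 1) + A * f) = ((q1 + 1) * (f + 1)) * (A + 1) := by ring
        _ = _ := by rw [this]
    have := (Finset.sum_eq_sum_iff_of_le (fun x _ => h1 x)).1 hsum.symm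
    intro x
    exact (this x (Finset.mem_univ _)).symm

/-- the dichotomy -/
theorem dich (hn : 3 ≤ n) (f : ℕ)
    (hf : ∀ (v φ : Fin n → F) (h : φ ⬝ᵥ v = 0), v ≠ 0 → φ ≠ 0 → Nat.card (MulAction.fixedBy Ω (tv v φ h : SL' n F)) = f)
    (hΩ : Nat.card Ω = f + Nat.card F ^ (n - 1)) (hlt : f * (Nat.card F - 1) + 1 < Nat.card F ^ (n - 1)) :
    (∀ (φ : Fin n → F), φ ≠ 0 → ∀ x : Ω, U (MulAction.stabilizer (SL' n F) x) φ = ⊥ ∨ U (MulAction.stabilizer (SL' n F) x) φ = P φ) ∨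
    (∀ (φ : Fin n → F), φ ≠ 0 → ∀ x : Ω, Nat.card F * Nat.card (U (MulAction.stabilizer (SL' n F) x) φ) = Nat.card (P φ) ∧
      ∀ w ∈ U (MulAction.stabilizer (SL' n F) x) φ, ∀ c : F, c • w ∈ U (MulAction.stabilizer (SL' n F) x) φ) := by
  have hd : ∀ φ : Fin n → F, φ ≠ 0 → _ := fun φ hφ => dich_phi hn hφ f (fun v h hv => hf v φ h hv hφ) (by rw [hΩ, card_P (by omega) hφ]) hlt
  have hq : 2 ≤ Nat.card F := Finite.one_lt_card
  by_cases hex : ∃ φ : Fin n → F, φ ≠ 0 ∧ ∃ x : Ω, U (MulAction.stabilizer (SL' n F) x) φ = ⊥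
  · left
    obtain ⟨φ0, hφ0, x0, hx0⟩ := hex
    intro φ hφ
    rcases hd φ hφ with h | h
    · exact h.2
    · exfalso
      obtain ⟨σ, hσ⟩ := sl_cov hn hφ0 hφ
      have h1 := h (σ • x0)
      have h2 : U (MulAction.stabilizer (SL' n F) (σ • x0)) φ = ⊥ := by
        rw [eq_bot_iff]
        intro y hy
        rw [AddSubgroup.mem_bot]
        have hyz : y = (σ : Matrix (Fin n) (Fin n) F) *ᵥ (((σ⁻¹ : SL' n F) : Matrix (Fin n) (Fin n) F) *ᵥ y) := by
          rw [mulVec_mulVec, ← Matrix.SpecialLinearGroup.coe_mul, mul_inv_cancel, Matrix.SpecialLinearGroup.coe_one, one_mulVec]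
        rw [hyz, U_smul, hσ, hx0, AddSubgroup.mem_bot] at hy
        rw [hyz, hy, mulVec_zero]
      rw [h2, card_P (by omega) hφ] at h1
      have h3 : Nat.card (⊥ : AddSubgroup (Fin n → F)) = 1 := by simp
      rw [h3, mul_one] at h1
      have h4 : Nat.card F ^ 1 < Nat.card F ^ (n - 1) := Nat.pow_lt_pow_right (by omega) (by omega)
      rw [← h1] at h4
      simp at h4
  · right
    push Not at hex
    intro φ hφ x
    rcases hd φ hφ with ⟨⟨y, hy⟩, _⟩ | h
    · exact absurd hy (hex φ hφ y)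
    · exact ⟨h x, stepC4 hn hφ f (fun v h hv => hf v φ h hv hφ) (by rw [hΩ, card_P (by omega) hφ]) x (h x)⟩

end Cfsg.Agent.H11.MI
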