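import Mathlib
import Cfsg.Agent.H11.MI4

set_option autoImplicit false
set_option linter.all false

/-! Excluding the two transvection patterns. -/

namespace Cfsg.Agent.H11.MI

open Matrix Cfsg.Agent.H12 Cfsg.Agent.H17 Cfsg.Agent.H16

variable {F : Type*} [Field F] [Finite F] {n : ℕ}

/-- membership propagates along an axis -/
theorem propagate (hn : 3 ≤ n) (H : Subgroup (SL' n F))
    (hB : ∀ v : Fin n → F, v ≠ 0 → Nat.card F * Nat.card (D H v) = Nat.card (P v) ∧ ∀ ψ ∈ D H v, ∀ c : F, c • ψ ∈ D H v)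
    {v φ : Fin n → F} (hv : v ≠ 0) (h : InT H v φ) : ∀ w, φ ⬝ᵥ w = 0 → InT H w φ := by
  have hmain : ∀ w, φ ⬝ᵥ w = 0 → w ∉ ln v → w ≠ 0 → InT H w φ := by
    intro w hw hwv hw0
    obtain ⟨hc, hst⟩ := hB w hw0
    by_cases hex : ∃ ψ ∈ D H w, ψ ⬝ᵥ v ≠ 0
    · obtain ⟨ψ, hψ, hψv⟩ := hex
      obtain ⟨h0, t, ht, hte⟩ := id h
      have htw : (t : Matrix (Fin n) (Fin n) F) *ᵥ w = w := by rw [hte, one_add_mulVec, hw, zero_smul, add_zero]
      have h1 : InT H w (ψ ᵥ* (t : Matrix (Fin n) (Fin n) F)) := by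
        apply InT.conj_inv ht
        rw [htw]; exact hψ
      rw [hte, vecMul_one_add] at h1
      have h2 := (D H w).sub_mem (mem_D.2 h1) hψ
      rw [add_sub_cancel_left] at h2
      have h3 := hst _ h2 (ψ ⬝ᵥ v)⁻¹
      rw [smul_smul, inv_mul_cancel₀ hψv, one_smul] at h3
      exact h3
    · push Not at hex
      -- `E = {ψ | ψ w = 0 = ψ v}`
      set E : AddSubgroup (Fin n → F) := P w ⊓ P v with hE
      have hDE : D H w ≤ E := fun ψ hψ => AddSubgroup.mem_inf.2 ⟨D_le H w hψ, by rw [mem_P, dotProduct_comm]; exact hex ψ hψ⟩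
      obtain ⟨θ, hθ1, hθ2⟩ : ∃ θ : Fin n → F, θ ⬝ᵥ v = 0 ∧ θ ⬝ᵥ w = 1 := dual_ex hwv
      have hcE : Nat.card F * Nat.card E ≤ Nat.card (P v) := by
        rw [← Nat.card_prod]
        apply Nat.card_le_card_of_injective (fun p : F × E => (⟨(p.2 : Fin n → F) + p.1 • θ, by
          rw [mem_P, dotProduct_add, dotProduct_smul, dotProduct_comm v θ, hθ1, smul_zero, add_zero]
          exact (AddSubgroup.mem_inf.1 p.2.2).2⟩ : P v))
        rintro ⟨c, a⟩ ⟨d, b⟩ hab
        have h1 := congrArg Subtype.val hab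
        simp only at h1
        have h2 := congrArg (fun x => w ⬝ᵥ x) h1
        simp only [dotProduct_add, dotProduct_smul] at h2
        rw [dotProduct_comm w θ, hθ2, mem_P.1 (AddSubgroup.mem_inf.1 a.2).1, mem_P.1 (AddSubgroup.mem_inf.1 b.2).1] at h2
        simp only [smul_eq_mul, mul_one, zero_add] at h2
        subst h2
        rw [add_left_inj] at h1
        exact Prod.ext rfl (Subtype.ext h1)
      have hPP : Nat.card (P v) = Nat.card (P w) := by rw [card_P (by omega) hv, card_P (by omega) hw0]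
      rw [hPP, ← hc] at hcE
      have h1 : Nat.card E ≤ Nat.card (D H w) := Nat.le_of_mul_le_mul_left hcE Nat.card_pos
      have h2 : D H w = E := AddSubgroup.eq_of_le_of_card_ge hDE h1
      have h3 : φ ∈ D H w := by
        rw [h2]
        exact AddSubgroup.mem_inf.2 ⟨by rw [mem_P, dotProduct_comm]; exact hw, by rw [mem_P, dotProduct_comm]; exact h.1⟩
      exact h3
  intro w hw
  by_cases hwv : w ∈ ln v
  · obtain ⟨y, hy0, hy, hyv⟩ := ex_off hn φ hv
    have h1 := hmain y hy hyv hy0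
    have hwy : w + y ∉ ln v := fun h => hyv (by
      have := (ln v).sub_mem h hwv
      rwa [add_sub_cancel_left] at this)
    have h2 := hmain (w + y) (by rw [dotProduct_add, hw, hy, add_zero]) hwy (fun h => hwy (by rw [h]; exact (ln v).zero_mem))
    have h3 := h2.sub_left h1
    rwa [add_sub_cancel_right] at h3
  · exact hmain w hw hwv (fun h => hwv (by rw [h]; exact (ln v).zero_mem))

theorem caseB (hn : 3 ≤ n) (H : Subgroup (SL' n F))
    (hB : ∀ v : Fin n → F, v ≠ 0 → Nat.card F * Nat.card (D H v) = Nat.card (P v) ∧ ∀ ψ ∈ D H v, ∀ c : F, c • ψ ∈ D H v) : False := by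
  have hq : 2 ≤ Nat.card F := Finite.one_lt_card
  have hcardD : ∀ v : Fin n → F, v ≠ 0 → Nat.card F * Nat.card (D H v) = Nat.card F ^ (n - 1) := by
    intro v hv; rw [(hB v hv).1, card_P (by omega) hv]
  -- a nonzero vector and an element of `D`
  obtain ⟨v, hv, _⟩ := exists_ne_zero_dot (by omega : 2 ≤ n) (0 : Fin n → F)
  obtain ⟨ψ0, hψ0, hψ00⟩ : ∃ ψ ∈ D H v, ψ ≠ 0 := by
    by_contra hcon
    push Not at hcon
    have h1 : D H v = ⊥ := by rw [eq_bot_iff]; intro y hy; rw [AddSubgroup.mem_bot]; exact hcon y hy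
    have h2 := hcardD v hv
    rw [h1] at h2
    have h3 : Nat.card (⊥ : AddSubgroup (Fin n → F)) = 1 := by simp
    rw [h3, mul_one] at h2
    have h4 : Nat.card F ^ 1 < Nat.card F ^ (n - 1) := Nat.pow_lt_pow_right (by omega) (by omega)
    rw [← h2] at h4
    simp at h4
  obtain ⟨v1, hv1⟩ := exists_dot_eq_one' hψ00
  have hv10 : v1 ≠ 0 := by rintro rfl; simp at hv1
  set K := D H v1 with hK
  -- the subspace spanned by K and ψ0
  let W : Submodule F (Fin n → F) :=
    { carrier := (K ⊔ ln ψ0 : AddSubgroup (Fin n → F))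
      zero_mem' := AddSubgroup.zero_mem _
      add_mem' := fun ha hb => AddSubgroup.add_mem _ ha hb
      smul_mem' := by
        intro c x hx
        obtain ⟨a, ha, b, ⟨d, rfl⟩, rfl⟩ := AddSubgroup.mem_sup.1 hx
        rw [smul_add, smul_smul]
        exact AddSubgroup.add_mem_sup ((hB v1 hv10).2 a ha c) ⟨_, rfl⟩ }
  have hWlt : W < ⊤ := by
    rw [lt_top_iff_ne_top]
    intro htop
    have h1 : Nat.card W = Nat.card F ^ n := by
      rw [htop]
      rw [show Nat.card (⊤ : Submodule F (Fin n → F)) = Nat.card (Fin n → F) from Nat.card_congr (Equiv.Set.univ _)]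
      rw [Nat.card_fun]; simp
    have h2 : Nat.card W ≤ Nat.card F * Nat.card K := card_sup_ln
    rw [h1, hcardD v1 hv10] at h2
    have h3 : Nat.card F ^ (n - 1) < Nat.card F ^ n := Nat.pow_lt_pow_right (by omega) (by omega)
    omega
  obtain ⟨f, hf0, hf⟩ := Submodule.exists_le_ker_of_lt_top W hWlt
  set v' : Fin n → F := fun i => f (Pi.single i 1) with hv'
  have hfv : ∀ x, f x = x ⬝ᵥ v' := by
    intro x
    rw [Cfsg.Agent.H5.dual_eq_dot f x, dotProduct_comm]
  have hv'0 : v' ≠ 0 := by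
    intro h
    apply hf0
    ext x
    simp only [LinearMap.comp_apply]
    rw [hfv, h]; simp
  have hprop := fun {v φ : Fin n → F} (hv : v ≠ 0) (h : InT H v φ) => propagate hn H hB hv h
  have hle : K ≤ D H v' := by
    intro k hk
    apply hprop hv10 hk
    rw [← hfv]
    exact hf (show k ∈ W from AddSubgroup.mem_sup_left hk)
  have h1 : Nat.card F * Nat.card (D H v') = Nat.card F * Nat.card K := by rw [hcardD v' hv'0, hcardD v1 hv10]
  have h2 : K = D H v' := AddSubgroup.eq_of_le_of_card_ge hle (Nat.eq_of_mul_eq_mul_left (by omega) h1).le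
  have h3 : ψ0 ∈ D H v' := by
    apply hprop hv hψ0
    rw [← hfv]
    exact hf (show ψ0 ∈ W from AddSubgroup.mem_sup_right ⟨1, by rw [one_smul]⟩)
  rw [← h2] at h3
  have h4 := h3.1
  rw [hv1] at h4
  exact one_ne_zero h4

omit [Finite F] in
/-- all transvections -/
theorem caseA (hn : 3 ≤ n) (H : Subgroup (SL' n F)) (hH : H ≠ ⊤)
    (hA : ∀ φ : Fin n → F, φ ≠ 0 → U H φ = ⊥ ∨ U H φ = P φ)
    (hA' : ∀ v : Fin n → F, v ≠ 0 → D H v = ⊥ ∨ D H v = P v) :
    ∀ v φ : Fin n → F, v ≠ 0 → φ ≠ 0 → ¬ InT H v φ := by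
  intro v φ hv hφ h
  have h1 : ∀ {v φ : Fin n → F}, v ≠ 0 → φ ≠ 0 → InT H v φ → ∀ w, φ ⬝ᵥ w = 0 → InT H w φ := by
    intro v φ hv hφ h w hw
    rcases hA φ hφ with h1 | h1
    · exact absurd ((AddSubgroup.mem_bot).1 (h1 ▸ (mem_U.2 h))) hv
    · have : w ∈ U H φ := by rw [h1]; exact hw
      exact this
  have h2 : ∀ {v φ : Fin n → F}, v ≠ 0 → φ ≠ 0 → InT H v φ → ∀ ψ, v ⬝ᵥ ψ = 0 → InT H v ψ := by
    intro v φ hv hφ h w hw
    rcases hA' v hv with h1 | h1
    · exact absurd ((AddSubgroup.mem_bot).1 (h1 ▸ (mem_D.2 h))) hφ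
    · have : w ∈ D H v := by rw [h1]; exact hw
      exact this
  apply hH
  apply eq_top_of_transvection_mem
  intro i j hij c
  apply Rt.mem hij
  show InT H (Pi.single i c) (Pi.single j 1)
  obtain ⟨u, hu, hu1, hu2⟩ := exists_ne_zero_dot_dot hn φ (Pi.single j 1)
  have h3 := h1 hv hφ h u hu1
  have h4 := h2 hu hφ h3 (Pi.single j 1) (by rw [dotProduct_comm]; exact hu2)
  have hj0 : (Pi.single j 1 : Fin n → F) ≠ 0 := by
    intro h; have := congrFun h j; simp at this
  exact h1 hu hj0 h4 _ (by rw [single_dotProduct, one_mul, Pi.single_eq_of_ne hij.symm])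

end Cfsg.Agent.H11.MI
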