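import Mathlib
import Cfsg.Agent.H11.MI5

set_option autoImplicit false
set_option linter.all false

/-! Complements to the unipotent radical without transvections. -/

namespace Cfsg.Agent.H11.MI

open Matrix Cfsg.Agent.H12 Cfsg.Agent.H17 Cfsg.Agent.H16

variable {F : Type*} [Field F] {n : ℕ}

theorem ex_dots {k : ℕ} (hk : k < n) (θ : Fin k → (Fin n → F)) : ∃ v : Fin n → F, v ≠ 0 ∧ ∀ i, θ i ⬝ᵥ v = 0 := by
  have h1 : LinearMap.ker (LinearMap.pi (fun i => (dotProductEquiv F (Fin n) (θ i)))) ≠ ⊥ := by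
    apply LinearMap.ker_ne_bot_of_finrank_lt
    rw [Module.finrank_fin_fun, Module.finrank_fin_fun]
    exact hk
  obtain ⟨v, hv, hv0⟩ := Submodule.exists_mem_ne_zero_of_ne_bot h1
  rw [LinearMap.mem_ker] at hv
  exact ⟨v, hv0, fun i => congrFun hv i⟩

noncomputable def T (w ψ : Fin n → F) : SL' n F := by
  classical
  exact if h : ψ ⬝ᵥ w = 0 then tv w ψ h else 1

theorem T_eq {w ψ : Fin n → F} (h : ψ ⬝ᵥ w = 0) : T w ψ = tv w ψ h := by
  unfold T; rw [dif_pos h]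

theorem T_mulVec {w ψ : Fin n → F} (h : ψ ⬝ᵥ w = 0) (v : Fin n → F) : (T w ψ : Matrix (Fin n) (Fin n) F) *ᵥ v = v + (ψ ⬝ᵥ v) • w := by
  rw [T_eq h, tv_coe, one_add_mulVec]

theorem vecMul_T {w ψ : Fin n → F} (h : ψ ⬝ᵥ w = 0) (θ : Fin n → F) : θ ᵥ* (T w ψ : Matrix (Fin n) (Fin n) F) = θ + (θ ⬝ᵥ w) • ψ := by
  rw [T_eq h, tv_coe, vecMul_one_add]

theorem T_add {w w' ψ : Fin n → F} (h : ψ ⬝ᵥ w = 0) (h' : ψ ⬝ᵥ w' = 0) : T w ψ * T w' ψ = T (w + w') ψ := by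
  rw [T_eq h, T_eq h', T_eq (by rw [dotProduct_add, h, h', add_zero]), tv_add]

theorem T_conj {w ψ ψ' : Fin n → F} (B : SL' n F) (h : ψ ⬝ᵥ w = 0) (hB : ψ' ᵥ* (B : Matrix (Fin n) (Fin n) F) = ψ) :
    B * T w ψ = T ((B : Matrix (Fin n) (Fin n) F) *ᵥ w) ψ' * B := by
  have h1 : ψ' ⬝ᵥ ((B : Matrix (Fin n) (Fin n) F) *ᵥ w) = 0 := by rw [dotProduct_mulVec, hB, h]
  have h2 := conj_tv B w ψ' (by rw [hB]; exact h)
  rw [tv_ext _ h rfl hB] at h2
  rw [T_eq h, T_eq h1, ← h2, inv_mul_cancel_right]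

/-- cocycle data -/
structure Coc (φ : Fin n → F) (f : SL' n F → (Fin n → F)) : Prop where
  mem : ∀ g : SL' n F, φ ᵥ* (g : Matrix (Fin n) (Fin n) F) = φ → φ ⬝ᵥ f g = 0
  mul : ∀ g g' : SL' n F, φ ᵥ* (g : Matrix (Fin n) (Fin n) F) = φ → φ ᵥ* (g' : Matrix (Fin n) (Fin n) F) = φ →
    f (g * g') = f g + (g : Matrix (Fin n) (Fin n) F) *ᵥ f g'
  off : ∀ w ψ : Fin n → F, ψ ⬝ᵥ w = 0 → φ ⬝ᵥ w = 0 → w ≠ 0 → ψ ∉ ln φ → f (T w ψ) ∉ ln w

variable {φ : Fin n → F} {f : SL' n F → (Fin n → F)}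

theorem Coc.one (hc : Coc φ f) : f 1 = 0 := by
  have h := hc.mul 1 1 (by simp) (by simp)
  rw [mul_one, Matrix.SpecialLinearGroup.coe_one, one_mulVec] at h
  exact (left_eq_add.1 h)

theorem T_zero {ψ : Fin n → F} : T 0 ψ = (1 : SL' n F) := by
  rw [T_eq (by simp)]
  apply sl_ext; rw [tv_coe, zero_vecMulVec, add_zero]; rfl

theorem Coc.add (hc : Coc φ f) {ψ w w' : Fin n → F} (h1 : φ ⬝ᵥ w = 0) (h2 : ψ ⬝ᵥ w = 0) (h1' : φ ⬝ᵥ w' = 0) (h2' : ψ ⬝ᵥ w' = 0) :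
    f (T (w + w') ψ) = f (T w ψ) + f (T w' ψ) + (ψ ⬝ᵥ f (T w' ψ)) • w := by
  rw [← T_add h2 h2', hc.mul _ _ (by rw [vecMul_T h2, h1, zero_smul, add_zero]) (by rw [vecMul_T h2', h1', zero_smul, add_zero]), T_mulVec h2, add_assoc]

theorem Coc.equiv (hc : Coc φ f) {ψ w : Fin n → F} (B : SL' n F) (hB : φ ᵥ* (B : Matrix (Fin n) (Fin n) F) = φ)
    (hB' : ψ ᵥ* (B : Matrix (Fin n) (Fin n) F) = ψ) (h1 : φ ⬝ᵥ w = 0) (h2 : ψ ⬝ᵥ w = 0) :
    f (T ((B : Matrix (Fin n) (Fin n) F) *ᵥ w) ψ) = (B : Matrix (Fin n) (Fin n) F) *ᵥ f (T w ψ) - (ψ ⬝ᵥ f B) • ((B : Matrix (Fin n) (Fin n) F) *ᵥ w) := by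
  have h3 := T_conj B h2 hB'
  have h1B : φ ⬝ᵥ ((B : Matrix (Fin n) (Fin n) F) *ᵥ w) = 0 := by rw [dotProduct_mulVec, hB, h1]
  have h2B : ψ ⬝ᵥ ((B : Matrix (Fin n) (Fin n) F) *ᵥ w) = 0 := by rw [dotProduct_mulVec, hB', h2]
  have h4 := congrArg f h3
  rw [hc.mul _ _ hB (by rw [vecMul_T h2, h1, zero_smul, add_zero]), hc.mul _ _ (by rw [vecMul_T h2B, h1B, zero_smul, add_zero]) hB, T_mulVec h2B] at h4
  have h5 : f (T ((B : Matrix (Fin n) (Fin n) F) *ᵥ w) ψ) = (f B + (B : Matrix (Fin n) (Fin n) F) *ᵥ f (T w ψ)) - (f B + (ψ ⬝ᵥ f B) • ((B : Matrix (Fin n) (Fin n) F) *ᵥ w)) := by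
    rw [h4, add_sub_cancel_right]
  rw [h5]; abel

/-- `n ≥ 4`: values in the kernel of `ψ` -/
theorem Coc.ker (hn : 4 ≤ n) (hc : Coc φ f) {ψ w : Fin n → F} (h1 : φ ⬝ᵥ w = 0) (h2 : ψ ⬝ᵥ w = 0) : ψ ⬝ᵥ f (T w ψ) = 0 := by
  by_cases hw : w = 0
  · rw [hw, T_zero, hc.one, dotProduct_zero]
  obtain ⟨θ, hθ⟩ := Cfsg.Agent.H17.exists_dot_eq_one hw
  obtain ⟨w', hw', h⟩ := ex_dots (k := 3) (by omega) ![φ, ψ, θ]
  have h1' : φ ⬝ᵥ w' = 0 := h 0
  have h2' : ψ ⬝ᵥ w' = 0 := h 1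
  have h3' : θ ⬝ᵥ w' = 0 := h 2
  have e1 := hc.add h1 h2 h1' h2'
  have e2 := hc.add h1' h2' h1 h2
  rw [add_comm w' w, add_comm (f (T w' ψ)) (f (T w ψ)), e1, add_right_inj] at e2
  have h4 := congrArg (fun v => θ ⬝ᵥ v) e2
  simp only [dotProduct_smul, hθ, h3', smul_eq_mul, mul_zero, mul_one] at h4
  rw [h4, zero_smul] at e2
  exact (smul_eq_zero.1 e2.symm).resolve_right hw'

/-- the key relation, `n ≥ 4` -/
theorem Coc.key (hn : 4 ≤ n) (hc : Coc φ f) {ψ w x θ : Fin n → F} (h1 : φ ⬝ᵥ w = 0) (h2 : ψ ⬝ᵥ w = 0) (h1x : φ ⬝ᵥ x = 0) (h2x : ψ ⬝ᵥ x = 0)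
    (hθ : θ ⬝ᵥ x = 0) (hx : x ≠ 0) :
    f (T ((θ ⬝ᵥ w) • x) ψ) = (θ ⬝ᵥ f (T w ψ)) • x - (θ ⬝ᵥ f (T x ψ)) • w - ((θ ⬝ᵥ f (T x ψ)) * (θ ⬝ᵥ w)) • x := by
  have hgen : ∀ w : Fin n → F, φ ⬝ᵥ w = 0 → ψ ⬝ᵥ w = 0 →
      f (T ((θ ⬝ᵥ w) • x) ψ) = (θ ⬝ᵥ f (T w ψ)) • x - (ψ ⬝ᵥ f (T x θ)) • (w + (θ ⬝ᵥ w) • x) := by
    intro w h1 h2
    have e1 := hc.equiv (ψ := ψ) (w := w) (T x θ) (by rw [vecMul_T hθ, h1x, zero_smul, add_zero]) (by rw [vecMul_T hθ, h2x, zero_smul, add_zero]) h1 h2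
    rw [T_mulVec hθ, T_mulVec hθ, hc.add h1 h2 (by rw [dotProduct_smul, h1x, smul_zero]) (by rw [dotProduct_smul, h2x, smul_zero]),
      hc.ker hn (w := (θ ⬝ᵥ w) • x) (by rw [dotProduct_smul, h1x, smul_zero]) (by rw [dotProduct_smul, h2x, smul_zero]), zero_smul, add_zero] at e1
    have e2 : f (T ((θ ⬝ᵥ w) • x) ψ) = (f (T w ψ) + f (T ((θ ⬝ᵥ w) • x) ψ)) - f (T w ψ) := by abel
    rw [e2, e1]; abel
  have hx1 := hgen x h1x h2x
  rw [hθ, zero_smul, T_zero, hc.one, add_zero, ← sub_smul] at hx1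
  have hx2 : ψ ⬝ᵥ f (T x θ) = θ ⬝ᵥ f (T x ψ) := by
    have := (smul_eq_zero.1 hx1.symm).resolve_right hx
    exact (sub_eq_zero.1 this).symm
  rw [hgen w h1 h2, hx2, smul_add, smul_smul]
  abel

theorem coc_false (hn : 3 ≤ n) (hexc : ¬ (n = 4 ∧ Nat.card F = 2)) (hφ : φ ≠ 0) (hc : Coc φ f) : False := by
  -- `ψ` off the line of `φ`
  obtain ⟨ψ, hψ0, _, hψ⟩ := ex_off hn (0 : Fin n → F) hφ
  rcases Nat.lt_or_ge n 4 with hn4 | hn4
  · -- n = 3
    have hn3 : n = 3 := by omega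
    obtain ⟨w, hw, h1, h2⟩ := exists_ne_zero_dot_dot hn φ ψ
    have hoff := hc.off w ψ h2 h1 hw hψ
    have hTφ : φ ᵥ* (T w ψ : Matrix (Fin n) (Fin n) F) = φ := by rw [vecMul_T h2, h1, zero_smul, add_zero]
    have hmem : φ ⬝ᵥ f (T w ψ) = 0 := hc.mem _ hTφ
    by_cases h2' : (2 : F) = 0
    · -- characteristic two
      have e1 := hc.add h1 h2 h1 h2
      have e2 : w + w = 0 := by rw [← two_smul F, h2', zero_smul]
      have e3 : f (T w ψ) + f (T w ψ) = 0 := by rw [← two_smul F, h2', zero_smul]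
      rw [e2, e3, T_zero, hc.one, zero_add] at e1
      have e4 := (smul_eq_zero.1 e1.symm).resolve_right hw
      -- then `f (T w ψ)` lies in the common kernel of `φ, ψ`, the line of `w`
      apply hoff
      by_contra hcon
      obtain ⟨θ, hθ1, hθ2⟩ := dual_ex hcon
      subst hn3
      -- `w` and `f (T w ψ)` independent in the kernel of `φ`, `ψ`: contradiction with independence of `φ, ψ`
      obtain ⟨e, he1, he2⟩ : ∃ e : Fin 3 → F, φ ⬝ᵥ e = 0 ∧ ψ ⬝ᵥ e = 1 := by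
        obtain ⟨e, he1, he2⟩ := dual_ex hψ
        exact ⟨e, by rw [dotProduct_comm]; exact he1, by rw [dotProduct_comm]; exact he2⟩
      obtain ⟨e', he'1⟩ := exists_dot_eq_one' hφ
      obtain ⟨κ, hκ⟩ := Cfsg.Agent.H17.exists_dot_eq_one hw
      have hli : LinearIndependent F ![e, e', w, f (T w ψ)] := by
        rw [Fintype.linearIndependent_iff]
        intro g hg
        simp only [Fin.sum_univ_four, cons_val_zero, cons_val_one, Matrix.cons_val] at hg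
        have a1 := congrArg (fun v => φ ⬝ᵥ v) hg
        simp only [dotProduct_add, dotProduct_smul, he1, he'1, h1, hmem, dotProduct_zero, smul_eq_mul, mul_zero, mul_one, add_zero, zero_add] at a1
        have a2 := congrArg (fun v => ψ ⬝ᵥ v) hg
        simp only [dotProduct_add, dotProduct_smul, he2, h2, e4, a1, dotProduct_zero, smul_eq_mul, mul_zero, mul_one, add_zero, zero_add, zero_mul] at a2
        rw [a1, a2, zero_smul, zero_smul, zero_add, zero_add] at hg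
        have a3 := congrArg (fun v => θ ⬝ᵥ v) hg
        simp only [dotProduct_add, dotProduct_smul, hθ1, hθ2, dotProduct_zero, smul_eq_mul, mul_zero, mul_one, add_zero, zero_add, zero_mul] at a3
        rw [a3, zero_smul, add_zero] at hg
        have a4 := (smul_eq_zero.1 hg).resolve_right hw
        intro i
        fin_cases i <;> assumption
      have := hli.fintype_card_le_finrank
      rw [Module.finrank_fin_fun, Fintype.card_fin] at this
      omega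
    · -- odd characteristic
      obtain ⟨e, he1, he2⟩ : ∃ e : Fin n → F, ψ ⬝ᵥ e = 0 ∧ φ ⬝ᵥ e = 1 := by
        have hφψ : φ ∉ ln ψ := by
          rintro ⟨c, hc'⟩
          apply hψ
          have hc0 : c ≠ 0 := by rintro rfl; rw [zero_smul] at hc'; exact hφ hc'
          exact ⟨c⁻¹, by rw [hc', smul_smul, inv_mul_cancel₀ hc0, one_smul]⟩
        obtain ⟨e, he1, he2⟩ := dual_ex hφψ
        exact ⟨e, by rw [dotProduct_comm]; exact he1, by rw [dotProduct_comm]; exact he2⟩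
      have hdet : (-(1 + vecMulVec ((-2 : F) • e) φ) : Matrix (Fin n) (Fin n) F).det = 1 := by
        rw [Matrix.det_neg, Fintype.card_fin, vecMulVec_eq Unit, det_one_add_replicateCol_mul_replicateRow, dotProduct_smul, he2, hn3]
        norm_num
      set B : SL' n F := ⟨-(1 + vecMulVec ((-2 : F) • e) φ), hdet⟩ with hB
      have hBv : ∀ v : Fin n → F, (B : Matrix (Fin n) (Fin n) F) *ᵥ v = -v + (2 * (φ ⬝ᵥ v)) • e := by
        intro v
        show (-(1 + vecMulVec ((-2 : F) • e) φ)) *ᵥ v = _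
        rw [neg_mulVec, one_add_mulVec, smul_smul, neg_add, ← neg_smul]
        congr 2; ring
      have hvB : ∀ θ : Fin n → F, θ ᵥ* (B : Matrix (Fin n) (Fin n) F) = -θ + (2 * (θ ⬝ᵥ e)) • φ := by
        intro v
        show v ᵥ* (-(1 + vecMulVec ((-2 : F) • e) φ)) = _
        rw [vecMul_neg, vecMul_one_add, dotProduct_smul, neg_add, ← neg_smul]
        congr 2; rw [smul_eq_mul]; ring
      have hφB : φ ᵥ* (B : Matrix (Fin n) (Fin n) F) = φ := by
        rw [hvB, he2, mul_one, two_smul]; abel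
      have hcomm : B * T w ψ = T w ψ * B := by
        apply sl_ext_mulVec
        intro x
        rw [sl_mul_mulVec, sl_mul_mulVec, T_mulVec h2, T_mulVec h2, hBv, hBv, dotProduct_add, dotProduct_add, dotProduct_smul, dotProduct_smul, dotProduct_neg, h1, he1]
        simp only [smul_zero, add_zero, smul_eq_mul, mul_zero, neg_add, neg_smul]
        abel
      have h3 := congrArg f hcomm
      rw [hc.mul _ _ hφB hTφ, hc.mul _ _ hTφ hφB, hBv, hmem, mul_zero, zero_smul, add_zero, T_mulVec h2] at h3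
      apply hoff
      refine ⟨-(2:F)⁻¹ * (ψ ⬝ᵥ f B), ?_⟩
      have h4 : (2 : F) • f (T w ψ) = - ((ψ ⬝ᵥ f B) • w) := by
        rw [two_smul]
        have : f (T w ψ) + f (T w ψ) = f (T w ψ) + (f B + (ψ ⬝ᵥ f B) • w) - (f B + -f (T w ψ)) - (ψ ⬝ᵥ f B) • w := by abel
        rw [this, h3]; abel
      have h5 : f (T w ψ) = (2 : F)⁻¹ • ((2 : F) • f (T w ψ)) := by rw [smul_smul, inv_mul_cancel₀ h2', one_smul]
      rw [h5, h4, smul_neg, smul_smul, neg_mul, neg_smul]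
  · -- n ≥ 4
    obtain ⟨x, hx, h1, h2⟩ := exists_ne_zero_dot_dot hn φ ψ
    -- general facts for nonzero x in the common kernel
    have hfact : ∀ x : Fin n → F, x ≠ 0 → φ ⬝ᵥ x = 0 → ψ ⬝ᵥ x = 0 →
        ∃ θ : Fin n → F, θ ⬝ᵥ x = 0 ∧ θ ⬝ᵥ f (T x ψ) = 1 ∧ φ ⬝ᵥ f (T x ψ) = 0 ∧ ψ ⬝ᵥ f (T x ψ) = 0 := by
      intro x hx h1 h2
      obtain ⟨θ, hθ1, hθ2⟩ := dual_ex (hc.off x ψ h2 h1 hx hψ)
      exact ⟨θ, hθ1, hθ2, hc.mem _ (by rw [vecMul_T h2, h1, zero_smul, add_zero]), hc.ker hn4 h1 h2⟩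
    obtain ⟨θ, hθ1, hθ2, hy1, hy2⟩ := hfact x hx h1 h2
    by_cases h2' : (2 : F) = 0
    · rcases Nat.lt_or_ge n 5 with hn5 | hn5
      · -- n = 4, characteristic 2, q ≥ 4
        have hL : ∀ x : Fin n → F, x ≠ 0 → φ ⬝ᵥ x = 0 → ψ ⬝ᵥ x = 0 → ∀ s : F, f (T (s • x) ψ) = s • f (T x ψ) + (s + s * s) • x := by
          intro x hx h1 h2 s
          obtain ⟨θ, hθ1, hθ2, hy1, hy2⟩ := hfact x hx h1 h2
          have hneg : ∀ v : Fin n → F, -v = v := by
            intro v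
            rw [neg_eq_iff_add_eq_zero, ← two_smul F, h2', zero_smul]
          -- `μ = 1`
          have e1 := hc.key hn4 (θ := θ) hy1 hy2 h1 h2 hθ1 hx
          rw [hθ2, one_smul, one_smul, one_mul, one_smul] at e1
          have hμ : θ ⬝ᵥ f (T (f (T x ψ)) ψ) = 1 := by
            have e2 : (θ ⬝ᵥ f (T (f (T x ψ)) ψ) - 1) • x = (2 : F) • f (T x ψ) := by
              rw [sub_smul, one_smul, two_smul]
              nth_rewrite 2 [e1]
              abel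
            rw [h2', zero_smul] at e2
            exact sub_eq_zero.1 ((smul_eq_zero.1 e2).resolve_right hx)
          have e3 := hc.key hn4 (θ := s • θ) hy1 hy2 h1 h2 (by rw [smul_dotProduct, hθ1, smul_zero]) hx
          simp only [smul_dotProduct, hθ2, hμ, smul_eq_mul, mul_one] at e3
          rw [e3, sub_eq_add_neg, sub_eq_add_neg, hneg, hneg, add_smul]
          abel
        have hq : Nat.card F ≠ 2 := fun h => hexc ⟨by omega, h⟩
        obtain ⟨s, hs0, hs1⟩ : ∃ s : F, s ≠ 0 ∧ s ≠ 1 := by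
          by_contra hcon
          push Not at hcon
          apply hq
          have : Function.Bijective (fun b : Bool => if b then (1 : F) else 0) := by
            constructor
            · intro a b hab
              cases a <;> cases b <;> simp at hab ⊢
            · intro y
              by_cases hy : y = 0
              · exact ⟨false, by simp [hy]⟩
              · exact ⟨true, by simp [hcon y hy]⟩
          rw [← Nat.card_congr (Equiv.ofBijective _ this)]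
          simp
        have e1 := hL x hx h1 h2 (s * s)
        have hsx : s • x ≠ 0 := smul_ne_zero hs0 hx
        have e2 := hL (s • x) hsx (by rw [dotProduct_smul, h1, smul_zero]) (by rw [dotProduct_smul, h2, smul_zero]) s
        rw [hL x hx h1 h2 s, smul_smul, e1, smul_add, smul_smul, smul_smul, smul_smul, add_assoc, add_right_inj, ← add_smul] at e2
        have e3 : ((s * s + s * s * (s * s)) - (s * (s + s * s) + (s + s * s) * s)) • x = 0 := by rw [sub_smul, e2, sub_self]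
        have e4 := (smul_eq_zero.1 e3).resolve_right hx
        have e5 : s * s * (s - 1) ^ 2 = 0 := by
          have : s * s * (s - 1) ^ 2 = ((s * s + s * s * (s * s)) - (s * (s + s * s) + (s + s * s) * s)) + 2 * (s * s) := by ring
          rw [this, e4, h2']; ring
        rcases mul_eq_zero.1 e5 with h | h
        · exact hs0 (mul_self_eq_zero.1 h)
        · exact hs1 (sub_eq_zero.1 (pow_eq_zero_iff (two_ne_zero) |>.1 h))
      · -- n ≥ 5
        obtain ⟨κ, hκ⟩ := Cfsg.Agent.H17.exists_dot_eq_one hx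
        obtain ⟨w, hw0, hw⟩ := ex_dots (k := 4) (by omega) ![φ, ψ, θ, κ]
        have hw1 : φ ⬝ᵥ w = 0 := hw 0
        have hw2 : ψ ⬝ᵥ w = 0 := hw 1
        have hw3 : θ ⬝ᵥ w = 0 := hw 2
        have hw4 : κ ⬝ᵥ w = 0 := hw 3
        have e1 := hc.key hn4 (θ := θ) hw1 hw2 h1 h2 hθ1 hx
        rw [hw3, zero_smul, T_zero, hc.one, hθ2, mul_zero, zero_smul, sub_zero, one_smul] at e1
        have e2 : w = (θ ⬝ᵥ f (T w ψ)) • x := (sub_eq_zero.1 e1.symm).symm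
        rw [e2, dotProduct_smul, hκ, smul_eq_mul, mul_one] at hw4
        rw [hw4, zero_smul] at e2
        exact hw0 e2
    · -- odd characteristic
      have e1 := hc.key hn4 (θ := θ) hy1 hy2 h1 h2 hθ1 hx
      rw [hθ2, one_smul, one_smul, one_mul, one_smul] at e1
      apply hc.off x ψ h2 h1 hx hψ
      refine ⟨(2 : F)⁻¹ * (θ ⬝ᵥ f (T (f (T x ψ)) ψ) - 1), ?_⟩
      have e2 : (2 : F) • f (T x ψ) = (θ ⬝ᵥ f (T (f (T x ψ)) ψ) - 1) • x := by
        rw [sub_smul, one_smul, two_smul]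
        nth_rewrite 1 [e1]
        abel
      rw [mul_smul, ← e2, smul_smul, inv_mul_cancel₀ h2', one_smul]

end Cfsg.Agent.H11.MI
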