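import Mathlib
import Cfsg.Agent.H11.MI6

set_option autoImplicit false
set_option linter.all false

/-! Minimal index of proper subgroups of `SL_n(F)` and `PSL_n(F)`. -/

namespace Cfsg.Agent.H11.MI

open Matrix Cfsg.Agent.H12 Cfsg.Agent.H17 Cfsg.Agent.H16

theorem eq_univ_of_card {Ω : Type*} [Finite Ω] (s : Set Ω) (h : Nat.card s = Nat.card Ω) : s = Set.univ := by
  classical
  haveI := Fintype.ofFinite Ω
  rw [Set.eq_univ_iff_forall]
  have h1 := Set.eq_of_subset_of_ncard_le (Set.subset_univ s) (by rw [Set.ncard_univ, ← h]; exact le_of_eq rfl) (Set.toFinite _)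
  intro x; rw [h1]; trivial

theorem burn {G Ω : Type*} [Group G] [MulAction G Ω] [Finite G] [Finite Ω] (A : Subgroup G) (f : ℕ)
    (hf : ∀ a ∈ A, a ≠ 1 → Nat.card (MulAction.fixedBy Ω a) = f) :
    Nat.card A ∣ Nat.card Ω + (Nat.card A - 1) * f := by
  classical
  haveI := Fintype.ofFinite G
  haveI := Fintype.ofFinite Ω
  haveI := Fintype.ofFinite A
  haveI : Fintype (Quotient (MulAction.orbitRel A Ω)) := Fintype.ofFinite _
  have h1 := MulAction.sum_card_fixedBy_eq_card_orbits_mul_card_group A Ω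
  refine ⟨Fintype.card (Quotient (MulAction.orbitRel A Ω)), ?_⟩
  rw [Nat.card_eq_fintype_card (α := A), mul_comm (Fintype.card A) _, ← h1, ← Finset.add_sum_erase _ _ (Finset.mem_univ (1 : A))]
  have h3 : Fintype.card (MulAction.fixedBy Ω (1 : A)) = Nat.card Ω := by
    rw [← Nat.card_eq_fintype_card]
    apply Nat.card_congr
    refine (Equiv.subtypeUnivEquiv ?_)
    intro z
    simp [MulAction.mem_fixedBy]
  rw [h3]
  congr 1
  rw [Finset.sum_congr rfl (g := fun _ => f)]
  · rw [Finset.sum_const, smul_eq_mul, Finset.card_erase_of_mem (Finset.mem_univ _), Finset.card_univ]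
  · intro g hg
    rw [Finset.mem_erase] at hg
    have := hf g.1 g.2 (fun h => hg.1 (Subtype.ext h))
    rw [← this, ← Nat.card_eq_fintype_card]
    rfl

variable {F : Type*} [Field F] {n : ℕ}

/-- inverse transpose -/
def it (n : ℕ) (F : Type*) [Field F] : SL' n F ≃* SL' n F where
  toFun g := (g⁻¹).transpose
  invFun g := (g⁻¹).transpose
  left_inv g := by
    apply sl_ext
    show (((g⁻¹).transpose)⁻¹).1.transpose = g.1
    have h : ((g⁻¹).transpose)⁻¹ = g.transpose := by
      rw [inv_eq_iff_mul_eq_one]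
      apply sl_ext
      show (g⁻¹).1.transpose * g.1.transpose = 1
      rw [← transpose_mul, ← Matrix.SpecialLinearGroup.coe_mul, mul_inv_cancel, Matrix.SpecialLinearGroup.coe_one, transpose_one]
    rw [h]
    exact transpose_transpose _
  right_inv g := by
    apply sl_ext
    show (((g⁻¹).transpose)⁻¹).1.transpose = g.1
    have h : ((g⁻¹).transpose)⁻¹ = g.transpose := by
      rw [inv_eq_iff_mul_eq_one]
      apply sl_ext
      show (g⁻¹).1.transpose * g.1.transpose = 1
      rw [← transpose_mul, ← Matrix.SpecialLinearGroup.coe_mul, mul_inv_cancel, Matrix.SpecialLinearGroup.coe_one, transpose_one]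
    rw [h]
    exact transpose_transpose _
  map_mul' g h := by
    apply sl_ext
    show ((g * h)⁻¹).1.transpose = (g⁻¹).1.transpose * (h⁻¹).1.transpose
    rw [← transpose_mul, ← Matrix.SpecialLinearGroup.coe_mul, _root_.mul_inv_rev]

theorem InT_it {H : Subgroup (SL' n F)} {v φ : Fin n → F} : InT (H.map (it n F).toMonoidHom) v φ ↔ InT H φ v := by
  have hkey : ∀ (H : Subgroup (SL' n F)) {v φ : Fin n → F}, InT (H.map (it n F).toMonoidHom) v φ → InT H φ v := by
    intro H v φ h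
    obtain ⟨h0, g, ⟨t, ht, rfl⟩, hg⟩ := h
    refine ⟨by rw [dotProduct_comm]; exact h0, t⁻¹, H.inv_mem ht, ?_⟩
    have h1 : ((t⁻¹).1 : Matrix (Fin n) (Fin n) F).transpose = 1 + vecMulVec v φ := hg
    have h2 := congrArg Matrix.transpose h1
    rw [transpose_transpose, transpose_add, transpose_one, transpose_vecMulVec] at h2
    exact h2
  constructor
  · exact hkey H
  · intro h
    apply hkey
    convert h using 1
    ext g
    constructor
    · rintro ⟨_, ⟨t, ht, rfl⟩, rfl⟩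
      have : (it n F).toMonoidHom ((it n F).toMonoidHom t) = t := (it n F).left_inv t
      rw [this]; exact ht
    · intro hg
      exact ⟨_, ⟨g, hg, rfl⟩, (it n F).left_inv g⟩

theorem U_it (H : Subgroup (SL' n F)) (φ : Fin n → F) : U (H.map (it n F).toMonoidHom) φ = D H φ := by
  ext v; exact InT_it

theorem D_it (H : Subgroup (SL' n F)) (φ : Fin n → F) : D (H.map (it n F).toMonoidHom) φ = U H φ := by
  ext v; exact InT_it

variable [Finite F]

theorem numb {q m : ℕ} (hq : 2 ≤ q) (hn : 1 ≤ n) (hm : m < (q ^ n - 1) / (q - 1)) : m * (q - 1) + q ≤ q ^ n := by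
  have h1 : (m + 1) * (q - 1) ≤ q ^ n - 1 := by
    calc (m + 1) * (q - 1) ≤ ((q ^ n - 1) / (q - 1)) * (q - 1) := Nat.mul_le_mul_right _ hm
      _ ≤ q ^ n - 1 := Nat.div_mul_le_self _ _
  have h2 : 1 ≤ q ^ n := Nat.one_le_pow _ _ (by omega)
  rw [add_mul, one_mul] at h1
  omega

/-- the numerical consequences of a small index -/
theorem small_index (hn : 3 ≤ n) (H : Subgroup (SL' n F)) (hH : H ≠ ⊤) (hm : H.index < (Nat.card F ^ n - 1) / (Nat.card F - 1)) :
    ∃ f : ℕ, (∀ (v φ : Fin n → F) (h : φ ⬝ᵥ v = 0), v ≠ 0 → φ ≠ 0 → Nat.card (MulAction.fixedBy (SL' n F ⧸ H) (tv v φ h : SL' n F)) = f) ∧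
      Nat.card (SL' n F ⧸ H) = f + Nat.card F ^ (n - 1) ∧ f * (Nat.card F - 1) + 1 < Nat.card F ^ (n - 1) := by
  have hq : 2 ≤ Nat.card F := Finite.one_lt_card
  have hnum := numb hq (by omega) hm
  obtain ⟨φ0, hφ0, _⟩ := exists_ne_zero_dot (by omega : 2 ≤ n) (0 : Fin n → F)
  obtain ⟨v0, hv0, h0⟩ := exists_ne_zero_dot (by omega : 2 ≤ n) φ0
  set Ω := SL' n F ⧸ H with hΩ
  haveI : Finite Ω := by rw [hΩ]; infer_instance
  set f := Nat.card (MulAction.fixedBy Ω (tv v0 φ0 h0 : SL' n F)) with hf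
  have hff : ∀ (v φ : Fin n → F) (h : φ ⬝ᵥ v = 0), v ≠ 0 → φ ≠ 0 → Nat.card (MulAction.fixedBy Ω (tv v φ h : SL' n F)) = f :=
    fun v φ h hv hφ => tv_conj_fix hn hv hφ h hv0 hφ0 h0
  have hmΩ : Nat.card Ω = H.index := rfl
  refine ⟨f, hff, ?_⟩
  have hb := burn (Ω := Ω) (grp (P φ0) φ0) f (by
    rintro a ⟨u, hu, h, rfl⟩ ha
    apply hff _ _ _ _ hφ0
    rintro rfl
    apply ha
    apply sl_ext; rw [tv_coe, zero_vecMulVec, add_zero]; rfl)
  rw [grp_card hφ0 le_rfl, card_P (by omega) hφ0] at hb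
  have hle : f ≤ Nat.card Ω := by
    rw [hf]
    exact Nat.card_le_card_of_injective _ Subtype.val_injective
  have hpos : 1 ≤ Nat.card F ^ (n - 1) := Nat.one_le_pow _ _ (by omega)
  -- `q^(n-1) ∣ m - f`
  have hdvd : Nat.card F ^ (n - 1) ∣ Nat.card Ω - f := by
    have h1 : Nat.card Ω + (Nat.card F ^ (n - 1) - 1) * f = (Nat.card Ω - f) + Nat.card F ^ (n - 1) * f := by
      obtain ⟨Q, hQ⟩ : ∃ Q, Nat.card F ^ (n - 1) = Q + 1 := ⟨Nat.card F ^ (n - 1) - 1, by omega⟩
      obtain ⟨d, hd⟩ : ∃ d, Nat.card Ω = f + d := ⟨Nat.card Ω - f, by omega⟩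
      rw [hQ, hd, Nat.add_sub_cancel, Nat.add_sub_cancel_left]; ring
    rw [h1] at hb
    exact (Nat.dvd_add_left (Dvd.intro _ rfl)).1 hb
  obtain ⟨k, hk⟩ := hdvd
  have hpow : Nat.card F ^ n = Nat.card F * Nat.card F ^ (n - 1) := by
    rw [← pow_succ']; congr 1; omega
  obtain ⟨q1, hq1⟩ : ∃ q1, Nat.card F = q1 + 1 := ⟨Nat.card F - 1, by omega⟩
  have hk1 : k = 1 := by
    rcases Nat.lt_trichotomy k 1 with hk0 | hk1 | hk2
    · exfalso
      have : k = 0 := by omega
      subst this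
      have hcf : Nat.card (MulAction.fixedBy Ω (tv v0 φ0 h0 : SL' n F)) = Nat.card Ω := by omega
      apply hH
      apply eq_top_of_transvection_mem
      intro i j hij c
      apply Rt.mem hij
      show InT H (Pi.single i c) (Pi.single j 1)
      by_cases hc : c = 0
      · rw [hc, Pi.single_zero]; exact InT.zero_left _
      have hi0 : (Pi.single i c : Fin n → F) ≠ 0 := by
        intro h; have := congrFun h i; simp [hc] at this
      have hj0 : (Pi.single j 1 : Fin n → F) ≠ 0 := by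
        intro h; have := congrFun h j; simp at this
      have hdot : (Pi.single j 1 : Fin n → F) ⬝ᵥ (Pi.single i c) = 0 := by
        rw [single_dotProduct, one_mul, Pi.single_eq_of_ne hij.symm]
      have h1 := hff _ _ hdot hi0 hj0
      have h2 : MulAction.fixedBy Ω (tv (Pi.single i c) (Pi.single j 1) hdot : SL' n F) = Set.univ := by
        apply eq_univ_of_card
        rw [h1, hf, hcf]
      have h3 : (((1 : SL' n F) : SL' n F ⧸ H) : Ω) ∈ MulAction.fixedBy Ω (tv (Pi.single i c) (Pi.single j 1) hdot : SL' n F) := by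
        rw [h2]; trivial
      rw [MulAction.mem_fixedBy] at h3
      rw [InT_iff]
      refine ⟨hdot, ?_⟩
      have h4 : ((tv (Pi.single i c) (Pi.single j 1) hdot * 1 : SL' n F) : SL' n F ⧸ H) = ((1 : SL' n F) : SL' n F ⧸ H) := h3
      rw [mul_one] at h4
      have h5 := QuotientGroup.eq.1 h4.symm
      simpa using h5
    · exact hk1
    · exfalso
      have h1 : 2 * Nat.card F ^ (n - 1) ≤ Nat.card Ω := by
        calc 2 * Nat.card F ^ (n - 1) ≤ Nat.card F ^ (n - 1) * k := by rw [mul_comm]; exact Nat.mul_le_mul_left _ hk2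
          _ ≤ Nat.card Ω := by omega
      rw [← hmΩ, hpow, hq1, Nat.add_sub_cancel] at hnum
      rw [hq1] at h1
      have h2 : 2 * (q1 + 1) ^ (n - 1) * q1 ≤ Nat.card Ω * q1 := Nat.mul_le_mul_right _ h1
      have h3 : 1 ≤ q1 := by omega
      nlinarith
  rw [hk1, mul_one] at hk
  have hm2 : Nat.card Ω = f + Nat.card F ^ (n - 1) := by omega
  refine ⟨hm2, ?_⟩
  rw [← hmΩ, hm2, hpow, hq1, Nat.add_sub_cancel] at hnum
  rw [hq1, Nat.add_sub_cancel]
  nlinarith

theorem stab_base (H : Subgroup (SL' n F)) : MulAction.stabilizer (SL' n F) (((1 : SL' n F) : SL' n F ⧸ H)) = H :=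
  MulAction.stabilizer_quotient H

theorem sl_bound (hn : 3 ≤ n) (hexc : ¬ (n = 4 ∧ Nat.card F = 2)) (H : Subgroup (SL' n F)) (hH : H ≠ ⊤) :
    (Nat.card F ^ n - 1) / (Nat.card F - 1) ≤ H.index := by
  classical
  by_contra hcon
  push Not at hcon
  have hq : 2 ≤ Nat.card F := Finite.one_lt_card
  obtain ⟨f, hf, hΩ, hlt⟩ := small_index hn H hH hcon
  set H' := H.map (it n F).toMonoidHom with hH'
  have hH't : H' ≠ ⊤ := by
    intro h
    apply hH
    rw [eq_top_iff]
    intro x _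
    have : (it n F).toMonoidHom x ∈ H' := by rw [h]; trivial
    obtain ⟨y, hy, hyx⟩ := this
    rw [← (it n F).injective hyx]; exact hy
  have hidx : H'.index = H.index := Subgroup.index_map_equiv H (it n F)
  obtain ⟨f', hf', hΩ', hlt'⟩ := small_index hn H' hH't (by rw [hidx]; exact hcon)
  haveI : Finite (SL' n F ⧸ H) := inferInstance
  haveI : Finite (SL' n F ⧸ H') := inferInstance
  have hA' : ∀ φ : Fin n → F, φ ≠ 0 → D H φ = ⊥ ∨ D H φ = P φ := by
    rcases dich hn f' hf' hΩ' hlt' with h | h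
    · intro φ hφ
      have := h φ hφ ((1 : SL' n F) : SL' n F ⧸ H')
      rw [stab_base, hH', U_it] at this
      exact this
    · exfalso
      refine caseB hn H ?_
      intro v hv
      have := h v hv ((1 : SL' n F) : SL' n F ⧸ H')
      rw [stab_base, hH', U_it] at this
      exact this
  have hA : ∀ φ : Fin n → F, φ ≠ 0 → U H φ = ⊥ ∨ U H φ = P φ := by
    rcases dich hn f hf hΩ hlt with h | h
    · intro φ hφ
      have := h φ hφ ((1 : SL' n F) : SL' n F ⧸ H)
      rw [stab_base] at this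
      exact this
    · exfalso
      refine caseB hn H' ?_
      intro v hv
      have := h v hv ((1 : SL' n F) : SL' n F ⧸ H)
      rw [stab_base, ← D_it] at this
      exact this
  have hno := caseA hn H hH hA hA'
  -- no transvection fixes a point
  have hf0 : f = 0 := by
    obtain ⟨φ0, hφ0, _⟩ := exists_ne_zero_dot (by omega : 2 ≤ n) (0 : Fin n → F)
    obtain ⟨v0, hv0, h0⟩ := exists_ne_zero_dot (by omega : 2 ≤ n) φ0
    rw [← hf v0 φ0 h0 hv0 hφ0]
    by_contra hne
    have hne' : (MulAction.fixedBy (SL' n F ⧸ H) (tv v0 φ0 h0 : SL' n F)).Nonempty := by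
      rw [Set.nonempty_iff_ne_empty]
      intro h
      apply hne
      rw [h]; simp
    obtain ⟨x, hx⟩ := hne'
    obtain ⟨g, rfl⟩ := QuotientGroup.mk_surjective x
    have h1 : ((g : SL' n F) : SL' n F ⧸ H) = g • (((1 : SL' n F)) : SL' n F ⧸ H) := by
      show ((g : SL' n F) : SL' n F ⧸ H) = (((g * 1 : SL' n F)) : SL' n F ⧸ H)
      rw [mul_one]
    have h2 : InT (MulAction.stabilizer (SL' n F) (g • (((1 : SL' n F)) : SL' n F ⧸ H))) v0 φ0 := by
      rw [InT_iff]
      refine ⟨h0, ?_⟩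
      rw [MulAction.mem_stabilizer_iff, ← h1]
      exact hx
    have hgv : v0 = (g : Matrix (Fin n) (Fin n) F) *ᵥ (((g⁻¹ : SL' n F) : Matrix (Fin n) (Fin n) F) *ᵥ v0) := by
      rw [mulVec_mulVec, ← Matrix.SpecialLinearGroup.coe_mul, mul_inv_cancel, Matrix.SpecialLinearGroup.coe_one, one_mulVec]
    rw [hgv] at h2
    have h3 := (U_smul (φ := φ0) g (((1 : SL' n F)) : SL' n F ⧸ H)).1 h2
    rw [stab_base] at h3
    refine hno _ _ ?_ ?_ h3
    · intro h
      rw [h, mulVec_zero] at hgv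
      exact hv0 hgv
    · intro h
      apply hφ0
      have : φ0 = (φ0 ᵥ* (g : Matrix (Fin n) (Fin n) F)) ᵥ* ((g⁻¹ : SL' n F) : Matrix (Fin n) (Fin n) F) := by
        rw [vecMul_vecMul, ← Matrix.SpecialLinearGroup.coe_mul, mul_inv_cancel, Matrix.SpecialLinearGroup.coe_one, vecMul_one]
      rw [this, h, zero_vecMul]
  rw [hf0, zero_add] at hΩ
  obtain ⟨φ, hφ, _⟩ := exists_ne_zero_dot (by omega : 2 ≤ n) (0 : Fin n → F)
  -- the unipotent radical is transitive
  have hcov : ∀ g : SL' n F, ∃ u, ∃ h : φ ⬝ᵥ u = 0, tv u φ h * g ∈ H := by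
    intro g
    set x0 : SL' n F ⧸ H := ((1 : SL' n F) : SL' n F ⧸ H) with hx0
    have h1 := orbit_count (grp (P φ) φ) x0
    rw [grp_inf, hx0, stab_base, grp_card hφ (U_le _ _), grp_card hφ le_rfl, card_P (by omega) hφ] at h1
    have hUbot : U H φ = ⊥ := by
      rw [eq_bot_iff]
      intro v hv
      rw [AddSubgroup.mem_bot]
      by_contra hv0
      exact hno v φ hv0 hφ hv
    have hcb : Nat.card (⊥ : AddSubgroup (Fin n → F)) = 1 := by simp
    rw [hUbot, hcb, mul_one, ← hΩ] at h1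
    have h2 : MulAction.orbit (grp (P φ) φ) x0 = Set.univ := by
      apply eq_univ_of_card
      exact h1
    have h3 : ((g : SL' n F) : SL' n F ⧸ H) ∈ MulAction.orbit (grp (P φ) φ) x0 := by rw [h2]; trivial
    obtain ⟨⟨b, u, hu, h, rfl⟩, hb⟩ := h3
    have h4 : ((tv u φ h * 1 : SL' n F) : SL' n F ⧸ H) = ((g : SL' n F) : SL' n F ⧸ H) := hb
    rw [mul_one] at h4
    have h5 := QuotientGroup.eq.1 h4
    have hinv : (tv u φ h)⁻¹ = tv (-u) φ (by rw [dotProduct_neg, h, neg_zero]) := by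
      rw [inv_eq_iff_mul_eq_one, tv_add]
      apply sl_ext; rw [tv_coe, add_neg_cancel, zero_vecMulVec, add_zero]; rfl
    rw [hinv] at h5
    exact ⟨_, _, h5⟩
  choose c hc1 hc2 using hcov
  have huniq : ∀ (g : SL' n F) (u u' : Fin n → F) (h : φ ⬝ᵥ u = 0) (h' : φ ⬝ᵥ u' = 0), tv u φ h * g ∈ H → tv u' φ h' * g ∈ H → u = u' := by
    intro g u u' h h' h1 h2
    have h3 := H.mul_mem h1 (H.inv_mem h2)
    have hinv : (tv u' φ h')⁻¹ = tv (-u') φ (by rw [dotProduct_neg, h', neg_zero]) := by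
      rw [inv_eq_iff_mul_eq_one, tv_add]
      apply sl_ext; rw [tv_coe, add_neg_cancel, zero_vecMulVec, add_zero]; rfl
    have h4 : tv u φ h * g * (tv u' φ h' * g)⁻¹ = tv (u + -u') φ (by rw [dotProduct_add, dotProduct_neg, h, h']; simp) := by
      rw [← tv_add h (by rw [dotProduct_neg, h', neg_zero]), ← hinv, _root_.mul_inv_rev, mul_assoc, mul_inv_cancel_left]
    rw [h4] at h3
    by_contra hne
    exact hno (u + -u') φ (fun h => hne (by rw [← sub_eq_add_neg, sub_eq_zero] at h; exact h)) hφ (InT_iff.2 ⟨_, h3⟩)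
  refine coc_false hn hexc hφ (f := c) ⟨fun g _ => hc1 g, ?_, ?_⟩
  · intro g g' hg hg'
    have h1 : φ ⬝ᵥ ((g : Matrix (Fin n) (Fin n) F) *ᵥ c g') = 0 := by rw [dotProduct_mulVec, hg]; exact hc1 g'
    apply huniq (g * g') _ _ (hc1 _) (by rw [dotProduct_add, hc1, h1, add_zero]) (hc2 _)
    have h2 := conj_tv g (c g') φ (by rw [hg]; exact hc1 g')
    rw [tv_ext _ (hc1 g') rfl hg] at h2
    have h3 := H.mul_mem (hc2 g) (hc2 g')
    have h4 : tv (c g) φ (hc1 g) * g * (tv (c g') φ (hc1 g') * g') = tv (c g + (g : Matrix (Fin n) (Fin n) F) *ᵥ c g') φ (by rw [dotProduct_add, hc1, h1, add_zero]) * (g * g') := by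
      rw [← tv_add (hc1 g) h1, ← h2]; group
    rw [h4] at h3
    exact h3
  · intro w ψ h2 h1 hw hψ hln
    obtain ⟨d, hd⟩ := hln
    have h3 := hc2 (T w ψ)
    have h4 : φ ⬝ᵥ (d • w) = 0 := by rw [dotProduct_smul, h1, smul_zero]
    rw [tv_ext _ h4 hd rfl, T_eq h2] at h3
    have h5 : (d • φ + ψ) ⬝ᵥ w = 0 := by rw [add_dotProduct, smul_dotProduct, h1, h2]; simp
    refine hno w (d • φ + ψ) hw ?_ (InT_iff.2 ⟨h5, ?_⟩)
    · intro h
      apply hψ
      refine ⟨-d, ?_⟩
      rw [neg_smul]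
      exact (neg_eq_of_add_eq_zero_right h).symm
    · convert h3 using 1
      apply sl_ext
      rw [Matrix.SpecialLinearGroup.coe_mul, tv_coe, tv_coe, tv_coe, Matrix.mul_add, Matrix.mul_one, Matrix.add_mul, Matrix.one_mul,
        vecMulVec_mul_vecMulVec, h1, zero_smul, vecMulVec_zero, add_zero, vecMulVec_add, smul_vecMulVec, vecMulVec_smul]
      abel

end Cfsg.Agent.H11.MI
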