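import Mathlib
import Cfsg.Agent.H11.MI7

set_option autoImplicit false
set_option linter.all false

/-! Minimal index of proper subgroups of `PSL_n(F)`. -/

namespace Cfsg.Agent.H11.MI

open Matrix Cfsg.Agent.H12 Cfsg.Agent.H17 Cfsg.Agent.H16
open scoped LinearAlgebra.Projectivization

theorem psl_bound {F : Type*} [Field F] [Fintype F] {q : ℕ} (hF : Fintype.card F = q) (n : ℕ) (hn : 3 ≤ n) (hexc : ¬ (n = 4 ∧ q = 2)) :
    (∀ H : Subgroup (Matrix.ProjectiveSpecialLinearGroup (Fin n) F), H ≠ ⊤ → (q ^ n - 1) / (q - 1) ≤ H.index) ∧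
    (∃ H : Subgroup (Matrix.ProjectiveSpecialLinearGroup (Fin n) F), H.index = (q ^ n - 1) / (q - 1)) := by
  have hq : Nat.card F = q := by rw [Nat.card_eq_fintype_card, hF]
  set π : SL' n F →* Matrix.ProjectiveSpecialLinearGroup (Fin n) F := QuotientGroup.mk' (Subgroup.center (SL' n F)) with hπ
  have hsurj : Function.Surjective π := QuotientGroup.mk'_surjective _
  constructor
  · intro H hH
    have h1 : (H.comap π).index = H.index := Subgroup.index_comap_of_surjective H hsurj
    rw [← h1, ← hq]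
    apply sl_bound hn (by rw [hq]; exact hexc)
    intro h
    apply hH
    rw [← Subgroup.map_comap_eq_self_of_surjective hsurj H, h, ← MonoidHom.range_eq_map, MonoidHom.range_eq_top.2 hsurj]
  · obtain ⟨v0, hv0, _⟩ := exists_ne_zero_dot (by omega : 2 ≤ n) (0 : Fin n → F)
    set p0 : ℙ F (Fin n → F) := Projectivization.mk F v0 hv0 with hp0
    refine ⟨(MulAction.stabilizer (SL' n F) p0).map π, ?_⟩
    rw [Subgroup.index_map_eq _ hsurj]
    · have htrans : MulAction.orbit (SL' n F) p0 = Set.univ := by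
        rw [Set.eq_univ_iff_forall]
        intro p
        obtain ⟨φ0, hφ0, h0⟩ := exists_ne_zero_dot (by omega : 2 ≤ n) v0
        obtain ⟨φ, hφ, h⟩ := exists_ne_zero_dot (by omega : 2 ≤ n) p.rep
        obtain ⟨σ, h1, h2⟩ := sl_pair hn hv0 hφ0 (by rw [dotProduct_comm]; exact h0) p.rep_nonzero hφ (by rw [dotProduct_comm]; exact h)
        refine ⟨σ, ?_⟩
        show σ • p0 = p
        rw [hp0, Projectivization.smul_mk]
        conv_rhs => rw [← p.mk_rep]
        rw [Projectivization.mk_eq_mk_iff']
        refine ⟨1, ?_⟩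
        rw [one_smul]
        exact h1.symm
      rw [MulAction.index_stabilizer, htrans, Set.ncard_univ, Projectivization.card'', hq]
      rw [Nat.card_fun, hq]; simp
    · intro z hz
      rw [hπ, QuotientGroup.ker_mk'] at hz
      obtain ⟨r, hr, hrz⟩ := Matrix.SpecialLinearGroup.mem_center_iff.1 hz
      rw [MulAction.mem_stabilizer_iff, hp0, Projectivization.smul_mk, Projectivization.mk_eq_mk_iff']
      refine ⟨r, ?_⟩
      have : z • v0 = (z : Matrix (Fin n) (Fin n) F) *ᵥ v0 := rfl
      rw [this, ← hrz]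
      simp

end Cfsg.Agent.H11.MI
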