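import Cfsg.Agent.H11.RegUnit

set_option autoImplicit false
set_option linter.unusedSectionVars false

/-!
The theorems of Okuyama and Blau on characters of height zero.
-/

namespace Cfsg.Agent.H11

open Cfsg Finset Cfsg.Agent.H3
open Cfsg.Agent.L (cj nz SylIn)
open scoped ComplexConjugate

variable {G : Type*} [Group G] [Fintype G] {p : ℕ} {M : Ideal AlgInt}

/-- **Okuyama's criterion.** -/
theorem okuyama (hM : IsPModular p M) {H : Subgroup G} {χ : IrrCharacter G}
    (hres : IsIrrCharacter H (fun h : H => (χ : G → ℂ) h))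
    (hχ0 : blockHeight p (blockOf M (χ : G → ℂ)) (χ : G → ℂ) = 0)
    (hψ0 : blockHeight p (blockOf M (fun h : H => (χ : G → ℂ) h))
      (fun h : H => (χ : G → ℂ) h) = 0)
    {e : Set (IrrCharacter H)} {B' : Set (IrrCharacter G)} (he : IsInducedBlock M H e B') :
    B' = blockOf M (χ : G → ℂ) ↔ e = blockOf M (fun h : H => (χ : G → ℂ) h) := by
  classical
  have hpr := hM.2.1.isPrime
  have hHf : Fintype H := Fintype.ofFinite _
  obtain ⟨ξ, hξ⟩ := isPBlock_nonempty he.1
  obtain ⟨θ, hθ⟩ := isPBlock_nonempty he.2.1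
  let ψ : IrrCharacter H := ⟨fun h : H => (χ : G → ℂ) h, hres⟩
  have h1 := li_omega_resAlg_sub hM H he hξ hθ (isZS_regAlg (M := M) (p := p) (irr_isChar χ.2))
  rw [resAlg_regAlg] at h1
  have hG : MemLocalIdeal M (omega (θ : G → ℂ) (regAlg p (χ : G → ℂ))) ↔
      B' ≠ blockOf M (χ : G → ℂ) := by
    constructor
    · intro h hB
      have hθ' : θ ∈ blockOf M (χ : G → ℂ) := hB ▸ hθ
      apply not_li_omega_regAlg hM (B := blockOf M (χ : G → ℂ)) ⟨χ, rfl⟩ (mem_blockOf_self χ) hχ0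
      exact (li_congr (li_omega_sub (isZS_regAlg (irr_isChar χ.2)) (irr_classFun χ.2)
        (irr_classFun θ.2) hθ')).mpr h
    · intro h
      rw [omega_regAlg_eq_zero hM]
      · exact li_zero M
      · intro hs
        apply h
        rw [isPBlock_eq_blockOf he.2.1 hθ]
        exact blockOf_eq_of_sameBlock hs
  have hH : MemLocalIdeal M (omega (ξ : H → ℂ) (regAlg p (fun h : H => (χ : G → ℂ) h))) ↔
      e ≠ blockOf M (fun h : H => (χ : G → ℂ) h) := by
    constructor
    · intro h hB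
      have hξ' : ξ ∈ blockOf M (ψ : H → ℂ) := by
        have : e = blockOf M (ψ : H → ℂ) := hB
        rw [← this]; exact hξ
      apply not_li_omega_regAlg hM (B := blockOf M (ψ : H → ℂ)) ⟨ψ, rfl⟩ (mem_blockOf_self ψ) hψ0
      exact (li_congr (li_omega_sub (isZS_regAlg (irr_isChar ψ.2)) (irr_classFun ψ.2)
        (irr_classFun ξ.2) hξ')).mpr h
    · intro h
      have h2 := omega_regAlg_eq_zero hM (χ := ψ) (ψ := ξ) (by
        intro hs
        apply h
        rw [isPBlock_eq_blockOf he.1 hξ]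
        exact blockOf_eq_of_sameBlock hs)
      have h3 : omega (ξ : H → ℂ) (regAlg p (fun h : H => (χ : G → ℂ) h)) = 0 := h2
      rw [h3]
      exact li_zero M
  have h2 := li_congr h1
  rw [hG, hH] at h2
  exact not_iff_not.mp h2.symm

/-- The inner products over the `p`-regular elements with a height zero character. -/
lemma lr_lin_regAlg_div (hM : IsPModular p M) (ψ ξ : IrrCharacter G) :
    MemLocalRing M (lin (ψ : G → ℂ) (regAlg p (ξ : G → ℂ)) / (ξ : G → ℂ) 1) := by
  classical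
  have hpr := hM.2.1.isPrime
  -- replace by the class-sum expression
  have h1 : MemLocalRing M (omega (ξ : G → ℂ)
      (toAlg (fun x => if p ∣ orderOf x then 0 else conj ((ψ : G → ℂ) x)))) :=
    lr_omega (isZS_regAlg (irr_isChar ψ.2)) ξ.2
  have h2 : IsZS M (toAlg (fun x : G => if p ∣ orderOf x then 0 else (ψ : G → ℂ) x)) := by
    constructor
    · apply isCen_toAlg
      intro g c
      simp only
      rw [orderOf_conj, irr_classFun ψ.2]
    · intro g
      rw [coeff_toAlg]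
      split_ifs
      · exact lr_zero M
      · exact lr_char ψ.2 _
  -- use the complex conjugate character
  have h3 : lin (ψ : G → ℂ) (regAlg p (ξ : G → ℂ)) / (ξ : G → ℂ) 1 =
      omega (fun g => conj ((ξ : G → ℂ) g))
        (toAlg (fun x : G => if p ∣ orderOf x then 0 else (ψ : G → ℂ) x)) := by
    unfold omega
    obtain ⟨hd1, hd2⟩ := charDegree_spec ξ.2
    have e1 : conj ((ξ : G → ℂ) 1) = (ξ : G → ℂ) 1 := by rw [hd1]; simp
    have e2 : (fun g => conj ((ξ : G → ℂ) g)) 1 = (ξ : G → ℂ) 1 := e1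
    rw [e2]
    congr 1
    rw [lin_apply, lin_apply]
    refine Finset.sum_congr rfl fun x _ => ?_
    rw [coeff_regAlg, coeff_toAlg]
    split_ifs
    · simp
    · ring
  rw [h3]
  refine lr_omega h2 ?_
  have h4 : (fun g => conj ((ξ : G → ℂ) g)) = fun g => (ξ : G → ℂ) g⁻¹ := by
    funext g; rw [char_inv (irr_isChar ξ.2)]
  exact Cfsg.Agent.H3.isIrr_conj ξ.2

/-- **Blau's theorem.** -/
theorem blau (hM : IsPModular p M) {H : Subgroup G} [Fintype H]
    {b : Set (IrrCharacter H)} {B : Set (IrrCharacter G)} (hind : IsInducedBlock M H b B)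
    {χ : IrrCharacter G} (hχ : χ ∈ B) (h0 : blockHeight p B (χ : G → ℂ) = 0) :
    ∃ ξ ∈ b, blockHeight p b (ξ : H → ℂ) = 0 ∧
      ∃ n : ℕ, classInner (fun h : H => (χ : G → ℂ) h) (ξ : H → ℂ) = (n : ℂ) ∧ ¬ p ∣ n := by
  classical
  have hpr := hM.2.1.isPrime
  have hIf : Fintype (IrrCharacter H) := Fintype.ofFinite _
  obtain ⟨ξ₀, hξ₀, hh0⟩ := exists_height_zero hM hind.1
  obtain ⟨D, hD⟩ := exists_isDefectGroup hM hind.1
  have hdeg0 := fact_height_zero_index hM hind.1 hD hξ₀ hh0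
  set θ : H → ℂ := fun h => (χ : G → ℂ) h with hθ
  have hθch : IsCharacter H θ := isChar_restrict H (irr_isChar χ.2)
  obtain ⟨m, hm, hexp⟩ := char_expand hθch
  have h1 := li_omega_resAlg_sub hM H hind hξ₀ hχ (isZS_regAlg (M := M) (p := p) (irr_isChar χ.2))
  rw [resAlg_regAlg] at h1
  have h2 : ¬ MemLocalIdeal M (omega (ξ₀ : H → ℂ) (regAlg p θ)) := by
    intro h
    exact not_li_omega_regAlg hM hind.2.1 hχ h0 ((li_congr h1).mp h)
  -- expand
  have h3 : omega (ξ₀ : H → ℂ) (regAlg p θ) =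
      ∑ ξ : IrrCharacter H, (m ξ : ℂ) * (lin (ξ₀ : H → ℂ) (regAlg p (ξ : H → ℂ)) /
        (ξ₀ : H → ℂ) 1) := by
    unfold omega
    have e1 : lin (ξ₀ : H → ℂ) (regAlg p θ) =
        ∑ ξ : IrrCharacter H, (m ξ : ℂ) * lin (ξ₀ : H → ℂ) (regAlg p (ξ : H → ℂ)) := by
      simp only [lin_apply, Finset.mul_sum]
      rw [Finset.sum_comm]
      refine Finset.sum_congr rfl fun x _ => ?_
      rw [coeff_regAlg]
      simp only [coeff_regAlg]
      split_ifs
      · simp
      · rw [hexp, Finset.sum_apply, map_sum, Finset.sum_mul]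
        refine Finset.sum_congr rfl fun ξ _ => ?_
        rw [Pi.smul_apply, smul_eq_mul, map_mul]
        simp only [map_natCast]
        ring
    rw [e1, Finset.sum_div]
    exact Finset.sum_congr rfl fun ξ _ => by ring
  rw [h3] at h2
  have h4 : ∃ ξ : IrrCharacter H, ¬ MemLocalIdeal M ((m ξ : ℂ) *
      (lin (ξ₀ : H → ℂ) (regAlg p (ξ : H → ℂ)) / (ξ₀ : H → ℂ) 1)) := by
    by_contra hcon
    push Not at hcon
    exact h2 (li_sum _ _ fun ξ _ => hcon ξ)
  obtain ⟨ξ, hξ⟩ := h4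
  have hξb : ξ ∈ b := by
    by_contra hξb
    apply hξ
    have h5 := omega_regAlg_eq_zero hM (χ := ξ) (ψ := ξ₀) (by
      intro hs
      apply hξb
      exact (mem_isPBlock_iff hind.1 hξ₀).mpr hs)
    have h6 : lin (ξ₀ : H → ℂ) (regAlg p (ξ : H → ℂ)) / (ξ₀ : H → ℂ) 1 = 0 := h5
    rw [h6, mul_zero]
    exact li_zero M
  have hlr := lr_omega (isZS_regAlg (M := M) (p := p) (irr_isChar ξ.2)) ξ₀.2
  refine ⟨ξ, hξb, ?_, m ξ, hm ξ, ?_⟩
  · by_contra hht
    apply hξ
    -- positive height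
    have hle := le_fact_index hM hind.1 hD hξb
    have hlt : (charDegree (ξ₀ : H → ℂ)).factorization p <
        (charDegree (ξ : H → ℂ)).factorization p := by
      rw [hdeg0]
      refine lt_of_le_of_ne hle ?_
      intro heq
      apply hht
      unfold blockHeight at hh0 ⊢
      omega
    apply li_mul_left (lr_natCast M _)
    obtain ⟨hd1, hd2⟩ := charDegree_spec ξ.2
    obtain ⟨hd1', hd2'⟩ := charDegree_spec ξ₀.2
    have hd3 : (charDegree (ξ : H → ℂ) : ℂ) ≠ 0 := by exact_mod_cast hd2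
    have hd3' : (charDegree (ξ₀ : H → ℂ) : ℂ) ≠ 0 := by exact_mod_cast hd2'
    have e1 : lin (ξ₀ : H → ℂ) (regAlg p (ξ : H → ℂ)) / (ξ₀ : H → ℂ) 1 =
        (lin (ξ₀ : H → ℂ) (regAlg p (ξ : H → ℂ)) / (ξ : H → ℂ) 1) *
          ((charDegree (ξ : H → ℂ) : ℂ) / (charDegree (ξ₀ : H → ℂ) : ℂ)) := by
      rw [hd1, hd1']
      field_simp
    rw [e1]
    exact li_mul_left (lr_lin_regAlg_div hM ξ₀ ξ) (li_natDiv hM hd2 hd2' hlt)
  · intro hdvd
    apply hξ
    exact li_mul_right ((li_natCast_iff hM _).mpr hdvd) hlr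

end Cfsg.Agent.H11
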