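import Cfsg.Agent.H11.PF17

/-!
PF section 3: class functions vanishing on `V` with few constituents in the family.
-/
set_option autoImplicit false

namespace Cfsg.Agent.H11.PF

open Cfsg Cfsg.Agent.H3 Cfsg.Agent.H27 ComplexConjugate

universe u v w

section combi

variable {P : Type u} {Q : Type v} [Fintype P] [Fintype Q] [DecidableEq P] [DecidableEq Q]

open Classical in
theorem few_nonzero (uu : P → ℂ) (vv : Q → ℂ) (hoP : Odd (Fintype.card P))
    (hoQ : Odd (Fintype.card Q)) (hlt : Fintype.card P < Fintype.card Q)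
    (hfew : ∑ p : P, (Finset.univ.filter (fun q : Q => uu p + vv q ≠ 0)).card < 2 * Fintype.card P) :
    (∀ p q, uu p + vv q = 0) ∨ (∃ (q₀ : Q) (a : ℂ), ∀ p q, uu p + vv q = if q = q₀ then a else 0) ∨
      (∃ (p₀ : P) (a : ℂ), ∀ p q, uu p + vv q = if p = p₀ then a else 0) := by
  obtain ⟨n, hn⟩ : ∃ n : P → ℕ, n = fun p => (Finset.univ.filter (fun q : Q => uu p + vv q ≠ 0)).card :=
    ⟨_, rfl⟩
  have hfew' : ∑ p : P, n p < 2 * Fintype.card P := by rw [hn]; exact hfew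
  obtain ⟨p₀, hp₀⟩ : ∃ p₀, n p₀ ≤ 1 := by
    by_contra h
    push Not at h
    have : ∑ p : P, 2 ≤ ∑ p : P, n p := Finset.sum_le_sum fun p _ => h p
    rw [Finset.sum_const, Finset.card_univ, smul_eq_mul] at this
    omega
  rcases Nat.lt_or_ge (n p₀) 1 with h0 | h1
  · -- no nonzero entries in row p₀
    have hz : ∀ q, uu p₀ + vv q = 0 := by
      intro q
      by_contra hne
      have h2 : 0 < n p₀ := by
        rw [hn]
        exact Finset.card_pos.mpr ⟨q, Finset.mem_filter.mpr ⟨Finset.mem_univ _, hne⟩⟩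
      omega
    have hrow : ∀ p q, uu p + vv q = uu p - uu p₀ := by
      intro p q
      linear_combination hz q
    by_cases hall : ∀ p, uu p = uu p₀
    · left
      intro p q
      rw [hrow, hall p, sub_self]
    · push Not at hall
      obtain ⟨p₁, hp₁⟩ := hall
      right; right
      refine ⟨p₁, uu p₁ - uu p₀, ?_⟩
      intro p q
      rw [hrow]
      split_ifs with h
      · rw [h]
      · by_contra hne
        have c1 : n p₁ = Fintype.card Q := by
          rw [hn]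
          simp only
          rw [Finset.filter_true_of_mem, Finset.card_univ]
          intro q _
          rw [hrow]
          exact sub_ne_zero.mpr hp₁
        have c2 : n p = Fintype.card Q := by
          rw [hn]
          simp only
          rw [Finset.filter_true_of_mem, Finset.card_univ]
          intro q _
          rw [hrow]
          exact hne
        have h2 : n p + n p₁ ≤ ∑ p : P, n p := by
          have := Finset.add_le_sum (s := Finset.univ) (f := n) (fun _ _ => Nat.zero_le _)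
            (Finset.mem_univ p) (Finset.mem_univ p₁) h
          exact this
        omega
  · -- exactly one nonzero entry
    have h2 : n p₀ = 1 := le_antisymm hp₀ h1
    have h3 : (Finset.univ.filter (fun q : Q => uu p₀ + vv q ≠ 0)).card = 1 := by
      rw [hn] at h2; exact h2
    obtain ⟨q₀, hq₀⟩ := Finset.card_eq_one.mp h3
    have hq0ne : uu p₀ + vv q₀ ≠ 0 := by
      have : q₀ ∈ Finset.univ.filter (fun q : Q => uu p₀ + vv q ≠ 0) := by
        rw [hq₀]; exact Finset.mem_singleton_self _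
      exact (Finset.mem_filter.mp this).2
    have hz : ∀ q, q ≠ q₀ → uu p₀ + vv q = 0 := by
      intro q hq
      by_contra hne
      have : q ∈ Finset.univ.filter (fun q : Q => uu p₀ + vv q ≠ 0) :=
        Finset.mem_filter.mpr ⟨Finset.mem_univ _, hne⟩
      rw [hq₀, Finset.mem_singleton] at this
      exact hq this
    have hall : ∀ p, uu p = uu p₀ := by
      by_contra hcon
      push Not at hcon
      obtain ⟨p₁, hp₁⟩ := hcon
      have hbig : ∀ p, uu p ≠ uu p₀ → Fintype.card Q - 1 ≤ n p := by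
        intro p hp
        rw [hn]
        have h5 : Finset.univ.erase q₀ ⊆ Finset.univ.filter (fun q : Q => uu p + vv q ≠ 0) := by
          intro q hq
          rw [Finset.mem_filter]
          refine ⟨Finset.mem_univ _, ?_⟩
          have h6 := hz q (Finset.ne_of_mem_erase hq)
          intro h7
          apply hp
          linear_combination h7 - h6
        have h6 := Finset.card_le_card h5
        rw [Finset.card_erase_of_mem (Finset.mem_univ _), Finset.card_univ] at h6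
        exact h6
      have hpos : ∀ p, 1 ≤ n p := by
        intro p
        by_cases hp : uu p = uu p₀
        · rw [hn]
          apply Finset.card_pos.mpr
          exact ⟨q₀, Finset.mem_filter.mpr ⟨Finset.mem_univ _, by rw [hp]; exact hq0ne⟩⟩
        · have := hbig p hp
          have : 0 < Fintype.card P := Fintype.card_pos_iff.mpr ⟨p⟩
          omega
      have h5 : (Fintype.card Q - 1) + (Fintype.card P - 1) ≤ ∑ p : P, n p := by
        rw [← Finset.add_sum_erase Finset.univ n (Finset.mem_univ p₁)]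
        refine add_le_add (hbig p₁ hp₁) ?_
        have : ∑ p ∈ Finset.univ.erase p₁, 1 ≤ ∑ p ∈ Finset.univ.erase p₁, n p :=
          Finset.sum_le_sum fun p _ => hpos p
        rw [Finset.sum_const, Finset.card_erase_of_mem (Finset.mem_univ _), Finset.card_univ,
          smul_eq_mul, mul_one] at this
        exact this
      obtain ⟨k1, hk1⟩ := hoP
      obtain ⟨k2, hk2⟩ := hoQ
      omega
    right; left
    refine ⟨q₀, uu p₀ + vv q₀, ?_⟩
    intro p q
    rw [hall p]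
    split_ifs with h
    · rw [h]
    · exact hz q h

end combi

variable {G : Type u} [Group G] [Fintype G] {W₁ W₂ : Subgroup G}

/-- S1507 -/
theorem few_constituents (hW : IsSelfNormalizingCyclic W₁ W₂) (hodd : Odd (Nat.card ↥(W₁ ⊔ W₂)))
    {χ : (↥(W₁ ⊔ W₂) →* ℂˣ) → (G → ℂ)} (hχ : IsCyclicTIFamily W₁ W₂ χ)
    (hlt : Nat.card W₁ < Nat.card W₂) {θ : G → ℂ} (hθ : IsClassFunction G θ)
    (hθV : ∀ w : ↥(W₁ ⊔ W₂), (w : G) ∉ W₁ → (w : G) ∉ W₂ → θ w = 0)
    (hfew : Nat.card {ω : ↥(W₁ ⊔ W₂) →* ℂˣ // classInner θ (χ ω) ≠ 0} < 2 * Nat.card W₁) :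
    (∀ ω, classInner θ (χ ω) = 0) ∨
    (∃ (ψ₀ : ↥(W₁ ⊔ W₂) →* ℂˣ) (a : ℂ), IsAnn (W₁.subgroupOf (W₁ ⊔ W₂)) ψ₀ ∧
      ∀ φ ψ : ↥(W₁ ⊔ W₂) →* ℂˣ, IsAnn (W₂.subgroupOf (W₁ ⊔ W₂)) φ →
      IsAnn (W₁.subgroupOf (W₁ ⊔ W₂)) ψ → (ψ = ψ₀ → classInner θ (χ (φ * ψ)) = a) ∧
        (ψ ≠ ψ₀ → classInner θ (χ (φ * ψ)) = 0)) ∨
    (∃ (φ₀ : ↥(W₁ ⊔ W₂) →* ℂˣ) (a : ℂ), IsAnn (W₂.subgroupOf (W₁ ⊔ W₂)) φ₀ ∧
      ∀ φ ψ : ↥(W₁ ⊔ W₂) →* ℂˣ, IsAnn (W₂.subgroupOf (W₁ ⊔ W₂)) φ →
      IsAnn (W₁.subgroupOf (W₁ ⊔ W₂)) ψ → (φ = φ₀ → classInner θ (χ (φ * ψ)) = a) ∧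
        (φ ≠ φ₀ → classInner θ (χ (φ * ψ)) = 0)) := by
  classical
  haveI : Fintype ↥(W₁ ⊔ W₂) := Fintype.ofFinite _
  have hc := comm_of_selfnorm hW
  have hinf := sub_inf hW.2.2.1
  have htop := sub_top (W₁ := W₁) (W₂ := W₂)
  haveI := finite_dual hc
  haveI : Fintype (↥(W₁ ⊔ W₂) →* ℂˣ) := Fintype.ofFinite _
  let P := {φ : ↥(W₁ ⊔ W₂) →* ℂˣ // IsAnn (W₂.subgroupOf (W₁ ⊔ W₂)) φ}
  let Q := {ψ : ↥(W₁ ⊔ W₂) →* ℂˣ // IsAnn (W₁.subgroupOf (W₁ ⊔ W₂)) ψ}
  have c1 : Nat.card (W₁.subgroupOf (W₁ ⊔ W₂)) = Nat.card W₁ :=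
    Nat.card_congr (Subgroup.subgroupOfEquivOfLe le_sup_left).toEquiv
  have c2 : Nat.card (W₂.subgroupOf (W₁ ⊔ W₂)) = Nat.card W₂ :=
    Nat.card_congr (Subgroup.subgroupOfEquivOfLe le_sup_right).toEquiv
  have hP : Fintype.card P = Nat.card W₁ := by
    rw [← Nat.card_eq_fintype_card, card_ann hc, index_eq_card hc hinf htop, c1]
  have hQ : Fintype.card Q = Nat.card W₂ := by
    rw [← Nat.card_eq_fintype_card, card_ann hc,
      index_eq_card hc (U₁ := W₂.subgroupOf (W₁ ⊔ W₂)) (U₂ := W₁.subgroupOf (W₁ ⊔ W₂))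
      ((inf_comm _ _).trans hinf) ((sup_comm _ _).trans htop), c2]
  have o1 : Odd (Fintype.card P) := by
    rw [hP, ← c1]
    exact Odd.of_dvd_nat hodd (Subgroup.card_subgroup_dvd_card _)
  have o2 : Odd (Fintype.card Q) := by
    rw [hQ, ← c2]
    exact Odd.of_dvd_nat hodd (Subgroup.card_subgroup_dvd_card _)
  have hadd : ∀ (p : P) (q : Q), classInner θ (χ (p.1 * q.1)) =
      classInner θ (χ p.1) + (classInner θ (χ q.1) - classInner θ (χ 1)) := by
    intro p q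
    rw [additive_of_vanish hχ hθ hθV p.2 q.2]; ring
  have hN : ∑ p : P, (Finset.univ.filter (fun q : Q => classInner θ (χ p.1) +
      (classInner θ (χ q.1) - classInner θ (χ 1)) ≠ 0)).card < 2 * Fintype.card P := by
    rw [hP]
    refine lt_of_le_of_lt ?_ hfew
    have e1 : ∑ p : P, (Finset.univ.filter (fun q : Q => classInner θ (χ p.1) +
      (classInner θ (χ q.1) - classInner θ (χ 1)) ≠ 0)).card =
      Nat.card (Σ p : P, {q : Q // classInner θ (χ p.1) +
      (classInner θ (χ q.1) - classInner θ (χ 1)) ≠ 0}) := by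
      rw [Nat.card_sigma]
      refine Finset.sum_congr rfl fun p _ => ?_
      rw [Nat.card_eq_fintype_card, Fintype.card_subtype]
    rw [e1]
    refine Nat.card_le_card_of_injective (fun x => ⟨x.1.1 * x.2.1.1, by
      rw [hadd x.1 x.2.1]; exact x.2.2⟩) ?_
    rintro ⟨⟨φ, hφ⟩, ⟨⟨ψ, hψ⟩, h1⟩⟩ ⟨⟨φ', hφ'⟩, ⟨⟨ψ', hψ'⟩, h2⟩⟩ h
    have h3 : φ * ψ = φ' * ψ' := congrArg Subtype.val h
    obtain ⟨rfl, rfl⟩ := dual_unique hc hinf htop hφ hφ' hψ hψ' h3
    rfl
  rcases few_nonzero (fun p : P => classInner θ (χ p.1))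
    (fun q : Q => classInner θ (χ q.1) - classInner θ (χ 1)) o1 o2 (by rw [hP, hQ]; exact hlt) hN
    with h | ⟨q₀, a, h⟩ | ⟨p₀, a, h⟩
  · left
    intro ω
    obtain ⟨φ, ψ, hφ, hψ, rfl⟩ := dual_factor hc hinf htop ω
    rw [hadd ⟨φ, hφ⟩ ⟨ψ, hψ⟩]
    exact h ⟨φ, hφ⟩ ⟨ψ, hψ⟩
  · right; left
    refine ⟨q₀.1, a, q₀.2, ?_⟩
    intro φ ψ hφ hψ
    have h5 := h ⟨φ, hφ⟩ ⟨ψ, hψ⟩
    rw [hadd ⟨φ, hφ⟩ ⟨ψ, hψ⟩]
    refine ⟨fun e => ?_, fun e => ?_⟩
    · rw [if_pos (Subtype.ext e)] at h5; exact h5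
    · rw [if_neg (fun e' => e (congrArg Subtype.val e'))] at h5; exact h5
  · right; right
    refine ⟨p₀.1, a, p₀.2, ?_⟩
    intro φ ψ hφ hψ
    have h5 := h ⟨φ, hφ⟩ ⟨ψ, hψ⟩
    rw [hadd ⟨φ, hφ⟩ ⟨ψ, hψ⟩]
    refine ⟨fun e => ?_, fun e => ?_⟩
    · rw [if_pos (Subtype.ext e)] at h5; exact h5
    · rw [if_neg (fun e' => e (congrArg Subtype.val e'))] at h5; exact h5

end Cfsg.Agent.H11.PF
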