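import Cfsg.Agent.H11.FB3
import Cfsg.Agent.H11.Q8
import Cfsg.Agent.H11.Laradji

set_option autoImplicit false

/-! The principal 2-block for a quaternion Sylow subgroup of order 8 (S0951). -/

namespace Cfsg.Agent.H11

open Cfsg Finset Cfsg.Agent.H3
open scoped ComplexConjugate

universe u

/-- the linear algebra of the count -/
theorem count_faithful {ι : Type*} [DecidableEq ι] (N F : Finset ι) (a : ι → ι → ℂ)
    (n : ι → ℤ) (hsym : ∀ x y, a y x = conj (a x y))
    (hN : ∀ x ∈ N, ∀ y ∈ N, 2 * a x y + (n x * n y : ℂ) / 4 = if x = y then 1 else 0)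
    (hF : ∀ x ∈ F, ∀ y ∈ F, 2 * a x y = if x = y then 1 else 0)
    (hPN : ∀ x ∈ N, a x x = ∑ y ∈ N, a x y * conj (a x y) + ∑ y ∈ F, a x y * conj (a x y))
    (hPF : ∀ x ∈ F, a x x = ∑ y ∈ N, a x y * conj (a x y) + ∑ y ∈ F, a x y * conj (a x y))
    (hn : ∑ x ∈ N, n x * n x = 4) : (F.card : ℂ) + 1 = N.card := by
  have hn' : ∑ x ∈ N, (n x * n x : ℂ) = 4 := by exact_mod_cast congrArg (Int.cast : ℤ → ℂ) hn
  have h1 : ∑ x ∈ N, ∑ y ∈ F, a x y * conj (a x y) = (F.card : ℂ) / 4 := by
    rw [Finset.sum_comm]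
    have h2 : ∀ y ∈ F, ∑ x ∈ N, a x y * conj (a x y) = 1 / 4 := by
      intro y hy
      have h3 := hPF y hy
      have h4 : ∑ x ∈ F, a y x * conj (a y x) = 1 / 4 := by
        rw [Finset.sum_eq_single y]
        · have h5 := hF y hy y hy
          rw [if_pos rfl] at h5
          have h6 : a y y = 1 / 2 := by linear_combination h5 / 2
          rw [h6]
          simp only [map_div₀, map_one, map_ofNat]
          norm_num
        · intro b hb hne
          have h5 := hF y hy b hb
          rw [if_neg (Ne.symm hne)] at h5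
          have h6 : a y b = 0 := by linear_combination h5 / 2
          rw [h6, zero_mul]
        · intro h; exact absurd hy h
      have h5 := hF y hy y hy
      rw [if_pos rfl] at h5
      have h6 : ∑ x ∈ N, a x y * conj (a x y) = ∑ x ∈ N, a y x * conj (a y x) := by
        refine Finset.sum_congr rfl fun x _ => ?_
        rw [hsym x y, Complex.conj_conj, mul_comm]
      rw [h6]
      linear_combination h5 / 2 - h3 - h4
    rw [Finset.sum_congr rfl h2, Finset.sum_const, nsmul_eq_mul]
    ring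
  have h2 : ∑ x ∈ N, ∑ y ∈ F, a x y * conj (a x y) = ((N.card : ℂ) - 1) / 4 := by
    have h3 : ∀ x ∈ N, ∑ y ∈ F, a x y * conj (a x y) = 1 / 4 - (n x * n x : ℂ) / 16 := by
      intro x hx
      have h4 : ∀ y ∈ N, a x y * conj (a x y) =
          (if x = y then (1 / 4 - (n x * n x : ℂ) / 8) else 0)
            + (n x * n x : ℂ) / 64 * (n y * n y : ℂ) := by
        intro y hy
        have h5 := hN x hx y hy
        by_cases hxy : x = y
        · subst hxy
          rw [if_pos rfl] at h5 ⊢
          have h6 : a x x = (1 - (n x * n x : ℂ) / 4) / 2 := by linear_combination h5 / 2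
          rw [h6]
          simp only [map_div₀, map_sub, map_mul, map_one, map_intCast, map_ofNat]
          ring
        · rw [if_neg hxy] at h5 ⊢
          have h6 : a x y = - (n x * n y : ℂ) / 8 := by linear_combination h5 / 2
          rw [h6]
          simp only [map_div₀, map_neg, map_mul, map_intCast, map_ofNat]
          ring
      have h5 := hPN x hx
      rw [Finset.sum_congr rfl h4, Finset.sum_add_distrib, ← Finset.mul_sum, hn',
        Finset.sum_ite_eq, if_pos hx] at h5
      have h6 := hN x hx x hx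
      rw [if_pos rfl] at h6
      linear_combination h6 / 2 - h5
    rw [Finset.sum_congr rfl h3, Finset.sum_sub_distrib, Finset.sum_const, nsmul_eq_mul,
      ← Finset.sum_div, hn']
    ring
  rw [h1] at h2
  linear_combination 4 * h2

theorem char_four {G : Type u} [Group G] [Finite G] {χ : G → ℂ} (hχ : IsCharacter G χ) {u : G}
    (hu : orderOf u = 4) (h3 : χ (u ^ 3) = χ u) : ∃ n : ℤ, χ u = (n : ℂ) := by
  classical
  obtain ⟨n, ρ, rfl⟩ := hχ
  obtain ⟨ι, hι, ω, h0, h1, h2⟩ := exists_eigenvalues ρ u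
  rw [hu] at h1
  have h4 : ∀ i, ∃ e : ℤ, ω i + ω i ^ 3 = 2 * e := by
    intro i
    have h5 : ω i ^ 4 = 1 := h1 i
    have h6 : (ω i ^ 2 - 1) * (ω i ^ 2 + 1) = 0 := by linear_combination h5
    rcases mul_eq_zero.1 h6 with h | h
    · have h7 : ω i ^ 2 = 1 := by linear_combination h
      rcases (sq_eq_one_iff.mp h7) with h | h
      · exact ⟨1, by rw [h]; norm_num⟩
      · exact ⟨-1, by rw [h]; norm_num⟩
    · exact ⟨0, by push_cast; linear_combination ω i * h⟩
  choose e he using h4
  refine ⟨∑ i, e i, ?_⟩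
  have e1 := h2 1
  have e3 := h2 3
  rw [zpow_one] at e1
  have e4 : u ^ (3 : ℤ) = u ^ 3 := zpow_natCast u 3
  rw [e4, h3] at e3
  have e5 : ∑ i, (ω i + ω i ^ 3) = 2 * ρ.character u := by
    rw [Finset.sum_add_distrib]
    have : ∑ i, ω i = ρ.character u := by
      rw [e1]; exact Finset.sum_congr rfl fun i _ => (zpow_one _).symm
    rw [this]
    have : ∑ i, ω i ^ 3 = ρ.character u := by
      rw [e3]; exact Finset.sum_congr rfl fun i _ => (zpow_natCast _ 3).symm
    rw [this]; ring
  rw [Finset.sum_congr rfl (fun i _ => he i), ← Finset.mul_sum] at e5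
  have e6 := mul_left_cancel₀ (two_ne_zero) e5
  rw [← e6]; push_cast; rfl

section count

variable {G : Type u} [Group G] [Fintype G] {M : Ideal AlgInt} {z i : G}

/-- the situation -/
structure QCount (z i : G) : Prop where
  zc : ∀ g, z * g = g * z
  z2 : orderOf z = 2
  i4 : orderOf i = 4
  ii : i * i = z
  conj' : IsConj i (z * i)
  all : ∀ x : G, (∃ k : ℕ, orderOf x = 2 ^ k) → x = 1 ∨ x = z ∨ IsConj i x
  comp : ∃ k : ℕ, (pPrimeCore 2 (Subgroup.centralizer ({i} : Set G))).index = 2 ^ k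
  fac : (Nat.card (Subgroup.centralizer ({i} : Set G))).factorization 2 = 2

open Classical in
/-- the regular part of a character -/
noncomputable def regPart (f : G → ℂ) : G → ℂ := fun g => if ¬ 2 ∣ orderOf g then f g else 0

variable (h : QCount z i)
include h

theorem QCount.zz : z * z = 1 := by
  have := pow_orderOf_eq_one z
  rwa [h.z2, pow_two] at this

theorem QCount.not_both {g : G} (h1 : ¬ 2 ∣ orderOf g) (h2 : ¬ 2 ∣ orderOf (z * g)) : False := by
  have hp : Nat.Prime 2 := Nat.prime_two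
  have c : Commute (z * g) g⁻¹ := Commute.mul_left (h.zc _) (Commute.inv_right rfl)
  have h3 := c.orderOf_mul_dvd_mul_orderOf
  rw [mul_inv_cancel_right, orderOf_inv, h.z2] at h3
  rcases (Nat.Prime.dvd_mul hp).1 h3 with h4 | h4
  · exact h2 h4
  · exact h1 h4

open Classical in
/-- the decomposition of a sum -/
theorem QCount.sum_eq (f : G → ℂ) : ∑ g, f g = ∑ g ∈ univ.filter (fun g => ¬ 2 ∣ orderOf g), f g +
    ∑ g ∈ univ.filter (fun g : G => ¬ 2 ∣ orderOf g), f (z * g) +
    ∑ g ∈ univ.filter (fun g : G => 2 ∣ orderOf g ∧ 2 ∣ orderOf (z * g)), f g := by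
  have h1 := Finset.sum_filter_add_sum_filter_not univ (fun g : G => ¬ 2 ∣ orderOf g) f
  have h2 := Finset.sum_filter_add_sum_filter_not (univ.filter (fun g : G => ¬ ¬ 2 ∣ orderOf g))
    (fun g : G => ¬ 2 ∣ orderOf (z * g)) f
  rw [Finset.filter_filter, Finset.filter_filter] at h2
  have h3 : ∑ g ∈ univ.filter (fun g : G => ¬ 2 ∣ orderOf g), f (z * g) =
      ∑ g ∈ univ.filter (fun g : G => ¬ ¬ 2 ∣ orderOf g ∧ ¬ 2 ∣ orderOf (z * g)), f g := by
    refine Finset.sum_bij' (fun g _ => z * g) (fun g _ => z * g) ?_ ?_ ?_ ?_ ?_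
    · intro g hg
      rw [Finset.mem_filter] at hg ⊢
      refine ⟨Finset.mem_univ _, fun hc => h.not_both hg.2 hc, ?_⟩
      rw [← mul_assoc, h.zz, one_mul]
      exact hg.2
    · intro g hg
      rw [Finset.mem_filter] at hg ⊢
      exact ⟨Finset.mem_univ _, hg.2.2⟩
    · intro g _
      rw [← mul_assoc, h.zz, one_mul]
    · intro g _
      rw [← mul_assoc, h.zz, one_mul]
    · intro g _; rfl
  rw [← h1, ← h2, h3]
  have h4 : univ.filter (fun g : G => 2 ∣ orderOf g ∧ 2 ∣ orderOf (z * g)) =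
      univ.filter (fun g : G => ¬ ¬ 2 ∣ orderOf g ∧ ¬ ¬ 2 ∣ orderOf (z * g)) := by
    ext g; simp only [Finset.mem_filter, not_not]
  rw [h4]; ring

/-- the class functions of the principal block are constant on the section of `i` -/
theorem QCount.const (hM : IsPModular 2 M) {g : G} (h1 : 2 ∣ orderOf g) (h2 : 2 ∣ orderOf (z * g))
    {χ : IrrCharacter G} (hχ : χ ∈ principalBlock M G) : (χ : G → ℂ) g = (χ : G → ℂ) i := by
  have hp : Nat.Prime 2 := Nat.prime_two
  haveI : Fact (Nat.Prime 2) := ⟨hp⟩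
  obtain ⟨u, y, huy, hc, hu, hy⟩ := exists_isPPart hp g
  rcases h.all u hu with rfl | rfl | hcj
  · rw [one_mul] at huy
    exact absurd (huy ▸ h1) hy
  · rw [← huy, ← mul_assoc, h.zz, one_mul] at h2
    exact absurd h2 hy
  · obtain ⟨c, hc'⟩ := isConj_iff.1 hcj
    have h3 : c⁻¹ * g * c = i * (c⁻¹ * y * c) := by
      rw [← huy, ← hc']; group
    have h4 : (χ : G → ℂ) (c⁻¹ * g * c) = (χ : G → ℂ) g := by
      have := irr_classFun χ.2 (c⁻¹ * g * c) c
      rw [← this]; congr 1; group
    have hcomm : i * (c⁻¹ * y * c) = (c⁻¹ * y * c) * i := by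
      have h5 : i = c⁻¹ * u * c := by rw [← hc']; group
      rw [h5]
      calc c⁻¹ * u * c * (c⁻¹ * y * c) = c⁻¹ * (u * y) * c := by group
        _ = c⁻¹ * (y * u) * c := by rw [hc.eq]
        _ = _ := by group
    have hord : ¬ 2 ∣ orderOf (c⁻¹ * y * c) := by
      have h6 := orderOf_conj y c⁻¹
      rw [inv_inv] at h6
      rwa [h6]
    rw [← h4, h3]
    obtain ⟨k, hk⟩ := h.comp
    have hvC : (c⁻¹ * y * c) ∈ Subgroup.centralizer ({i} : Set G) := by
      rw [Subgroup.mem_centralizer_singleton_iff]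
      exact hcomm.symm
    have hcop : ¬ 2 ∣ Nat.card (pPrimeCore 2 (Subgroup.centralizer ({i} : Set G))) :=
      (Nat.Prime.coprime_iff_not_dvd hp).mp (Cfsg.Agent.H1.pPrimeCore_coprime 2 _).symm
    have hn : (pPrimeCore 2 (Subgroup.centralizer ({i} : Set G))).Normal :=
      Cfsg.Agent.H1.pPrimeCore_normal 2 _
    have hmem : (⟨c⁻¹ * y * c, hvC⟩ : Subgroup.centralizer ({i} : Set G)) ∈
        pPrimeCore 2 (Subgroup.centralizer ({i} : Set G)) := by
      refine mem_of_index_pow hp hk ?_
      rwa [Subgroup.orderOf_mk]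
    exact principal_const hM ⟨2, by rw [h.i4]; norm_num⟩ hcop hmem hχ

open Classical in
theorem QCount.sq_sum (hM : IsPModular 2 M) [Fintype (IrrCharacter G)] :
    ∑ χ : IrrCharacter G with χ ∈ principalBlock M G, conj ((χ : G → ℂ) i) * (χ : G → ℂ) i
      = 4 := by
  have hp : Nat.Prime 2 := Nat.prime_two
  haveI : Fact (Nat.Prime 2) := ⟨hp⟩
  obtain ⟨k, hk⟩ := h.comp
  have hcop : ¬ 2 ∣ Nat.card (pPrimeCore 2 (Subgroup.centralizer ({i} : Set G))) :=
    (Nat.Prime.coprime_iff_not_dvd hp).mp (Cfsg.Agent.H1.pPrimeCore_coprime 2 _).symm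
  have hn : (pPrimeCore 2 (Subgroup.centralizer ({i} : Set G))).Normal :=
    Cfsg.Agent.H1.pPrimeCore_normal 2 _
  have hone : ¬ 2 ∣ orderOf (1 : Subgroup.centralizer ({i} : Set G)) := by
    rw [orderOf_one]; norm_num
  have h2 := principal_sum_sq hM ⟨2, by rw [h.i4]; norm_num⟩ (1 : Subgroup.centralizer ({i} : Set G)) hone
  have h3 := principal_sum_sq_complement hM hcop hk
    (y := (1 : Subgroup.centralizer ({i} : Set G))) hone
  rw [h3, h.fac, Subgroup.coe_one, mul_one] at h2
  have h4 := finsum_sq_eq (principalBlock M G) i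
  rw [h2] at h4
  rw [← h4]; norm_num

/-- the sign of `z` -/
theorem QCount.sign (χ : IrrCharacter G) : ∃ e : ℤ, (e = 1 ∨ e = -1) ∧
    ∀ g, (χ : G → ℂ) (z * g) = e * (χ : G → ℂ) g := by
  have hzc : z ∈ Subgroup.center G := Subgroup.mem_center_iff.2 fun g => (h.zc g).symm
  have h1 : lam χ z * lam χ z = 1 := by
    rw [← lam_mul hzc, h.zz, lam_one]
  rcases mul_self_eq_one_iff.1 h1 with h2 | h2
  · exact ⟨1, Or.inl rfl, fun g => by rw [lam_mul_char hzc, h2]; simp⟩
  · exact ⟨-1, Or.inr rfl, fun g => by rw [lam_mul_char hzc, h2]; simp⟩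

theorem QCount.int (χ : IrrCharacter G) : ∃ n : ℤ, (χ : G → ℂ) i = n := by
  refine char_four (irr_isChar χ.2) h.i4 ?_
  have h1 : i ^ 3 = z * i := by
    rw [← h.ii, pow_succ, pow_two]
  rw [h1]
  exact (classFun_isConj (irr_classFun χ.2) h.conj').symm

open Classical in
omit h in
theorem inner_reg (f η : G → ℂ) : classInner (regPart f) η =
    (Nat.card G : ℂ)⁻¹ * ∑ g ∈ univ.filter (fun g : G => ¬ 2 ∣ orderOf g), f g * conj (η g) := by
  unfold classInner regPart
  rw [Finset.sum_filter]
  congr 1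
  refine Finset.sum_congr rfl fun g _ => ?_
  split_ifs <;> simp

omit h in
theorem classFun_regPart {f : G → ℂ} (hf : IsClassFunction G f) :
    IsClassFunction G (regPart f) := by
  intro a b
  unfold regPart
  rw [orderOf_conj, hf]

omit h in
theorem inner_reg_symm (χ η : G → ℂ) : classInner (regPart η) χ =
    conj (classInner (regPart χ) η) := by
  classical
  rw [inner_reg, inner_reg, map_mul, map_inv₀, map_natCast, map_sum]
  congr 1
  refine Finset.sum_congr rfl fun g _ => ?_
  rw [map_mul, Complex.conj_conj, mul_comm]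

omit h in
theorem inner_reg_self (χ : G → ℂ) : classInner (regPart χ) (regPart χ) =
    classInner (regPart χ) χ := by
  classical
  rw [inner_reg, inner_reg]
  congr 1
  refine Finset.sum_congr rfl fun g hg => ?_
  rw [Finset.mem_filter] at hg
  unfold regPart
  rw [if_pos hg.2]

open Classical in
/-- the weight of the section of `i` -/
noncomputable def wt (z : G) : ℂ := (Nat.card G : ℂ)⁻¹ *
  ((univ.filter (fun g : G => 2 ∣ orderOf g ∧ 2 ∣ orderOf (z * g))).card : ℂ)

theorem QCount.inner_general (χ η : G → ℂ) (e e' : ℂ) (hχ : ∀ g, χ (z * g) = e * χ g)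
    (hη : ∀ g, η (z * g) = e' * η g) (c : ℂ)
    (hc : ∀ g, 2 ∣ orderOf g → 2 ∣ orderOf (z * g) → χ g * conj (η g) = c) :
    classInner χ η = (1 + e * conj e') * classInner (regPart χ) η + wt z * c := by
  classical
  rw [inner_reg]
  unfold classInner wt
  rw [h.sum_eq]
  have h1 : ∑ g ∈ univ.filter (fun g : G => ¬ 2 ∣ orderOf g), χ (z * g) * conj (η (z * g)) =
      (e * conj e') * ∑ g ∈ univ.filter (fun g : G => ¬ 2 ∣ orderOf g), χ g * conj (η g) := by
    rw [Finset.mul_sum]
    refine Finset.sum_congr rfl fun g _ => ?_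
    rw [hχ, hη, map_mul]; ring
  have h2 : ∑ g ∈ univ.filter (fun g : G => 2 ∣ orderOf g ∧ 2 ∣ orderOf (z * g)),
      χ g * conj (η g) = ((univ.filter (fun g : G => 2 ∣ orderOf g ∧ 2 ∣ orderOf (z * g))).card : ℂ)
        * c := by
    rw [Finset.sum_congr rfl (g := fun _ => c), Finset.sum_const, nsmul_eq_mul]
    intro g hg
    rw [Finset.mem_filter] at hg
    exact hc g hg.2.1 hg.2.2
  rw [h1, h2]; ring

omit h in
/-- characters outside the principal block -/
theorem inner_reg_zero (hM : IsPModular 2 M) {χ η : IrrCharacter G} (hχ : χ ∈ principalBlock M G)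
    (hη : η ∉ principalBlock M G) : classInner (regPart (χ : G → ℂ)) (η : G → ℂ) = 0 := by
  classical
  have hMp : M.IsPrime := pmod_isPrime hM
  rw [inner_reg]
  have h1 : ¬ SameBlock M (χ : G → ℂ) (η : G → ℂ) := fun hs => hη (sameBlock_trans hχ hs)
  have h2 := inner_pRegular_eq_zero hM h1
  rw [finsum_mem_eq_finite_toFinset_sum _ (Set.toFinite _)] at h2
  have h3 : (Set.toFinite {x : G | ¬ 2 ∣ orderOf x}).toFinset =
      univ.filter (fun g : G => ¬ 2 ∣ orderOf g) := by ext; simp
  rw [h3] at h2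
  rw [h2, mul_zero]

open Classical in
/-- the part of a function on the section of `i` -/
noncomputable def secPart (z : G) (f : G → ℂ) : G → ℂ := fun g =>
  if 2 ∣ orderOf g ∧ 2 ∣ orderOf (z * g) then f g else 0

theorem QCount.classFun_secPart {f : G → ℂ} (hf : IsClassFunction G f) :
    IsClassFunction G (secPart z f) := by
  intro a b
  unfold secPart
  have h1 : z * (b * a * b⁻¹) = b * (z * a) * b⁻¹ := by
    rw [← mul_assoc, ← mul_assoc, ← mul_assoc, h.zc b]
  rw [orderOf_conj, h1, orderOf_conj, hf]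

theorem QCount.inner_split (χ η : G → ℂ) (e e' : ℂ) (hχ : ∀ g, χ (z * g) = e * χ g)
    (hη : ∀ g, η (z * g) = e' * η g) :
    classInner χ η = (1 + e * conj e') * classInner (regPart χ) η +
      classInner (secPart z χ) η := by
  classical
  rw [inner_reg]
  unfold classInner
  rw [h.sum_eq]
  have h1 : ∑ g ∈ univ.filter (fun g : G => ¬ 2 ∣ orderOf g), χ (z * g) * conj (η (z * g)) =
      (e * conj e') * ∑ g ∈ univ.filter (fun g : G => ¬ 2 ∣ orderOf g), χ g * conj (η g) := by
    rw [Finset.mul_sum]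
    refine Finset.sum_congr rfl fun g _ => ?_
    rw [hχ, hη, map_mul]; ring
  have h2 : ∑ g ∈ univ.filter (fun g : G => 2 ∣ orderOf g ∧ 2 ∣ orderOf (z * g)),
      χ g * conj (η g) = ∑ g, secPart z χ g * conj (η g) := by
    rw [Finset.sum_filter]
    refine Finset.sum_congr rfl fun g _ => ?_
    unfold secPart
    split_ifs <;> simp
  rw [h1, h2]; ring

theorem QCount.wt_ne : wt z ≠ 0 := by
  classical
  unfold wt
  refine mul_ne_zero (inv_ne_zero card_ne_zeroC) ?_
  have h1 : i ∈ univ.filter (fun g : G => 2 ∣ orderOf g ∧ 2 ∣ orderOf (z * g)) := by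
    rw [Finset.mem_filter]
    refine ⟨Finset.mem_univ _, by rw [h.i4]; norm_num, ?_⟩
    obtain ⟨c, hc⟩ := isConj_iff.1 h.conj'
    rw [← hc, orderOf_conj, h.i4]; norm_num
  have h2 := Finset.card_pos.2 ⟨i, h1⟩
  exact_mod_cast h2.ne'

theorem QCount.wt_eq (hM : IsPModular 2 M) : wt z = 1 / 4 := by
  classical
  have hMp : M.IsPrime := pmod_isPrime hM
  haveI := Fintype.ofFinite (IrrCharacter G)
  have hmem1 : (⟨fun _ => 1, isIrr_one⟩ : IrrCharacter G) ∈ principalBlock M G :=
    mem_blockOf_self (⟨fun _ => 1, isIrr_one⟩ : IrrCharacter G)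
  have h1 : ∀ η : IrrCharacter G, classInner (secPart z (fun _ => 1)) (η : G → ℂ) =
      if η ∈ principalBlock M G then wt z * conj ((η : G → ℂ) i) else 0 := by
    intro η
    split_ifs with hη
    · unfold classInner wt
      rw [mul_assoc]
      congr 1
      have h2 : ∑ g, secPart z (fun _ => 1) g * conj ((η : G → ℂ) g) =
          ∑ g ∈ univ.filter (fun g : G => 2 ∣ orderOf g ∧ 2 ∣ orderOf (z * g)),
            conj ((η : G → ℂ) i) := by
        rw [Finset.sum_filter]
        refine Finset.sum_congr rfl fun g _ => ?_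
        unfold secPart
        split_ifs with hg
        · rw [one_mul, h.const hM hg.1 hg.2 hη]
        · rw [zero_mul]
      rw [h2, Finset.sum_const, nsmul_eq_mul]
    · obtain ⟨e, he, he'⟩ := h.sign η
      have h2 := h.inner_split (fun _ => 1) (η : G → ℂ) 1 e (fun _ => by simp) he'
      rw [inner_reg_zero hM hmem1 hη, mul_zero, zero_add] at h2
      rw [← h2, classInner_irr' ⟨fun _ => 1, isIrr_one⟩ η, if_neg]
      rintro rfl
      exact hη hmem1
  have h2 : classInner (secPart z (fun _ => 1)) (secPart z (fun _ => 1)) = wt z := by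
    unfold classInner wt
    congr 1
    rw [Finset.card_eq_sum_ones, Finset.sum_filter]
    push_cast
    refine Finset.sum_congr rfl fun g _ => ?_
    unfold secPart
    split_ifs <;> simp
  have h3 := classInner_eq_sum (φ := secPart z (fun _ => 1)) (ψ := secPart z (fun _ => 1))
    (h.classFun_secPart (classFun_const 1))
  rw [h2] at h3
  have h4 : ∀ η : IrrCharacter G, classInner (secPart z (fun _ => 1)) (η : G → ℂ) *
      conj (classInner (secPart z (fun _ => 1)) (η : G → ℂ)) =
      (wt z * wt z) * (if η ∈ principalBlock M G then conj ((η : G → ℂ) i) * (η : G → ℂ) i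
        else 0) := by
    intro η
    rw [h1 η]
    have hw : conj (wt z) = wt z := by
      unfold wt
      rw [map_mul, map_inv₀, map_natCast, map_natCast]
    split_ifs
    · rw [map_mul, Complex.conj_conj, hw]; ring
    · simp
  rw [Finset.sum_congr rfl (fun η _ => h4 η), ← Finset.mul_sum, ← Finset.sum_filter,
    h.sq_sum hM] at h3
  have h5 : wt z * (1 - 4 * wt z) = 0 := by linear_combination h3
  rcases mul_eq_zero.1 h5 with h6 | h6
  · exact absurd h6 h.wt_ne
  · linear_combination -h6 / 4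

theorem QCount.card_eq (hM : IsPModular 2 M) : Nat.card (principalBlock M G) = 7 := by
  classical
  have hMp : M.IsPrime := pmod_isPrime hM
  haveI := Fintype.ofFinite (IrrCharacter G)
  choose e he hez using h.sign
  choose n hn using h.int
  obtain ⟨τ, hτ⟩ : ∃ τ : IrrCharacter G, τ = ⟨fun _ => 1, isIrr_one⟩ := ⟨_, rfl⟩
  have hτB : τ ∈ principalBlock M G := by
    rw [hτ]; exact mem_blockOf_self (⟨fun _ => 1, isIrr_one⟩ : IrrCharacter G)
  have hτv : ∀ g, (τ : G → ℂ) g = 1 := fun g => by rw [hτ]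
  obtain ⟨N, hN⟩ : ∃ N : Finset (IrrCharacter G),
    N = univ.filter (fun χ => χ ∈ principalBlock M G ∧ e χ = 1) := ⟨_, rfl⟩
  obtain ⟨F, hF⟩ : ∃ F : Finset (IrrCharacter G),
    F = univ.filter (fun χ => χ ∈ principalBlock M G ∧ e χ = -1) := ⟨_, rfl⟩
  have hNm : ∀ χ, χ ∈ N ↔ χ ∈ principalBlock M G ∧ e χ = 1 := fun χ => by rw [hN]; simp
  have hFm : ∀ χ, χ ∈ F ↔ χ ∈ principalBlock M G ∧ e χ = -1 := fun χ => by rw [hF]; simp
  have hdisj : Disjoint N F := by
    rw [Finset.disjoint_left]
    intro χ h1 h2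
    have h3 := ((hNm χ).1 h1).2
    have h4 := ((hFm χ).1 h2).2
    rw [h3] at h4
    norm_num at h4
  have hun : univ.filter (fun χ : IrrCharacter G => χ ∈ principalBlock M G) = N ∪ F := by
    ext χ
    rw [Finset.mem_union, hNm, hFm]
    simp only [Finset.mem_filter, Finset.mem_univ, true_and]
    rcases he χ with h1 | h1 <;> rw [h1] <;> norm_num
  have hn0 : ∀ χ ∈ F, n χ = 0 := by
    intro χ hχ
    have h1 := hez χ i
    have h2 := classFun_isConj (irr_classFun χ.2) h.conj'
    rw [← h2, hn χ, ((hFm χ).1 hχ).2] at h1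
    have h3 : (n χ : ℂ) = 0 := by
      push_cast at h1
      linear_combination h1 / 2
    exact_mod_cast h3
  have hsq : ∑ χ ∈ N, n χ * n χ = 4 := by
    have h1 := h.sq_sum hM
    rw [hun, Finset.sum_union hdisj] at h1
    have h2 : ∑ χ ∈ F, conj ((χ : G → ℂ) i) * (χ : G → ℂ) i = 0 := by
      refine Finset.sum_eq_zero fun χ hχ => ?_
      rw [hn χ, hn0 χ hχ]; simp
    rw [h2, add_zero] at h1
    have h3 : ((∑ χ ∈ N, n χ * n χ : ℤ) : ℂ) = 4 := by
      rw [← h1]; push_cast
      refine Finset.sum_congr rfl fun χ _ => ?_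
      rw [hn χ, map_intCast]
    exact_mod_cast h3
  have hgen : ∀ χ η : IrrCharacter G, χ ∈ principalBlock M G → η ∈ principalBlock M G →
      (1 + (e χ : ℂ) * e η) * classInner (regPart (χ : G → ℂ)) (η : G → ℂ) +
        (n χ * n η : ℂ) / 4 = if χ = η then 1 else 0 := by
    intro χ η hχ hη
    have h1 := h.inner_general (χ : G → ℂ) (η : G → ℂ) (e χ) (e η) (hez χ) (hez η)
      (n χ * n η : ℂ) (fun g hg hg' => by
        rw [h.const hM hg hg' hχ, h.const hM hg hg' hη, hn χ, hn η, map_intCast])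
    rw [h.wt_eq hM, map_intCast, classInner_irr'] at h1
    rw [h1]; ring
  have hPars : ∀ χ : IrrCharacter G, χ ∈ principalBlock M G →
      classInner (regPart (χ : G → ℂ)) (χ : G → ℂ) =
      ∑ η ∈ N, classInner (regPart (χ : G → ℂ)) (η : G → ℂ) *
        conj (classInner (regPart (χ : G → ℂ)) (η : G → ℂ)) +
      ∑ η ∈ F, classInner (regPart (χ : G → ℂ)) (η : G → ℂ) *
        conj (classInner (regPart (χ : G → ℂ)) (η : G → ℂ)) := by
    intro χ hχ
    rw [← Finset.sum_union hdisj, ← hun, ← inner_reg_self,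
      classInner_eq_sum (ψ := regPart (χ : G → ℂ)) (classFun_regPart (irr_classFun χ.2))]
    symm
    refine Finset.sum_subset (Finset.subset_univ _) fun η _ hη => ?_
    rw [inner_reg_zero hM hχ (fun hc => hη (by simpa using hc))]
    simp
  have hcount := count_faithful N F (fun χ η => classInner (regPart (χ : G → ℂ)) (η : G → ℂ)) n
    (fun χ η => inner_reg_symm _ _)
    (fun χ hχ η hη => by
      have h1 := hgen χ η ((hNm χ).1 hχ).1 ((hNm η).1 hη).1
      rw [((hNm χ).1 hχ).2, ((hNm η).1 hη).2] at h1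
      rw [← h1]; push_cast; ring)
    (fun χ hχ η hη => by
      have h1 := hgen χ η ((hFm χ).1 hχ).1 ((hFm η).1 hη).1
      rw [((hFm χ).1 hχ).2, ((hFm η).1 hη).2, hn0 χ hχ] at h1
      rw [← h1]; push_cast; ring)
    (fun χ hχ => hPars χ ((hNm χ).1 hχ).1) (fun χ hχ => hPars χ ((hFm χ).1 hχ).1) hsq
  -- the number of characters with `z` in the kernel
  have hτN : τ ∈ N := by
    rw [hNm]
    refine ⟨hτB, ?_⟩
    have h1 := hez τ 1
    rw [hτv, hτv, mul_one] at h1
    exact_mod_cast h1.symm
  have hnτ : n τ = 1 := by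
    have h1 := hn τ
    rw [hτv] at h1
    exact_mod_cast h1.symm
  have hnne : ∀ χ ∈ N, n χ ≠ 0 := by
    intro χ hχ h0
    have h1 := hgen χ τ ((hNm χ).1 hχ).1 hτB
    have hne : χ ≠ τ := by
      rintro rfl
      rw [hnτ] at h0
      exact one_ne_zero h0
    rw [((hNm χ).1 hχ).2, ((hNm τ).1 hτN).2, h0, if_neg hne] at h1
    have h2 : classInner (regPart (χ : G → ℂ)) (τ : G → ℂ) = 0 := by
      push_cast at h1
      linear_combination h1 / 2
    have h3 : omega (χ : G → ℂ) (regSum 2 G) = 0 := by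
      rw [omega_regSum_eq]
      rw [inner_reg] at h2
      have h4 := (mul_eq_zero.mp h2).resolve_left (inv_ne_zero card_ne_zeroC)
      rw [finsum_mem_eq_finite_toFinset_sum _ (Set.toFinite _)]
      have h5 : (Set.toFinite {x : G | ¬ 2 ∣ orderOf x}).toFinset =
          univ.filter (fun g : G => ¬ 2 ∣ orderOf g) := by ext; simp
      rw [h5]
      have h6 : ∑ x ∈ univ.filter (fun g : G => ¬ 2 ∣ orderOf g),
          (χ : G → ℂ) x * conj ((1 : G → ℂ) x) = 0 := by
        rw [← h4]
        refine Finset.sum_congr rfl fun x _ => ?_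
        rw [hτv]; rfl
      rw [h6, zero_div]
    exact (li_omega_regSum_iff hM χ).1 (by rw [h3]; exact li_zero M) ((hNm χ).1 hχ).1
  have h3 : ∑ χ ∈ N.erase τ, n χ * n χ = 3 := by
    have h1 := Finset.add_sum_erase N (fun χ => n χ * n χ) hτN
    simp only [hnτ] at h1
    rw [hsq] at h1
    linarith
  have h4 := (sum_sq_three (N.erase τ) n (fun χ hχ => hnne χ (Finset.mem_of_mem_erase hχ)) h3).1
  have h5 : N.card = 4 := by
    have := Finset.card_erase_add_one hτN
    omega
  have h6 : F.card = 3 := by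
    rw [h5] at hcount
    have h7 : (F.card : ℂ) = (3 : ℕ) := by push_cast; linear_combination hcount
    exact_mod_cast h7
  have h7 : Nat.card (principalBlock M G) = (N ∪ F).card := by
    rw [← hun, Nat.card_eq_fintype_card, Fintype.card_subtype]
  rw [h7, Finset.card_union_of_disjoint hdisj, h5, h6]

end count

end Cfsg.Agent.H11
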