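import Cfsg.Agent.H11.Q8B
import Cfsg.Agent.S0201

set_option autoImplicit false

/-! S0951. -/

namespace Cfsg.Agent.H11

open Cfsg

universe u

namespace Q8

theorem conj_cube : ∀ x : Q, x * x ≠ 1 → ∃ y : Q, y * x * y⁻¹ = x * (x * x) := by decide

theorem comm_cases : ∀ x y : Q, x * x ≠ 1 → x * y = y * x →
    y = 1 ∨ y = x ∨ y = x * x ∨ y = x * (x * x) := by decide

end Q8

variable {G : Type u} [Group G] [Finite G] {S : Sylow 2 G} {z i j k : G}

omit [Finite G] in
theorem q8_conj_cube {S : Subgroup G} (e : S ≃* QuaternionGroup 2) {x : G} (hx : x ∈ S)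
    (hx2 : x * x ≠ 1) : ∃ y ∈ S, y * x * y⁻¹ = x * (x * x) := by
  have h1 : e ⟨x, hx⟩ * e ⟨x, hx⟩ ≠ 1 := by
    rw [← map_mul]
    intro h2
    rw [map_eq_one_iff e e.injective] at h2
    exact hx2 (congrArg Subtype.val h2)
  obtain ⟨y, hy⟩ := Q8.conj_cube _ h1
  refine ⟨e.symm y, (e.symm y).2, ?_⟩
  have h2 : e.symm y * ⟨x, hx⟩ * (e.symm y)⁻¹ = (⟨x, hx⟩ : S) * (⟨x, hx⟩ * ⟨x, hx⟩) := by
    apply e.injective
    rw [map_mul, map_mul, map_inv, MulEquiv.apply_symm_apply, hy, map_mul, map_mul]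
  exact congrArg Subtype.val h2

omit [Finite G] in
theorem q8_comm {S : Subgroup G} (e : S ≃* QuaternionGroup 2) {x : G} (hx : x ∈ S)
    (hx2 : x * x ≠ 1) {y : G} (hy : y ∈ S) (hc : x * y = y * x) :
    y ∈ Subgroup.zpowers x := by
  have h1 : e ⟨x, hx⟩ * e ⟨x, hx⟩ ≠ 1 := by
    rw [← map_mul]
    intro h2
    rw [map_eq_one_iff e e.injective] at h2
    exact hx2 (congrArg Subtype.val h2)
  have h2 : e ⟨x, hx⟩ * e ⟨y, hy⟩ = e ⟨y, hy⟩ * e ⟨x, hx⟩ := by
    rw [← map_mul, ← map_mul]
    congr 1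
    exact Subtype.ext hc
  have hm := Subgroup.mem_zpowers x
  rcases Q8.comm_cases _ _ h1 h2 with h3 | h3 | h3 | h3
  · rw [map_eq_one_iff e e.injective] at h3
    have : y = 1 := congrArg Subtype.val h3
    rw [this]; exact one_mem _
  · have : y = x := congrArg Subtype.val (e.injective h3)
    rw [this]; exact hm
  · rw [← map_mul] at h3
    have : y = x * x := congrArg Subtype.val (e.injective h3)
    rw [this]; exact mul_mem hm hm
  · rw [← map_mul, ← map_mul] at h3
    have : y = x * (x * x) := congrArg Subtype.val (e.injective h3)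
    rw [this]; exact mul_mem hm (mul_mem hm hm)

omit [Finite G] in
theorem IsQ8.exists_four {S : Subgroup G} (h : IsQ8 S z i j k) : ∃ x ∈ S, x * x ≠ 1 := by
  by_contra hcon
  push Not at hcon
  have hle : S ≤ Subgroup.zpowers z := by
    intro x hx
    rcases h.inv x hx (hcon x hx) with h1 | h1
    · rw [h1]; exact one_mem _
    · rw [h1]; exact Subgroup.mem_zpowers z
  have hfin : orderOf z ≤ 2 :=
    orderOf_le_of_pow_eq_one (by norm_num) (by rw [pow_two]; exact h.z_sq)
  have hpos : 0 < orderOf z := orderOf_pos_iff.2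
    (isOfFinOrder_iff_pow_eq_one.2 ⟨2, by norm_num, by rw [pow_two]; exact h.z_sq⟩)
  haveI : Finite (Subgroup.zpowers z) := by
    apply Nat.finite_of_card_ne_zero
    rw [Nat.card_zpowers]; omega
  have h1 := Subgroup.card_le_of_le hle
  rw [Nat.card_zpowers, h.card] at h1
  omega

/-- the Sylow 2-subgroup of the centralizer of an element of order 4 -/
theorem sylow_centralizer (e : (S : Subgroup G) ≃* QuaternionGroup 2) {x : G} (hx : orderOf x = 4)
    (T : Sylow 2 (Subgroup.centralizer ({x} : Set G))) :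
    (T : Subgroup (Subgroup.centralizer ({x} : Set G))).map
      (Subgroup.centralizer ({x} : Set G)).subtype = Subgroup.zpowers x := by
  haveI : Fact (Nat.Prime 2) := ⟨Nat.prime_two⟩
  obtain ⟨C, hC⟩ : ∃ C, C = Subgroup.centralizer ({x} : Set G) := ⟨_, rfl⟩
  have hxC : x ∈ Subgroup.centralizer ({x} : Set G) := by
    rw [Subgroup.mem_centralizer_singleton_iff]
  apply le_antisymm
  · have hp : IsPGroup 2 ((T : Subgroup (Subgroup.centralizer ({x} : Set G))).map
        (Subgroup.centralizer ({x} : Set G)).subtype) := T.2.map _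
    -- add `x`
    have hxT : (⟨x, hxC⟩ : Subgroup.centralizer ({x} : Set G)) ∈ T := by
      obtain ⟨c, hc⟩ := exists_conj_mem_sylow T (x := ⟨x, hxC⟩)
        ⟨2, by rw [Subgroup.orderOf_mk, hx]; norm_num⟩
      have h1 : c * ⟨x, hxC⟩ * c⁻¹ = (⟨x, hxC⟩ : Subgroup.centralizer ({x} : Set G)) := by
        have h2 : (c : G) * x = x * c := Subgroup.mem_centralizer_singleton_iff.1 c.2
        have h3 : c * ⟨x, hxC⟩ = ⟨x, hxC⟩ * c := Subtype.ext h2
        rw [h3]; group
      rwa [h1] at hc
    obtain ⟨Q, hQ⟩ := hp.exists_le_sylow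
    obtain ⟨c, hc⟩ := MulAction.exists_smul_eq G Q S
    have hQS : ∀ y ∈ Q, c * y * c⁻¹ ∈ (S : Subgroup G) := by
      intro y hy
      rw [← hc]
      exact Subgroup.smul_mem_pointwise_smul y (MulAut.conj c) (Q : Subgroup G) hy
    intro y hy
    have hyQ := hQ hy
    have hxQ : x ∈ Q := hQ ⟨⟨x, hxC⟩, hxT, rfl⟩
    have hcomm : x * y = y * x := by
      obtain ⟨y', hy', rfl⟩ := hy
      exact (Subgroup.mem_centralizer_singleton_iff.1 y'.2).symm
    have h1 := hQS x hxQ
    have h2 := hQS y hyQ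
    have hx2 : (c * x * c⁻¹) * (c * x * c⁻¹) ≠ 1 := by
      intro h3
      have h4 : c * x * c⁻¹ * (c * x * c⁻¹) = c * (x * x) * c⁻¹ := by group
      rw [h4, conj_eq_one_iff] at h3
      have h5 : orderOf x ∣ 2 := orderOf_dvd_of_pow_eq_one (by rw [pow_two]; exact h3)
      rw [hx] at h5
      norm_num at h5
    have h3 := q8_comm e h1 hx2 h2 (by
      calc c * x * c⁻¹ * (c * y * c⁻¹) = c * (x * y) * c⁻¹ := by group
        _ = c * (y * x) * c⁻¹ := by rw [hcomm]
        _ = _ := by group)
    obtain ⟨r, hr⟩ := Subgroup.mem_zpowers_iff.1 h3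
    rw [conj_zpow] at hr
    have h4 : x ^ r = y := by
      have := mul_right_cancel hr
      exact mul_left_cancel this
    exact Subgroup.mem_zpowers_iff.2 ⟨r, h4⟩
  · rw [Subgroup.zpowers_le]
    obtain ⟨c, hc⟩ := exists_conj_mem_sylow T (x := ⟨x, hxC⟩)
      ⟨2, by rw [Subgroup.orderOf_mk, hx]; norm_num⟩
    have h1 : c * ⟨x, hxC⟩ * c⁻¹ = (⟨x, hxC⟩ : Subgroup.centralizer ({x} : Set G)) := by
      have h2 : (c : G) * x = x * c := Subgroup.mem_centralizer_singleton_iff.1 c.2
      have h3 : c * ⟨x, hxC⟩ = ⟨x, hxC⟩ * c := Subtype.ext h2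
      rw [h3]; group
    rw [h1] at hc
    exact ⟨_, hc, rfl⟩

/-- the complement in the centralizer -/
theorem centralizer_complement (e : (S : Subgroup G) ≃* QuaternionGroup 2) {x : G}
    (hx : orderOf x = 4) :
    (∃ k : ℕ, (pPrimeCore 2 (Subgroup.centralizer ({x} : Set G))).index = 2 ^ k) ∧
    (Nat.card (Subgroup.centralizer ({x} : Set G))).factorization 2 = 2 := by
  classical
  haveI hp : Fact (Nat.Prime 2) := ⟨Nat.prime_two⟩
  obtain ⟨T⟩ : Nonempty (Sylow 2 (Subgroup.centralizer ({x} : Set G))) := inferInstance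
  have hT := sylow_centralizer e hx T
  have hcard : Nat.card T = 4 := by
    rw [← hx, ← Nat.card_zpowers, ← hT]
    exact Nat.card_congr ((T : Subgroup (Subgroup.centralizer ({x} : Set G))).equivMapOfInjective _
      (Subgroup.subtype_injective _)).toEquiv
  have hN : Subgroup.normalizer ((T : Subgroup (Subgroup.centralizer ({x} : Set G))) :
      Set (Subgroup.centralizer ({x} : Set G))) ≤
      Subgroup.centralizer ((T : Subgroup (Subgroup.centralizer ({x} : Set G))) :
        Set (Subgroup.centralizer ({x} : Set G))) := by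
    intro n _
    rw [Subgroup.mem_centralizer_iff]
    intro y hy
    have h1 : (y : G) ∈ Subgroup.zpowers x := by
      rw [← hT]; exact ⟨y, hy, rfl⟩
    obtain ⟨r, hr⟩ := Subgroup.mem_zpowers_iff.1 h1
    have h2 : Commute (n : G) x := Subgroup.mem_centralizer_singleton_iff.1 n.2
    apply Subtype.ext
    show (y : G) * n = n * y
    rw [← hr]
    exact (h2.zpow_right r).eq.symm
  have hcompl := MonoidHom.ker_transferSylow_isComplement' T hN
  obtain ⟨K, hK⟩ : ∃ K, K = (MonoidHom.transferSylow T hN).ker := ⟨_, rfl⟩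
  have hKn : K.Normal := by rw [hK]; infer_instance
  rw [← hK] at hcompl
  have hKc : (Nat.card K).Coprime 2 := by
    have := MonoidHom.not_dvd_card_ker_transferSylow T hN
    rw [← hK] at this
    exact ((Nat.Prime.coprime_iff_not_dvd hp.out).mpr this).symm
  have hle : K ≤ pPrimeCore 2 _ := Cfsg.Agent.H1.le_pPrimeCore hKn hKc
  have hdvd : (pPrimeCore 2 (Subgroup.centralizer ({x} : Set G))).index ∣ K.index :=
    Subgroup.index_dvd_of_le hle
  have hidx : K.index = Nat.card T := by
    have h1 := hcompl.card_mul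
    have h2 := K.card_mul_index
    rw [← h1] at h2
    exact Nat.eq_of_mul_eq_mul_left Nat.card_pos h2
  constructor
  · rw [hidx, hcard, show 4 = 2 ^ 2 by norm_num] at hdvd
    obtain ⟨k, -, hk⟩ := (Nat.dvd_prime_pow hp.out).mp hdvd
    exact ⟨k, hk⟩
  · have h1 := T.card_eq_multiplicity
    rw [hcard, show 4 = 2 ^ 2 by norm_num] at h1
    exact (Nat.pow_right_injective (le_refl 2) h1).symm

theorem qcount (e : (S : Subgroup G) ≃* QuaternionGroup 2)
    (hO : ∀ N : Subgroup G, N.Normal → Odd (Nat.card N) → N = ⊥) (hG : (S : Subgroup G) ≠ ⊤) :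
    ∃ z i : G, QCount z i := by
  classical
  haveI hp : Fact (Nat.Prime 2) := ⟨Nat.prime_two⟩
  obtain ⟨z, i, j, k, h⟩ := isQ8_of_equiv e
  obtain ⟨x, hxS, hx2⟩ := h.exists_four
  have hz : ∀ g, z * g = g * z := by
    have h1 : Nat.card (Subgroup.center G) = 2 := S0201.result S 0 e hO
    obtain ⟨w, hw⟩ := exists_prime_orderOf_dvd_card' (G := Subgroup.center G) 2 (by rw [h1])
    have hwc : ∀ g : G, (w : G) * g = g * w := fun g => (Subgroup.mem_center_iff.1 w.2 g).symm
    rw [← Subgroup.orderOf_coe] at hw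
    obtain ⟨c, hc⟩ := exists_conj_mem_sylow S (x := (w : G)) ⟨1, by rw [hw, pow_one]⟩
    have h2 : c * (w : G) * c⁻¹ = w := by rw [← hwc c]; group
    rw [h2] at hc
    have hw2 : (w : G) * w = 1 := by
      rw [← pow_two, ← hw]; exact pow_orderOf_eq_one _
    have hw1 : (w : G) ≠ 1 := by
      intro h3
      rw [h3, orderOf_one] at hw
      norm_num at hw
    rcases h.inv _ hc hw2 with h3 | h3
    · exact absurd h3 hw1
    · rw [← h3]; exact hwc
  have hnc : ∀ N : Subgroup G, N.Normal → ¬ Subgroup.IsComplement' N (S : Subgroup G) := by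
    intro N hN hc
    have h1 : Odd (Nat.card N) := by
      by_contra hcon
      rw [Nat.not_odd_iff_even] at hcon
      have h2 := hc.card_mul
      have h3 := S.card_eq_multiplicity
      have h4 : 2 ^ ((Nat.card G).factorization 2 + 1) ∣ Nat.card G := by
        have h5 : 2 * 2 ^ (Nat.card G).factorization 2 ∣ Nat.card N * Nat.card (S : Subgroup G) :=
          Nat.mul_dvd_mul hcon.two_dvd h3.symm.dvd
        rw [h2] at h5
        rwa [pow_succ, mul_comm]
      exact Nat.pow_succ_factorization_not_dvd Nat.card_pos.ne' Nat.prime_two h4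
    have h2 := hO N hN h1
    rw [h2] at hc
    exact hG (Subgroup.isComplement'_bot_left.1 hc)
  have hx4 := h.order_four hxS hx2
  have hcube : ∀ s ∈ (S : Subgroup G), s * s ≠ 1 → IsConj s (s * (s * s)) := by
    intro s hs hs2
    obtain ⟨y, -, hy⟩ := q8_conj_cube e hs hs2
    exact isConj_iff.2 ⟨y, hy⟩
  have hc := centralizer_complement e hx4
  refine ⟨z, x, hz, orderOf_eq_prime (by rw [pow_two]; exact h.z_sq) h.z_ne, hx4, h.sq x hxS hx2,
    ?_, ?_, hc.1, hc.2⟩
  · have h1 := hcube x hxS hx2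
    rwa [h.sq x hxS hx2, ← hz x] at h1
  · intro u hu
    obtain ⟨c, hcu⟩ := exists_conj_mem_sylow S hu
    obtain ⟨s, hs⟩ : ∃ s, s = c * u * c⁻¹ := ⟨_, rfl⟩
    have hus : u = c⁻¹ * s * c := by rw [hs]; group
    rw [← hs] at hcu
    by_cases hs2 : s * s = 1
    · rcases h.inv s hcu hs2 with h1 | h1
      · left; rw [hus, h1]; group
      · right; left
        rw [hus, h1]
        calc c⁻¹ * z * c = c⁻¹ * (z * c) := by group
          _ = z := by rw [hz c]; group
    · right; right
      have hs4 := h.order_four hcu hs2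
      have h1 : IsConj u s := isConj_iff.2 ⟨c, hs.symm⟩
      refine IsConj.trans ?_ h1.symm
      obtain ⟨n, -, hn⟩ := st0950 S e hnc (Subgroup.zpowers x) (Subgroup.zpowers s)
        (by rw [Subgroup.zpowers_le]; exact hxS) (by rw [Subgroup.zpowers_le]; exact hcu)
        (by rw [Nat.card_zpowers, hx4]) (by rw [Nat.card_zpowers, hs4])
      have h2 : n * x * n⁻¹ ∈ Subgroup.zpowers s := by
        rw [hn]
        exact ⟨x, Subgroup.mem_zpowers x, rfl⟩
      obtain ⟨r, hr, hr2⟩ := (mem_zpowers_iff_mem_range_orderOf).1 h2 |> Finset.mem_image.1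
      rw [hs4, Finset.mem_range] at hr
      have hord : orderOf (n * x * n⁻¹) = 4 := by rw [orderOf_conj, hx4]
      have hsz := h.sq s hcu hs2
      interval_cases r
      · rw [pow_zero] at hr2
        rw [← hr2, orderOf_one] at hord
        norm_num at hord
      · rw [pow_one] at hr2
        exact isConj_iff.2 ⟨n, hr2.symm⟩
      · exfalso
        have h3 : orderOf (n * x * n⁻¹) ∣ 2 := by
          apply orderOf_dvd_of_pow_eq_one
          rw [← hr2, pow_two s, hsz, pow_two, h.z_sq]
        rw [hord] at h3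
        norm_num at h3
      · have h3 : IsConj x (s * (s * s)) := by
          refine isConj_iff.2 ⟨n, ?_⟩
          rw [← hr2, pow_succ, pow_two, mul_assoc]
        exact h3.trans (hcube s hcu hs2).symm

end Cfsg.Agent.H11
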