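import Cfsg.Agent.H11.Green
import Cfsg.Agent.H11.Kulshammer

set_option autoImplicit false
set_option linter.unusedSectionVars false

/-!
Inner products on `p`-regular elements with characters of height zero.
-/

namespace Cfsg.Agent.H11

open Cfsg Finset Cfsg.Agent.H3
open Cfsg.Agent.L (cj nz SylIn)
open scoped ComplexConjugate

section regAlg

variable {G : Type*} [Group G] [Fintype G] {p : ℕ} {M : Ideal AlgInt}

/-- The element `∑ conj (χ x) x` over `p`-regular `x`. -/
noncomputable def regAlg (p : ℕ) (χ : G → ℂ) : MonoidAlgebra ℂ G :=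
  toAlg (fun x => if p ∣ orderOf x then 0 else conj (χ x))

lemma coeff_regAlg (χ : G → ℂ) (x : G) :
    (regAlg p χ).coeff x = if p ∣ orderOf x then 0 else conj (χ x) := rfl

lemma isZS_regAlg [hpr : M.IsPrime] {χ : G → ℂ} (hχ : IsCharacter G χ) :
    IsZS M (regAlg p χ) := by
  constructor
  · apply isCen_toAlg
    intro g c
    simp only
    rw [orderOf_conj, char_classFun hχ]
  · intro g
    rw [coeff_regAlg]
    split_ifs
    · exact lr_zero M
    · rw [← char_inv hχ]
      exact lr_int (char_isIntegral hχ _)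

lemma lin_regAlg (ψ χ : G → ℂ) : lin ψ (regAlg p χ) =
    ∑ᶠ x ∈ {x : G | ¬ p ∣ orderOf x}, ψ x * conj (χ x) := by
  classical
  rw [lin_apply]
  have h1 : ∑ᶠ x ∈ {x : G | ¬ p ∣ orderOf x}, ψ x * conj (χ x) =
      ∑ x : G with ¬ p ∣ orderOf x, ψ x * conj (χ x) := by
    rw [← finsum_mem_coe_finset]
    congr 1
    ext x
    simp
  rw [h1, Finset.sum_filter]
  refine Finset.sum_congr rfl fun x _ => ?_
  rw [coeff_regAlg]
  by_cases h : p ∣ orderOf x
  · rw [if_pos h, if_neg (not_not.mpr h), zero_mul]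
  · rw [if_neg h, if_pos h, mul_comm]

lemma omega_regAlg_eq_zero (hM : IsPModular p M) {χ ψ : IrrCharacter G}
    (h : ¬ SameBlock M (ψ : G → ℂ) (χ : G → ℂ)) : omega (ψ : G → ℂ) (regAlg p (χ : G → ℂ)) = 0 := by
  unfold omega
  rw [lin_regAlg, inner_pRegular_eq_zero hM h, zero_div]

lemma resAlg_regAlg (H : Subgroup G) [Fintype H] (χ : G → ℂ) :
    resAlg H (regAlg p χ) = regAlg p (fun h : H => χ h) := by
  ext h
  rw [coeff_resAlg, coeff_regAlg, coeff_regAlg, Subgroup.orderOf_coe]

lemma lin_regAlg_symm (ψ χ : G → ℂ) :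
    lin ψ (regAlg p χ) = conj (lin χ (regAlg p ψ)) := by
  rw [lin_apply, lin_apply, map_sum]
  refine Finset.sum_congr rfl fun x _ => ?_
  rw [coeff_regAlg, coeff_regAlg]
  split_ifs
  · simp
  · rw [map_mul, Complex.conj_conj, mul_comm]

end regAlg

section idem

variable {G : Type*} [Group G] [Fintype G] {p : ℕ} {M : Ideal AlgInt}

lemma li_coeff_mul_left [hpr : M.IsPrime] {A B : MonoidAlgebra ℂ G}
    (hA : ∀ g, MemLocalIdeal M (A.coeff g)) (hB : ∀ g, MemLocalRing M (B.coeff g)) (g : G) :
    MemLocalIdeal M ((A * B).coeff g) := by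
  rw [coeff_mul_sum]
  apply li_sum
  intro y _
  exact li_mul_right (hA y) (hB _)

lemma li_coeff_mul_right [hpr : M.IsPrime] {A B : MonoidAlgebra ℂ G}
    (hA : ∀ g, MemLocalRing M (A.coeff g)) (hB : ∀ g, MemLocalIdeal M (B.coeff g)) (g : G) :
    MemLocalIdeal M ((A * B).coeff g) := by
  rw [coeff_mul_sum]
  apply li_sum
  intro y _
  exact li_mul_left (hA y) (hB _)

/-- A central element which is idempotent modulo `M` and killed by all central characters
vanishes modulo `M`. -/
lemma li_coeff_of_idem (hM : IsPModular p M) {A : MonoidAlgebra ℂ G} (hA : IsZS M A)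
    (hAA : ∀ g, MemLocalIdeal M ((A * A - A).coeff g))
    (h0 : ∀ χ : IrrCharacter G, MemLocalIdeal M (omega (χ : G → ℂ) A)) (g : G) :
    MemLocalIdeal M (A.coeff g) := by
  have hpr := hM.2.1.isPrime
  have h1 : ∀ n : ℕ, ∀ g, MemLocalIdeal M ((A ^ (n + 1) - A).coeff g) := by
    intro n
    induction n with
    | zero => intro g; rw [zero_add, pow_one, sub_self]; exact li_zero M
    | succ n ih =>
      intro g
      have e1 : A ^ (n + 1 + 1) - A = (A ^ (n + 1) - A) * A + (A * A - A) := by
        rw [sub_mul, ← pow_succ]; abel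
      rw [e1, MonoidAlgebra.coeff_add, Finsupp.add_apply]
      exact li_add (li_coeff_mul_left ih hA.2 g) (hAA g)
  obtain ⟨n₀, hn₀⟩ := coeff_pow_div hM hA.1 h0 1
  have h2 := hn₀ (n₀ + 1) (Nat.le_succ _) g
  rw [pow_one] at h2
  have h3 := li_of_lr_div hM h2
  have h4 := h1 n₀ g
  rw [MonoidAlgebra.coeff_sub, Finsupp.sub_apply] at h4
  have h5 := li_sub h3 h4
  rwa [sub_sub_cancel] at h5

lemma isZS_sub [hpr : M.IsPrime] {A B : MonoidAlgebra ℂ G} (hA : IsZS M A) (hB : IsZS M B) :
    IsZS M (A - B) := by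
  refine ⟨isCen_sub hA.1 hB.1, fun g => ?_⟩
  rw [MonoidAlgebra.coeff_sub, Finsupp.sub_apply]
  exact lr_sub (hA.2 g) (hB.2 g)

/-- An element idempotent modulo `M` times a block idempotent is `0` or that idempotent,
modulo `M`. -/
lemma idem_mul_block (hM : IsPModular p M) {E : MonoidAlgebra ℂ G} (hE : IsZS M E)
    (hEE : ∀ g, MemLocalIdeal M ((E * E - E).coeff g)) {b : Set (IrrCharacter G)}
    (hb : IsPBlock M b) :
    (∀ g, MemLocalIdeal M ((fIdem b * E).coeff g)) ∨
      ((∀ g, MemLocalIdeal M ((fIdem b - fIdem b * E).coeff g)) ∧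
        ∀ ξ ∈ b, MemLocalIdeal M (omega (ξ : G → ℂ) E - 1)) := by
  classical
  have hpr := hM.2.1.isPrime
  have hf : IsZS M (fIdem b) := isZS_fIdem hb
  obtain ⟨ξ₀, hξ₀⟩ := isPBlock_nonempty hb
  have hEZ : ∀ g, MemLocalIdeal M ((fIdem b * E * (fIdem b * E) - fIdem b * E).coeff g) := by
    intro g
    have e1 : fIdem b * E * (fIdem b * E) - fIdem b * E = fIdem b * (E * E - E) := by
      have h1 : fIdem b * E * (fIdem b * E) = fIdem b * fIdem b * (E * E) := by
        rw [mul_assoc, ← mul_assoc E, isCen_commute hE.1 (fIdem b), mul_assoc, mul_assoc]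
      rw [h1, fIdem_mul_self, mul_sub]
    rw [e1]
    exact li_coeff_mul_right hf.2 hEE g
  have hsq : MemLocalIdeal M (omega (ξ₀ : G → ℂ) E * (omega (ξ₀ : G → ℂ) E - 1)) := by
    have h1 : omega (ξ₀ : G → ℂ) E * (omega (ξ₀ : G → ℂ) E - 1) =
        omega (ξ₀ : G → ℂ) (E * E - E) := by
      rw [omega_sub, omega_mul ξ₀.2 hE.1]; ring
    rw [h1]
    exact li_omega_of_coeff (isCen_sub (isCen_mul hE.1 hE.1) hE.1) hEE ξ₀.2
  have hom := lr_omega hE ξ₀.2
  rw [li_mul_iff hom (lr_sub hom (lr_one M))] at hsq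
  rcases hsq with h0 | h1
  · left
    apply li_coeff_of_idem hM (isZS_mul hf hE) hEZ
    intro χ
    rw [omega_mul χ.2 hf.1, omega_fIdem]
    split_ifs with h
    · rw [one_mul]
      exact (li_congr (li_omega_sub hE (irr_classFun ξ₀.2) (irr_classFun χ.2)
        (isPBlock_sameBlock hb hξ₀ h))).mp h0
    · rw [zero_mul]; exact li_zero M
  · right
    have hall : ∀ ξ ∈ b, MemLocalIdeal M (omega (ξ : G → ℂ) E - 1) := by
      intro ξ hξ
      have h2 := li_omega_sub hE (irr_classFun ξ₀.2) (irr_classFun ξ.2)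
        (isPBlock_sameBlock hb hξ₀ hξ)
      have h3 := li_sub h1 h2
      have e1 : omega (ξ₀ : G → ℂ) E - 1 - (omega (ξ₀ : G → ℂ) E - omega (ξ : G → ℂ) E) =
        omega (ξ : G → ℂ) E - 1 := by ring
      rwa [e1] at h3
    refine ⟨?_, hall⟩
    apply li_coeff_of_idem hM (isZS_sub hf (isZS_mul hf hE))
    · intro g
      have e1 : (fIdem b - fIdem b * E) * (fIdem b - fIdem b * E) - (fIdem b - fIdem b * E) =
          (fIdem b * E * (fIdem b * E) - fIdem b * E) := by
        have h2 : fIdem b * E * fIdem b = fIdem b * E := by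
          rw [mul_assoc, isCen_commute hE.1 (fIdem b), ← mul_assoc, fIdem_mul_self]
        have h3 : fIdem b * (fIdem b * E) = fIdem b * E := by
          rw [← mul_assoc, fIdem_mul_self]
        rw [sub_mul, mul_sub, mul_sub, fIdem_mul_self, h2, h3]
        abel
      rw [e1]
      exact hEZ g
    · intro χ
      rw [omega_sub, omega_mul χ.2 hf.1, omega_fIdem]
      split_ifs with h
      · rw [one_mul]
        have := li_neg (hall χ h)
        rwa [neg_sub] at this
      · rw [zero_mul, sub_self]; exact li_zero M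

end idem

section main

variable {G : Type*} [Group G] [Fintype G] {p : ℕ} {M : Ideal AlgInt}

/-- The values of a character on elements centralising the `p`-group `D`, through the Brauer
map. -/
lemma li_lin_brAlg (hM : IsPModular p M) {D : Subgroup G} (hD : IsPGroup p D)
    {C : Subgroup G} (hC : C = Subgroup.centralizer (D : Set G)) [Fintype C]
    {A : MonoidAlgebra ℂ G} (hA : IsZS M A) {χ : G → ℂ} (hχ : IsIrrCharacter G χ) (x : C) :
    MemLocalIdeal M (lin χ (A * MonoidAlgebra.single (x : G) 1) -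
      lin (fun c : C => χ c) (brAlg D C A * MonoidAlgebra.single x 1)) := by
  classical
  have hpr := hM.2.1.isPrime
  have hmem : ∀ y : G, y ∈ C ↔ y ∈ Subgroup.centralizer (D : Set G) := fun y => by rw [hC]
  rw [lin_mul_single', lin_mul_single']
  have h1 : ∑ y : C, (brAlg D C A).coeff y * χ ((y * x : C) : G) =
      ∑ y : G, if y ∈ C then A.coeff y * χ (y * x) else 0 := by
    rw [← Finset.sum_filter, Finset.sum_subtype (Finset.univ.filter (fun y : G => y ∈ C))
      (p := fun y => y ∈ C) (fun y => by simp) (fun y : G => A.coeff y * χ (y * x))]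
    refine Finset.sum_congr rfl fun y _ => ?_
    rw [coeff_brAlg, if_pos ((hmem _).mp y.2)]
    rfl
  rw [h1, ← Finset.sum_sub_distrib]
  apply li_of_lr_div hM
  apply lr_sum_conj_div hM hD (fun y : G => A.coeff y * χ (y * x) -
    if y ∈ C then A.coeff y * χ (y * x) else 0)
  · intro y
    have h2 : MemLocalRing M (A.coeff y * χ (y * x)) := lr_mul (hA.2 y) (lr_char hχ _)
    split_ifs
    · rw [sub_self]; exact lr_zero M
    · rw [sub_zero]; exact h2
  · intro u hu y
    have hcm : ∀ z ∈ C, ∀ v ∈ D, v * z * v⁻¹ = z := by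
      intro z hz v hv
      rw [Subgroup.mem_centralizer_iff.mp ((hmem _).mp hz) v hv, mul_inv_cancel_right]
    have h2 : A.coeff (u * y * u⁻¹) = A.coeff y := hA.1 _ _
    have h3 : χ (u * y * u⁻¹ * x) = χ (y * x) := by
      have e1 : u * y * u⁻¹ * x = u * (y * x) * u⁻¹ := by
        have e2 : (x : G) = u * x * u⁻¹ := (hcm x x.2 u hu).symm
        conv_lhs => rw [e2]
        group
      rw [e1, irr_classFun hχ]
    have h4 : u * y * u⁻¹ ∈ C ↔ y ∈ C := by
      constructor
      · intro h
        have h5 := hcm _ h u⁻¹ (inv_mem hu)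
        have e1 : u⁻¹ * (u * y * u⁻¹) * u⁻¹⁻¹ = y := by group
        rw [e1] at h5
        rw [h5]; exact h
      · intro h
        rw [hcm y h u hu]; exact h
    rw [h2, h3, if_congr h4 rfl rfl]
  · intro y hy
    rw [if_pos ((hmem _).mpr hy), sub_self]

/-- The choice of a block of the centraliser of `D`. -/
lemma exists_local_block (hM : IsPModular p M) {B : Set (IrrCharacter G)} (hB : IsPBlock M B)
    {χ : IrrCharacter G} (hχ : χ ∈ B) {D : Subgroup G} (hD : IsPGroup p D)
    {C : Subgroup G} (hC : C = Subgroup.centralizer (D : Set G)) [Fintype C]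
    (x : C) (hx : ¬ MemLocalIdeal M ((χ : G → ℂ) x)) :
    ∃ b : Set (IrrCharacter C), IsPBlock M b ∧
      (∀ g, MemLocalIdeal M ((fIdem b - fIdem b * brAlg D C (fIdem B)).coeff g)) ∧
      (∀ ξ ∈ b, MemLocalIdeal M (omega (ξ : C → ℂ) (brAlg D C (fIdem B)) - 1)) ∧
      ¬ MemLocalIdeal M (lin (fun c : C => (χ : G → ℂ) c)
        (fIdem b * MonoidAlgebra.single x 1)) := by
  classical
  have hpr := hM.2.1.isPrime
  have := Fintype.ofFinite (IrrCharacter C)
  set E := brAlg D C (fIdem B) with hE
  have hfZ : IsZS M (fIdem B) := isZS_fIdem hB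
  have hEZ : IsZS M E := isZS_brAlg D C (hC.le.trans (centralizer_le_nz D)) hfZ
  have hEE : ∀ g, MemLocalIdeal M ((E * E - E).coeff g) := by
    intro g
    have h1 := brAlg_mul hM hD (H := C) hC.ge hfZ.2 hfZ.2 (fun u _ y => hfZ.1 _ _)
      (fun u _ y => hfZ.1 _ _) g
    have h2 := li_of_lr_div hM h1
    rw [fIdem_mul_self] at h2
    have h3 := li_neg h2
    rw [← hE] at h3
    have e1 : -(E - E * E).coeff g = (E * E - E).coeff g := by
      rw [MonoidAlgebra.coeff_sub, MonoidAlgebra.coeff_sub, Finsupp.sub_apply,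
        Finsupp.sub_apply, neg_sub]
    rwa [e1] at h3
  have hval : ¬ MemLocalIdeal M (lin (fun c : C => (χ : G → ℂ) c)
      (E * MonoidAlgebra.single x 1)) := by
    intro h
    apply hx
    have h1 := li_lin_brAlg hM hD hC hfZ χ.2 x
    rw [lin_fIdem_mul_of_mem hχ, lin_single, one_mul] at h1
    exact (li_congr h1).mpr h
  have hχS : ∀ c : C, MemLocalRing M ((χ : G → ℂ) c) := fun c => lr_char χ.2 _
  have hex : ∃ b ∈ blks M C, ¬ MemLocalIdeal M (lin (fun c : C => (χ : G → ℂ) c)
      (fIdem b * (E * MonoidAlgebra.single x 1))) := by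
    by_contra hcon
    push Not at hcon
    apply hval
    have h1 : E * MonoidAlgebra.single x 1 =
        ∑ b ∈ blks M C, fIdem b * (E * MonoidAlgebra.single x 1) := by
      rw [← Finset.sum_mul, sum_fIdem_blks, one_mul]
    rw [h1, map_sum]
    exact li_sum _ _ hcon
  obtain ⟨b, hb, hbx⟩ := hex
  rw [mem_blks] at hb
  refine ⟨b, hb, ?_⟩
  have hlin : ∀ A : MonoidAlgebra ℂ C, (∀ g, MemLocalIdeal M (A.coeff g)) →
      MemLocalIdeal M (lin (fun c : C => (χ : G → ℂ) c) A) := by
    intro A hA
    rw [lin_apply]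
    apply li_sum
    intro c _
    exact li_mul_right (hA c) (hχS c)
  have hs : ∀ g : C, MemLocalRing M ((MonoidAlgebra.single x (1 : ℂ)).coeff g) := by
    intro g
    rw [MonoidAlgebra.coeff_single, Finsupp.single_apply]
    split_ifs
    · exact lr_one M
    · exact lr_zero M
  rcases idem_mul_block hM hEZ hEE hb with h0 | ⟨h1, h2⟩
  · exfalso
    apply hbx
    apply hlin
    rw [← mul_assoc]
    exact li_coeff_mul_left h0 hs
  · refine ⟨h1, h2, ?_⟩
    intro h3
    apply hbx
    have h4 := hlin _ (li_coeff_mul_left h1 hs)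
    rw [sub_mul, map_sub, mul_assoc] at h4
    exact (li_congr h4).mp h3

/-- The defect group of the local block. -/
lemma local_defect (hM : IsPModular p M) {B : Set (IrrCharacter G)} (hB : IsPBlock M B)
    {D : Subgroup G} (hD : IsDefectGroup p M B D) {C : Subgroup G}
    (hC : C = Subgroup.centralizer (D : Set G)) [Fintype C] {b : Set (IrrCharacter C)}
    (hb : IsPBlock M b)
    (hfE : ∀ g, MemLocalIdeal M ((fIdem b - fIdem b * brAlg D C (fIdem B)).coeff g)) :
    IsDefectGroup p M b (D.subgroupOf C) := by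
  classical
  have hpr := hM.2.1.isPrime
  have hfp := Fact.mk hM.1
  have hDp : IsPGroup p D := IsDefectGroup.isPGroup hM hD
  have hmem : ∀ y : G, y ∈ C ↔ y ∈ Subgroup.centralizer (D : Set G) := fun y => by rw [hC]
  obtain ⟨D', hD'⟩ := exists_isDefectGroup hM hb
  have hD'p : IsPGroup p D' := IsDefectGroup.isPGroup hM hD'
  obtain ⟨x', hx', hS'⟩ := (isDefectGroup_iff hM).mp hD'
  set E := brAlg D C (fIdem B) with hE
  have hEZ : IsZS M E := isZS_brAlg D C (hC.le.trans (centralizer_le_nz D)) (isZS_fIdem hB)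
  have hbZ : IsZS M (fIdem b) := isZS_fIdem hb
  have hex : ∃ y ∈ Subgroup.centralizer (D' : Set C), ¬ MemLocalIdeal M (E.coeff y) := by
    by_contra hcon
    push Not at hcon
    apply hx'.2.1
    have h1 := hfE x'
    rw [MonoidAlgebra.coeff_sub, Finsupp.sub_apply] at h1
    refine (li_congr h1).mpr ?_
    rw [coeff_mul_sum]
    have h2 : ∑ y, (fIdem b).coeff y * E.coeff (y⁻¹ * x') =
        ∑ y, ((fIdem b).coeff y * E.coeff (y⁻¹ * x') -
          if y ∈ Subgroup.centralizer (D' : Set C) then
            (fIdem b).coeff y * E.coeff (y⁻¹ * x') else 0) +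
        ∑ y, (if y ∈ Subgroup.centralizer (D' : Set C) then
            (fIdem b).coeff y * E.coeff (y⁻¹ * x') else 0) := by
      rw [← Finset.sum_add_distrib]
      refine Finset.sum_congr rfl fun y _ => ?_
      ring
    rw [h2]
    apply li_add
    · apply li_of_lr_div hM
      apply lr_sum_conj_div hM hD'p (fun y => (fIdem b).coeff y * E.coeff (y⁻¹ * x') -
          if y ∈ Subgroup.centralizer (D' : Set C) then
            (fIdem b).coeff y * E.coeff (y⁻¹ * x') else 0)
      · intro y
        have h3 : MemLocalRing M ((fIdem b).coeff y * E.coeff (y⁻¹ * x')) :=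
          lr_mul (hbZ.2 _) (hEZ.2 _)
        split_ifs
        · rw [sub_self]; exact lr_zero M
        · rw [sub_zero]; exact h3
      · intro u hu y
        have h3 : (fIdem b).coeff (u * y * u⁻¹) = (fIdem b).coeff y := hbZ.1 _ _
        have hux : u * x' = x' * u := mem_C1.mp (hS'.le hu)
        have h4 : E.coeff ((u * y * u⁻¹)⁻¹ * x') = E.coeff (y⁻¹ * x') := by
          have e1 : (u * y * u⁻¹)⁻¹ * x' = u * (y⁻¹ * x') * u⁻¹ := by
            have e2 : x' = u * x' * u⁻¹ := by rw [hux, mul_inv_cancel_right]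
            conv_lhs => rw [e2]
            group
          rw [e1]
          exact hEZ.1 _ _
        have hcm : ∀ z ∈ Subgroup.centralizer (D' : Set C), ∀ v ∈ D', v * z * v⁻¹ = z := by
          intro z hz v hv
          rw [Subgroup.mem_centralizer_iff.mp hz v hv, mul_inv_cancel_right]
        have h5 : u * y * u⁻¹ ∈ Subgroup.centralizer (D' : Set C) ↔
            y ∈ Subgroup.centralizer (D' : Set C) := by
          constructor
          · intro h
            have h5 := hcm _ h u⁻¹ (inv_mem hu)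
            have e1 : u⁻¹ * (u * y * u⁻¹) * u⁻¹⁻¹ = y := by group
            rw [e1] at h5
            rw [h5]; exact h
          · intro h
            rw [hcm y h u hu]; exact h
        rw [h3, h4, if_congr h5 rfl rfl]
      · intro y hy
        rw [if_pos hy, sub_self]
    · apply li_sum
      intro y _
      split_ifs with h
      · apply li_mul_left (hbZ.2 _)
        apply hcon
        exact mul_mem (inv_mem h) (le_C1_iff.mp hS'.le)
      · exact li_zero M
  obtain ⟨y, hy, hEy⟩ := hex
  rw [hE, coeff_brAlg, if_pos ((hmem _).mp y.2)] at hEy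
  have hEy' : ¬ MemLocalIdeal M (blockCoeff B (y : G)) := hEy
  -- the group generated by D and D'
  have hD'C : D'.map C.subtype ≤ C := Subgroup.map_subtype_le _
  have hRp : IsPGroup p (D'.map C.subtype ⊔ D : Subgroup G) :=
    IsPGroup.to_sup_of_normal_right' (hD'p.map _) hDp
      ((hD'C.trans hC.le).trans (centralizer_le_nz D))
  have hRy : D'.map C.subtype ⊔ D ≤ C1 (y : G) := by
    apply sup_le
    · rintro _ ⟨d, hd, rfl⟩
      rw [mem_C1]
      exact congrArg Subtype.val (Subgroup.mem_centralizer_iff.mp hy d hd)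
    · exact le_C1_iff.mpr ((hmem _).mp y.2)
  obtain ⟨c, hc⟩ := exists_conj_le_defect hM hB hD hEy' hRp hRy
  have hcard : Nat.card (D'.map C.subtype ⊔ D : Subgroup G) ≤ Nat.card D := by
    rw [← Cfsg.Agent.L.card_cj c D]
    exact Subgroup.card_le_of_le hc
  have hRD : D = D'.map C.subtype ⊔ D := Subgroup.eq_of_le_of_card_ge le_sup_right hcard
  have hle : D' ≤ D.subgroupOf C := by
    intro d hd
    rw [Subgroup.mem_subgroupOf, hRD]
    exact Subgroup.mem_sup_left ⟨d, hd, rfl⟩
  have hn : (D.subgroupOf C).Normal := normal_subgroupOf (hC.le.trans (centralizer_le_nz D))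
  have hge : D.subgroupOf C ≤ D' :=
    normal_le_defect hM hb hD' (hDp.comap_of_injective _ (C.subtype_injective))
  rw [le_antisymm hge hle]
  exact hD'

lemma fact_height_zero_index (hM : IsPModular p M) {B : Set (IrrCharacter G)}
    (hB : IsPBlock M B) {D : Subgroup G} (hD : IsDefectGroup p M B D) {χ : IrrCharacter G}
    (hχ : χ ∈ B) (h0 : blockHeight p B (χ : G → ℂ) = 0) :
    (charDegree (χ : G → ℂ)).factorization p = D.index.factorization p := by
  have hp := hM.1
  have hfp := Fact.mk hp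
  obtain ⟨g, hg, hS⟩ := (isDefectGroup_iff hM).mp hD
  rw [fact_of_height_zero hM hB hχ h0 hg]
  have h1 := fact_index (p := p) g
  have h2 := sylIn_card hp hS
  have h3 : (Nat.card G).factorization p =
      (Nat.card D).factorization p + D.index.factorization p := by
    rw [← Subgroup.index_mul_card D, Nat.factorization_mul
      Subgroup.index_ne_zero_of_finite Nat.card_pos.ne', Finsupp.add_apply, add_comm]
  rw [h2, hp.factorization_pow, Finsupp.single_eq_same] at h3
  omega

lemma le_fact_index (hM : IsPModular p M) {B : Set (IrrCharacter G)}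
    (hB : IsPBlock M B) {D : Subgroup G} (hD : IsDefectGroup p M B D) {χ : IrrCharacter G}
    (hχ : χ ∈ B) :
    D.index.factorization p ≤ (charDegree (χ : G → ℂ)).factorization p := by
  obtain ⟨ψ, hψ, h0⟩ := exists_height_zero hM hB
  rw [← fact_height_zero_index hM hB hD hψ h0]
  unfold blockHeight at h0
  have h1 : sInf ((fun χ : IrrCharacter G => (charDegree (χ : G → ℂ)).factorization p) '' B) ≤
      (charDegree (χ : G → ℂ)).factorization p := Nat.sInf_le ⟨χ, hχ, rfl⟩
  omega

end main

section unit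

variable {G : Type*} [Group G] [Fintype G] {p : ℕ} {M : Ideal AlgInt}

lemma blockPart_one_eq (B : Set (IrrCharacter G)) {θ : G → ℂ} (hθ : IsClassFunction G θ) :
    blockPart B θ 1 = lin θ (fIdem B) := by
  rw [blockPart_eq_actFun B hθ]
  unfold actFun
  rw [← MonoidAlgebra.one_def, mul_one]

/-- **Key fact**: for a character of height zero the inner product with itself over the
`p`-regular elements is a unit times `χ(1) / |G|`. -/
theorem not_li_omega_regAlg (hM : IsPModular p M) {B : Set (IrrCharacter G)}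
    (hB : IsPBlock M B) {χ : IrrCharacter G} (hχ : χ ∈ B)
    (h0 : blockHeight p B (χ : G → ℂ) = 0) :
    ¬ MemLocalIdeal M (omega (χ : G → ℂ) (regAlg p (χ : G → ℂ))) := by
  classical
  have hpr := hM.2.1.isPrime
  have hp := hM.1
  have hfp := Fact.mk hp
  obtain ⟨D, hD⟩ := exists_isDefectGroup hM hB
  have hDp : IsPGroup p D := IsDefectGroup.isPGroup hM hD
  obtain ⟨g₀, hg₀, hS₀⟩ := (isDefectGroup_iff hM).mp hD
  obtain ⟨C, hC⟩ : ∃ C : Subgroup G, C = Subgroup.centralizer (D : Set G) := ⟨_, rfl⟩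
  have hmem : ∀ y : G, y ∈ C ↔ y ∈ Subgroup.centralizer (D : Set G) := fun y => by rw [hC]
  have hCf : Fintype C := Fintype.ofFinite _
  have hIf : Fintype (IrrCharacter C) := Fintype.ofFinite _
  have hg₀C : g₀ ∈ C := (hmem _).mpr (le_C1_iff.mp hS₀.le)
  let x : C := ⟨g₀, hg₀C⟩
  obtain ⟨b, hb, hfE, hEξ, hbx⟩ := exists_local_block hM hB hχ hDp hC x
    (not_li_value hM hB hχ h0 hg₀)
  have hbD := local_defect hM hB hD hC hb hfE
  set Z : Subgroup C := D.subgroupOf C with hZ
  have hZp : IsPGroup p Z := hDp.comap_of_injective _ (C.subtype_injective)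
  have hZc : Z ≤ Subgroup.center C := by
    intro z hz
    rw [Subgroup.mem_center_iff]
    intro c
    apply Subtype.ext
    exact (Subgroup.mem_centralizer_iff.mp ((hmem _).mp c.2) z (Subgroup.mem_subgroupOf.mp hz)).symm
  obtain ⟨ζ, hζ, hζ0⟩ := exists_height_zero hM hb
  have hdeg := fact_height_zero_index hM hb hbD hζ hζ0
  -- the class of x in C
  have hv1 : (C1 x).index.factorization p ≤ Z.index.factorization p := by
    have h1 : Z ≤ C1 x := by
      intro z hz
      rw [mem_C1]
      exact (Subgroup.mem_center_iff.mp (hZc hz) x).symm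
    have h2 : (C1 x).index ∣ Z.index := Subgroup.index_dvd_of_le h1
    exact (Nat.factorization_le_iff_dvd Subgroup.index_ne_zero_of_finite
      Subgroup.index_ne_zero_of_finite).mpr h2 p
  have hv2 : Z.index.factorization p ≤ (C1 x).index.factorization p := by
    obtain ⟨R, hR⟩ := Cfsg.Agent.L.exists_sylIn (p := p) (C1 x)
    have hRC : R.map C.subtype ≤ C := Subgroup.map_subtype_le _
    have hRp : IsPGroup p (R.map C.subtype ⊔ D : Subgroup G) :=
      IsPGroup.to_sup_of_normal_right' (hR.isPGroup.map _) hDp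
        ((hRC.trans hC.le).trans (centralizer_le_nz D))
    have hRy : R.map C.subtype ⊔ D ≤ C1 g₀ := by
      apply sup_le
      · rintro _ ⟨d, hd, rfl⟩
        rw [mem_C1]
        exact congrArg Subtype.val (mem_C1.mp (hR.le hd))
      · exact hS₀.le
    have hcard := hS₀.card_le hRp hRy
    have hRD : D = R.map C.subtype ⊔ D := Subgroup.eq_of_le_of_card_ge le_sup_right hcard
    have hle : R ≤ Z := by
      intro d hd
      rw [hZ, Subgroup.mem_subgroupOf, hRD]
      exact Subgroup.mem_sup_left ⟨d, hd, rfl⟩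
    have h1 := fact_index (p := p) x
    have h2 := sylIn_card hp hR
    have h3 : (Nat.card C).factorization p =
        (Nat.card Z).factorization p + Z.index.factorization p := by
      rw [← Subgroup.index_mul_card Z, Nat.factorization_mul
        Subgroup.index_ne_zero_of_finite Nat.card_pos.ne', Finsupp.add_apply, add_comm]
    have h4 : (Nat.card R).factorization p ≤ (Nat.card Z).factorization p :=
      (Nat.factorization_le_iff_dvd Nat.card_pos.ne' Nat.card_pos.ne').mpr
        (Subgroup.card_dvd_of_le hle) p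
    rw [h2, hp.factorization_pow, Finsupp.single_eq_same] at h4
    omega
  have hxi : ((C1 x).index : ℂ) ≠ 0 := by exact_mod_cast Subgroup.index_ne_zero_of_finite
  -- the block part
  set θ : C → ℂ := fun c => (χ : G → ℂ) c with hθ
  have hθcl : IsClassFunction C θ := fun a c => irr_classFun χ.2 _ _
  have hθch : IsCharacter C θ := isChar_restrict C (irr_isChar χ.2)
  obtain ⟨m, hm, -⟩ := char_expand hθch
  have hpart : ∀ y, blockPart b θ y = ∑ ψ : IrrCharacter C with ψ ∈ b, (m ψ : ℂ) * (ψ : C → ℂ) y := by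
    intro y
    rw [blockPart_eq_sum]
    exact Finset.sum_congr rfl fun ψ _ => by rw [hm]
  set n : ℂ := blockPart b θ 1 with hn
  -- the value at x
  have hval : MemLocalIdeal M (blockPart b θ x -
      n / ((C1 x).index : ℂ) * centralChar (ζ : C → ℂ) x) := by
    have h1 : blockPart b θ x - n / ((C1 x).index : ℂ) * centralChar (ζ : C → ℂ) x =
        ∑ ψ : IrrCharacter C with ψ ∈ b, (m ψ : ℂ) *
          ((charDegree (ψ : C → ℂ) : ℂ) / ((C1 x).index : ℂ)) *
          (centralChar (ψ : C → ℂ) x - centralChar (ζ : C → ℂ) x) := by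
      rw [hn, hpart, hpart, Finset.sum_div, Finset.sum_mul, ← Finset.sum_sub_distrib]
      refine Finset.sum_congr rfl fun ψ _ => ?_
      obtain ⟨hd1, hd2⟩ := charDegree_spec ψ.2
      have hd3 : (charDegree (ψ : C → ℂ) : ℂ) ≠ 0 := by exact_mod_cast hd2
      have h2 : (ψ : C → ℂ) x = centralChar (ψ : C → ℂ) x *
          ((charDegree (ψ : C → ℂ) : ℂ) / ((C1 x).index : ℂ)) := by
        unfold centralChar
        rw [hd1]
        have h6 : ((Subgroup.centralizer ({x} : Set C)).index : ℂ) ≠ 0 := hxi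
        field_simp
      rw [h2, hd1]
      ring
    rw [h1]
    apply li_sum
    intro ψ hψ
    have hψb := (Finset.mem_filter.mp hψ).2
    refine li_mul_left (lr_mul (lr_natCast M _) (lr_natDiv hM (charDegree_spec ψ.2).2
      Subgroup.index_ne_zero_of_finite (hv1.trans (le_fact_index hM hb hbD hψb)))) ?_
    exact isPBlock_sameBlock hb hψb hζ x
  have hbx' : ¬ MemLocalIdeal M (blockPart b θ x) := by
    rw [blockPart_eq_actFun b hθcl]
    exact hbx
  have hnS : MemLocalRing M (n / ((C1 x).index : ℂ)) := by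
    rw [hn, hpart, Finset.sum_div]
    apply lr_sum
    intro ψ hψ
    have hψb := (Finset.mem_filter.mp hψ).2
    obtain ⟨hd1, hd2⟩ := charDegree_spec ψ.2
    rw [hd1, mul_div_assoc]
    exact lr_mul (lr_natCast M _) (lr_natDiv hM hd2
      Subgroup.index_ne_zero_of_finite (hv1.trans (le_fact_index hM hb hbD hψb)))
  have hn1 : ¬ MemLocalIdeal M (n / ((C1 x).index : ℂ)) := by
    intro h
    apply hbx'
    exact (li_congr hval).mpr (li_mul_right h (lr_centralChar ζ.2 x))
  -- now compute
  obtain ⟨hz1, hz2⟩ := charDegree_spec ζ.2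
  have hz3 : (charDegree (ζ : C → ℂ) : ℂ) ≠ 0 := by exact_mod_cast hz2
  have hCc : (Nat.card C : ℂ) ≠ 0 := by exact_mod_cast Nat.card_pos.ne'
  have hZn : (Nat.card Z : ℂ) ≠ 0 := by exact_mod_cast Nat.card_pos.ne'
  have hreg : regAlg p (ζ : C → ℂ) =
      ((Nat.card C : ℂ) / ((charDegree (ζ : C → ℂ) : ℂ) * (Nat.card Z : ℂ))) • fIdem b := by
    ext y
    rw [coeff_regAlg, MonoidAlgebra.coeff_smul, Finsupp.smul_apply, smul_eq_mul, coeff_fIdem]
    split_ifs with h
    · rw [blockCoeff_eq_zero hM hb y h, mul_zero]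
    · have h1 := blockCoeff_laradji hM hZp hZc hdeg h
      rw [← isPBlock_eq_blockOf hb hζ, hz1] at h1
      rw [h1]
      field_simp
  have hnreal : conj n = n := by
    rw [hn, hpart, map_sum]
    refine Finset.sum_congr rfl fun ψ _ => ?_
    obtain ⟨hd1, hd2⟩ := charDegree_spec ψ.2
    rw [hd1, map_mul]
    simp
  have hom : omega (ζ : C → ℂ) (brAlg D C (regAlg p (χ : G → ℂ))) =
      (n / ((C1 x).index : ℂ)) * ((((C1 x).index * Nat.card C : ℕ) : ℂ) /
        ((charDegree (ζ : C → ℂ) * charDegree (ζ : C → ℂ) * Nat.card Z : ℕ) : ℂ)) := by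
    have h1 : brAlg D C (regAlg p (χ : G → ℂ)) = regAlg p θ := by
      ext y
      rw [coeff_brAlg, if_pos ((hmem _).mp y.2), coeff_regAlg, coeff_regAlg,
        Subgroup.orderOf_coe]
    unfold omega
    rw [h1, lin_regAlg_symm, hreg, map_smul, smul_eq_mul, ← blockPart_one_eq b hθcl, ← hn,
      map_mul, hnreal, hz1]
    have e1 : conj ((Nat.card C : ℂ) / ((charDegree (ζ : C → ℂ) : ℂ) * (Nat.card Z : ℂ))) =
        (Nat.card C : ℂ) / ((charDegree (ζ : C → ℂ) : ℂ) * (Nat.card Z : ℂ)) := by
      rw [map_div₀, map_mul]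
      simp
    rw [e1]
    push_cast
    field_simp
  have hunit : ¬ MemLocalIdeal M (omega (ζ : C → ℂ) (brAlg D C (regAlg p (χ : G → ℂ)))) := by
    rw [hom]
    have hi0 : (C1 x).index ≠ 0 := Subgroup.index_ne_zero_of_finite
    have hC0 : Nat.card C ≠ 0 := Nat.card_pos.ne'
    have hZ0 : Nat.card Z ≠ 0 := Nat.card_pos.ne'
    have hA0 : (C1 x).index * Nat.card C ≠ 0 := mul_ne_zero hi0 hC0
    have hB0 : charDegree (ζ : C → ℂ) * charDegree (ζ : C → ℂ) * Nat.card Z ≠ 0 :=
      mul_ne_zero (mul_ne_zero hz2 hz2) hZ0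
    have h3 : (Nat.card C).factorization p =
        (Nat.card Z).factorization p + Z.index.factorization p := by
      rw [← Subgroup.index_mul_card Z, Nat.factorization_mul
        Subgroup.index_ne_zero_of_finite Nat.card_pos.ne', Finsupp.add_apply, add_comm]
    have hfac : ((C1 x).index * Nat.card C).factorization p =
        (charDegree (ζ : C → ℂ) * charDegree (ζ : C → ℂ) * Nat.card Z).factorization p := by
      rw [Nat.factorization_mul hi0 hC0, Nat.factorization_mul (mul_ne_zero hz2 hz2) hZ0,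
        Nat.factorization_mul hz2 hz2]
      simp only [Finsupp.add_apply]
      rw [hdeg]
      omega
    intro h
    rw [li_mul_iff hnS (lr_natDiv hM hA0 hB0 hfac.ge)] at h
    rcases h with h | h
    · exact hn1 h
    · exact not_li_natDiv hM hA0 hB0 hfac.le h
  -- transfer
  obtain ⟨ψ, hψ⟩ := exists_irr_brForm hM hDp (H := C) hC.ge
    (hC.le.trans (centralizer_le_nz D)) ζ
  have hψB : ψ ∈ B := by
    have h1 := hψ (fIdem B) (isZS_fIdem hB)
    have h2 := hEξ ζ hζ
    rw [omega_fIdem] at h1
    by_contra h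
    rw [if_neg h, sub_zero] at h1
    have h3 := li_sub h1 h2
    rw [sub_sub_cancel] at h3
    exact not_li_one M h3
  have hZreg := isZS_regAlg (M := M) (p := p) (irr_isChar χ.2)
  have h1 := hψ _ hZreg
  have h2 := li_omega_sub hZreg (irr_classFun ψ.2) (irr_classFun χ.2)
    (isPBlock_sameBlock hB hψB hχ)
  intro h3
  exact hunit ((li_congr (li_sub_trans h1 h2)).mpr h3)

end unit

end Cfsg.Agent.H11
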